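import Cfsg.Statements.S0530
import Cfsg.Agent.H1.Super2

set_option autoImplicit false
set_option linter.style.haveILetI false
set_option linter.unusedVariables false
open Cfsg

namespace Cfsg.Agent.S0530

/-- A finite group whose order is twice a prime power is supersolvable. -/
theorem result {G : Type*} [Group G] [Finite G] (p n : ℕ) (hp : p.Prime) (hG : Nat.card G = 2 * p ^ n) : Cfsg.IsSupersolvable G := by
  haveI := Fact.mk hp
  by_cases h2 : p = 2
  · subst h2
    haveI := (IsPGroup.of_card (p := 2) (n := n + 1) (by rw [hG, pow_succ'])).isNilpotent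
    exact Cfsg.H1.isSupersolvable_of_isNilpotent
  obtain ⟨P, hP⟩ := Sylow.exists_subgroup_card_pow_prime p (G := G) (n := n) ⟨2, by rw [hG, mul_comm]⟩
  have hi : P.index = 2 := Nat.eq_of_mul_eq_mul_left (Nat.card_pos (α := P))
    (by rw [P.card_mul_index, hP, hG, mul_comm])
  haveI := Subgroup.normal_of_index_eq_two hi
  refine Cfsg.H1.isSupersolvable_of_pow_mem (IsPGroup.of_card hP)
    (Cfsg.H1.commutator_le_of_coatom_normal
      (Cfsg.H1.isCoatom_of_index_prime (hi ▸ Nat.prime_two))) fun g => ?_
  obtain ⟨k, hk⟩ := hp.even_sub_one h2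
  rw [hk, ← two_mul, pow_mul, ← hi]
  exact P.pow_mem (P.pow_index_mem g) k

end Cfsg.Agent.S0530
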