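import Cfsg.Statements.S0535
import Cfsg.Agent.H1.MinNonNil

set_option autoImplicit false
set_option linter.style.haveILetI false
set_option linter.unusedVariables false
open Cfsg

namespace Cfsg.Agent.S0535

/-- Suppose that for every nontrivial subgroup H of a finite group and every prime p dividing the order of H there is a proper subgroup of H whose index in H is a power of p. Then the group is solvable. -/
theorem result {G : Type*} [Group G] [Finite G] (h : ∀ H : Subgroup G, H ≠ ⊥ → ∀ p : ℕ, p.Prime → p ∣ Nat.card H → ∃ K : Subgroup H, K ≠ ⊤ ∧ ∃ k : ℕ, K.index = p ^ k) : Group.IsSolvable G := by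
  suffices ∀ H : Subgroup G, Group.IsSolvable H by
    haveI := this ⊤
    exact Group.isSolvable_of_surjective (f := (⊤ : Subgroup G).subtype)
      fun x => ⟨⟨x, Subgroup.mem_top x⟩, rfl⟩
  intro H
  induction H using WellFoundedLT.induction with
  | ind H ih =>
    by_cases h0 : H = ⊥
    · subst h0; infer_instance
    have key : ∀ p : ℕ, p.Prime → p ∣ Nat.card H →
        ∃ K : Subgroup H, Group.IsSolvable K ∧ ∃ k : ℕ, K.index = p ^ k := by
      intro p hp hd
      obtain ⟨K, hK, hk⟩ := h H h0 p hp hd
      refine ⟨K, ?_, hk⟩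
      haveI := ih (K.map H.subtype) ((Subgroup.map_subtype_le K).lt_of_ne fun e => hK
        (Subgroup.map_injective H.subtype_injective (by
          rw [e, ← MonoidHom.range_eq_map, Subgroup.range_subtype])))
      exact Group.isSolvable_of_surjective
        (f := (Subgroup.equivMapOfInjective K _ H.subtype_injective).symm.toMonoidHom)
        (MulEquiv.surjective _)
    obtain ⟨p, hp, hd⟩ := Cfsg.H1.exists_prime_dvd_card_of_ne_bot h0
    by_cases h1 : ∀ r : ℕ, r.Prime → r ∣ Nat.card H → r = p ∨ r = p
    · exact Cfsg.H5.isSolvable_of_prime_dvd_two hp hp h1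
    push Not at h1
    obtain ⟨q, hq, hqd, hqp, -⟩ := h1
    by_cases h2 : ∀ r : ℕ, r.Prime → r ∣ Nat.card H → r = p ∨ r = q
    · exact Cfsg.H5.isSolvable_of_prime_dvd_two hp hq h2
    push Not at h2
    obtain ⟨r, hr, hrd, hrp, hrq⟩ := h2
    obtain ⟨A, hA, a, ha⟩ := key p hp hd
    obtain ⟨B, hB, b, hb⟩ := key q hq hqd
    obtain ⟨C, hC, c, hc⟩ := key r hr hrd
    refine Cfsg.H1.isSolvable_of_coprime_index hA hB hC ?_ ?_ ?_
    · rw [ha, hb]; exact Nat.coprime_pow_primes _ _ hp hq hqp.symm
    · rw [ha, hc]; exact Nat.coprime_pow_primes _ _ hp hr hrp.symm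
    · rw [hb, hc]; exact Nat.coprime_pow_primes _ _ hq hr hrq.symm

end Cfsg.Agent.S0535
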