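import Cfsg.Statements.S0537
import Cfsg.Agent.H1.MinNonNil

set_option autoImplicit false
set_option linter.style.haveILetI false
set_option linter.unusedVariables false
open Cfsg

namespace Cfsg.Agent.S0537

/-- A finite non-abelian group in which every proper subgroup is abelian is either of prime-power order, or is generated by a cyclic Sylow p-subgroup and a normal Sylow q-subgroup that is elementary abelian, for distinct primes p and q. -/
theorem result {G : Type*} [Group G] [Finite G] (hna : ¬ IsMulCommutative G) (h : ∀ H : Subgroup G, H ≠ ⊤ → IsMulCommutative H) : (∃ p : ℕ, p.Prime ∧ IsPGroup p G) ∨ ∃ p q : ℕ, p.Prime ∧ q.Prime ∧ p ≠ q ∧ ∃ (P : Sylow p G) (Q : Sylow q G), IsCyclic P ∧ (Q : Subgroup G).Normal ∧ Cfsg.IsElementaryAbelian q (Q : Subgroup G) ∧ (P : Subgroup G) ⊔ Q = ⊤ := by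
  refine (Cfsg.H1.exists_of_minimal_nonabelian hna h).imp_right ?_
  rintro ⟨p, q, hp, hq, hpq, x, Q, hQ, hx, hQq, hs, hE⟩
  haveI := Fact.mk hp
  haveI := Fact.mk hq
  have hf := Cfsg.H1.fac_of_normal_right hs
  obtain ⟨P', hP'⟩ := Cfsg.H1.exists_sylow_eq_of_fac hf hx
    (Cfsg.H1.not_dvd_card_of_isPGroup_of_ne hpq hQq)
  obtain ⟨Q', hQ'⟩ := Cfsg.H1.exists_sylow_eq_of_fac hf.symm hQq
    (Cfsg.H1.not_dvd_card_of_isPGroup_of_ne hpq.symm hx)
  refine ⟨p, q, hp, hq, hpq, P', Q', ?_, hQ' ▸ hQ, hQ' ▸ hE, by rw [hP', hQ', hs]⟩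
  change IsCyclic (P' : Subgroup G)
  rw [hP']; infer_instance

end Cfsg.Agent.S0537
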