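import Cfsg.Statements.S0540
import Cfsg.Agent.H1.Zip

set_option autoImplicit false
set_option linter.style.haveILetI false
set_option linter.unusedVariables false
open Pointwise
open Cfsg

namespace Cfsg.Agent.S0540

/-- A uniqueness lemma of zipper type. Let A be a subgroup of a finite group G and U a nonempty family of subgroups. For V in U write S(V) for the set of conjugates of A that lie in V and are subnormal in V. Assume: A belongs to S(V) for every V in U; a member of some S(W) that lies in V belongs to S(V); and for all V, W in U the normalizer of the join of S(V) ∩ S(W) lies in some member of U. Then U has a greatest element. -/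
theorem result {G : Type*} [Group G] [Finite G] (A : Subgroup G) (U : Set (Subgroup G)) (hU : U.Nonempty) (S : Subgroup G → Set (Subgroup G)) (hS : ∀ V B : Subgroup G, B ∈ S V ↔ (∃ g : G, B = MulAut.conj g • A) ∧ B ≤ V ∧ (B.subgroupOf V).IsSubnormal) (h1 : ∀ V ∈ U, A ∈ S V) (h2 : ∀ V ∈ U, ∀ W ∈ U, ∀ B ∈ S W, B ≤ V → B ∈ S V) (h3 : ∀ V ∈ U, ∀ W ∈ U, ∃ X ∈ U, Subgroup.normalizer ((sSup (S V ∩ S W) : Subgroup G) : Set G) ≤ X) : ∃ M ∈ U, ∀ V ∈ U, V ≤ M := by
  have hsn : ∀ V, ∀ B ∈ S V, Cfsg.L0.SN B V := fun V B hB =>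
    Cfsg.L0.sn_iff.mpr ((hS V B).mp hB).2
  have hcj : ∀ V, ∀ B ∈ S V, ∀ g ∈ V, MulAut.conj g • B ∈ S V := fun V B hB g hg => by
    obtain ⟨⟨x, hx⟩, -⟩ := (hS V B).mp hB
    exact (hS V _).mpr ⟨⟨g * x, by rw [Cfsg.H1.conj_mul_smul, hx]⟩,
      Cfsg.L0.sn_iff.mp ((hsn V B hB).cj_of_mem (Subgroup.le_normalizer hg))⟩
  have hmax : ∀ V ∈ U, ∃ M, V ≤ M ∧ Maximal (· ∈ U) M := fun V hV =>
    (Set.toFinite U).exists_le_maximal hV
  have key : ∀ T : Set (Subgroup G), ∀ V W, Maximal (· ∈ U) V → Maximal (· ∈ U) W →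
      S V ∩ S W = T → V = W := by
    intro T
    induction T using WellFoundedGT.induction with
    | ind T ih =>
      intro V W hV hW hT
      obtain ⟨X, hX, hX'⟩ := h3 V hV.1 W hW.1
      obtain ⟨M, hXM, hM⟩ := hmax X hX
      rw [hT] at hX'
      replace hX' := hX'.trans hXM
      have aux : ∀ V, Maximal (· ∈ U) V → T ⊆ S V → V = M := by
        intro V hV hTV
        by_cases h : S V ⊆ T
        · refine hV.eq_of_le hM.1 (le_trans ?_ hX')
          exact Cfsg.L0.le_normalizer_sSup fun g hg B hB => h (hcj V B (hTV hB) g hg)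
        obtain ⟨B, hB, hB0, hBn⟩ :=
          Cfsg.H1.exists_le_normalizer_sSup V (S V) T (hsn V) (hcj V) ⟨hTV, h⟩
        refine ih (S V ∩ S M) (show T ⊂ S V ∩ S M from ⟨fun C hC => ⟨hTV hC, h2 M hM.1 V hV.1 C (hTV hC)
          ((le_sSup hC).trans (Subgroup.le_normalizer.trans hX'))⟩, fun h' => hB0 (h' ?_)⟩)
          V M hV hM rfl
        exact ⟨hB, h2 M hM.1 V hV.1 B hB (hBn.trans hX')⟩
      rw [aux V hV (hT ▸ Set.inter_subset_left), aux W hW (hT ▸ Set.inter_subset_right)]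
  obtain ⟨V₀, hV₀⟩ := hU
  obtain ⟨M, -, hM⟩ := hmax V₀ hV₀
  refine ⟨M, hM.1, fun V hV => ?_⟩
  obtain ⟨M', h, hM'⟩ := hmax V hV
  exact key _ M' M hM' hM rfl ▸ h

end Cfsg.Agent.S0540
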