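import Cfsg.Statements.S0541
import Cfsg.Agent.H1.Zip

set_option autoImplicit false
set_option linter.style.haveILetI false
set_option linter.unusedVariables false
open Pointwise
open Cfsg

namespace Cfsg.Agent.S0541

/-- Let Z and Y be subgroups of a finite group G and p a prime. Suppose that for every g in G the subgroup generated by the conjugates of g Z g⁻¹ under Y is a p-group. Then there is a Sylow p-subgroup P of G such that Y normalizes the subgroup generated by all conjugates of Z contained in P. -/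
theorem result {G : Type*} [Group G] [Finite G] (p : ℕ) [Fact p.Prime] (Z Y : Subgroup G) (h : ∀ g : G, IsPGroup p ↥(⨆ y ∈ Y, MulAut.conj (y * g) • Z)) : ∃ P : Sylow p G, Y ≤ Subgroup.normalizer ((⨆ g ∈ {g : G | MulAut.conj g • Z ≤ (P : Subgroup G)}, MulAut.conj g • Z : Subgroup G) : Set G) := by
  obtain ⟨T, ⟨hT1, hT2, hT3⟩, hmax⟩ := (Set.toFinite {T : Set (Subgroup G) |
    (∀ B ∈ T, ∃ g : G, B = MulAut.conj g • Z) ∧ IsPGroup p (sSup T : Subgroup G) ∧
      Y ≤ Subgroup.normalizer ((sSup T : Subgroup G) : Set G)}).exists_maximal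
      ⟨∅, by simp, by rw [sSup_empty]; exact IsPGroup.of_bot,
        by rw [sSup_empty]; exact Subgroup.le_normalizer_of_normal⟩
  obtain ⟨P, hP⟩ := hT2.exists_le_sylow
  refine ⟨P, ?_⟩
  let S : Set (Subgroup G) := {B | (∃ g : G, B = MulAut.conj g • Z) ∧ B ≤ P}
  have hTS : T ⊆ S := fun B hB => ⟨hT1 B hB, (le_sSup hB).trans hP⟩
  have e : (⨆ g ∈ {g : G | MulAut.conj g • Z ≤ (P : Subgroup G)}, MulAut.conj g • Z) = sSup S := by
    refine le_antisymm (iSup₂_le fun g hg => le_sSup ⟨⟨g, rfl⟩, hg⟩) (sSup_le ?_)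
    rintro _ ⟨⟨g, rfl⟩, hg⟩
    exact le_iSup₂_of_le g hg le_rfl
  rw [e]
  by_cases hST : S ⊆ T
  · rwa [Set.Subset.antisymm hST hTS]
  exfalso
  obtain ⟨X, ⟨⟨g, rfl⟩, -⟩, hX0, hXn⟩ := Cfsg.H1.exists_le_normalizer_sSup P S T
    (fun B hB => Cfsg.L0.sn_of_isPGroup P.isPGroup' hB.2)
    (fun B hB x hx => by
      obtain ⟨⟨g, rfl⟩, hg⟩ := hB
      exact ⟨⟨x * g, (Cfsg.H1.conj_mul_smul _ _ _).symm⟩,
        Cfsg.L0.cj_le_of_le hg (Subgroup.le_normalizer hx)⟩) ⟨hTS, hST⟩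
  let T' : Set (Subgroup G) := {B | ∃ y ∈ Y, B = MulAut.conj (y * g) • Z}
  have e' : sSup T' = ⨆ y ∈ Y, MulAut.conj (y * g) • Z := by
    refine le_antisymm (sSup_le ?_) (iSup₂_le fun y hy => le_sSup ⟨y, hy, rfl⟩)
    rintro _ ⟨y, hy, rfl⟩
    exact le_iSup₂_of_le y hy le_rfl
  have h1 : sSup T' ≤ Subgroup.normalizer ((sSup T : Subgroup G) : Set G) := by
    refine sSup_le ?_
    rintro _ ⟨y, hy, rfl⟩
    rw [Cfsg.H1.conj_mul_smul]
    exact Cfsg.L0.cj_le_of_le hXn (Subgroup.le_normalizer (hT3 hy))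
  have h2 : Y ≤ Subgroup.normalizer ((sSup T' : Subgroup G) : Set G) := by
    refine Cfsg.L0.le_normalizer_sSup ?_
    rintro y hy _ ⟨z, hz, rfl⟩
    exact ⟨y * z, Y.mul_mem hy hz, by rw [mul_assoc, Cfsg.H1.conj_mul_smul y]; rfl⟩
  refine hX0 (hmax (y := T ∪ T') ⟨?_, ?_, ?_⟩ Set.subset_union_left
    (Or.inr ⟨1, Y.one_mem, by rw [one_mul]⟩))
  · rintro B (hB | ⟨y, -, rfl⟩)
    · exact hT1 B hB
    · exact ⟨_, rfl⟩
  · rw [sSup_union]
    exact IsPGroup.to_sup_of_normal_left' hT2 (e' ▸ h g) h1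
  · rw [sSup_union]
    exact Cfsg.H1.le_normalizer_sup hT3 h2

end Cfsg.Agent.S0541
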