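import Cfsg.Statements.S0547
import Cfsg.Agent.H1.CoreFree

set_option autoImplicit false
set_option linter.style.haveILetI false
set_option linter.unusedVariables false
open Cfsg

namespace Cfsg.Agent.S0547

/-- Let a finite solvable group G act faithfully and primitively on a set, and let M be a minimal normal subgroup of G. Then M is transitive with trivial point stabilizers, and the number of points equals the order of M, which is a prime power p ^ d with d ≥ 1. -/
theorem result {G : Type*} [Group G] [Finite G] [Group.IsSolvable G] {Ω : Type*} [Nonempty Ω] [MulAction G Ω] [FaithfulSMul G Ω] (hprim : MulAction.IsPreprimitive G Ω) (M : Subgroup G) [M.Normal] (hM : M ≠ ⊥) (hmin : ∀ K : Subgroup G, K.Normal → K ≤ M → K = ⊥ ∨ K = M) : MulAction.IsPretransitive M Ω ∧ (∀ ω : Ω, MulAction.stabilizer M ω = ⊥) ∧ ∃ p d : ℕ, p.Prime ∧ 0 < d ∧ Nat.card Ω = p ^ d ∧ Nat.card M = p ^ d := by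
  have mM : H1.IsMinNormal M := ⟨inferInstance, hM, hmin⟩
  haveI := mM.isMulCommutative
  haveI ht := H1.isPretransitive_of_normal_ne_bot hprim M hM
  have hs : ∀ ω : Ω, MulAction.stabilizer M ω = ⊥ := fun ω => by
    have := H1.inf_eq_bot_of_corefree (H1.normalCore_stabilizer_eq_bot (G := G) ω)
      (H1.stabilizer_sup_eq_top (M := M) ω)
    rw [eq_bot_iff]
    intro x hx
    have h1 : (x : G) ∈ M ⊓ MulAction.stabilizer G ω := ⟨x.2, hx⟩
    rw [this] at h1
    exact Subtype.ext h1
  refine ⟨ht, hs, ?_⟩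
  obtain ⟨p, hp, -, hP⟩ := mM.exists_isPGroup
  haveI := Fact.mk hp
  haveI := (Subgroup.nontrivial_iff_ne_bot M).mpr hM
  obtain ⟨d, hd, e⟩ := hP.nontrivial_iff_card.mp inferInstance
  obtain ⟨ω⟩ := ‹Nonempty Ω›
  refine ⟨p, d, hp, hd, ?_, e⟩
  rw [← MulAction.index_stabilizer_of_transitive M ω, hs, Subgroup.index_bot, e]

end Cfsg.Agent.S0547
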