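import Cfsg.Statements.S0548
import Cfsg.Agent.H1.CoreFree

set_option autoImplicit false
set_option linter.style.haveILetI false
set_option linter.unusedVariables false
open Cfsg

namespace Cfsg.Agent.S0548

/-- Let a finite solvable group G act faithfully and primitively on a set, let M be a minimal normal subgroup and H the stabilizer of a point. Then H is a complement to M, no non-identity element of H centralizes M, and the only subgroups of M normalized by H are the trivial subgroup and M. -/
theorem result {G : Type*} [Group G] [Finite G] [Group.IsSolvable G] {Ω : Type*} [MulAction G Ω] [FaithfulSMul G Ω] (hprim : MulAction.IsPreprimitive G Ω) (M : Subgroup G) [M.Normal] (hM : M ≠ ⊥) (hmin : ∀ K : Subgroup G, K.Normal → K ≤ M → K = ⊥ ∨ K = M) (ω : Ω) : Subgroup.IsComplement' M (MulAction.stabilizer G ω) ∧ MulAction.stabilizer G ω ⊓ Subgroup.centralizer (M : Set G) = ⊥ ∧ ∀ K : Subgroup G, K ≤ M → MulAction.stabilizer G ω ≤ Subgroup.normalizer (K : Set G) → K = ⊥ ∨ K = M := by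
  have mM : H1.IsMinNormal M := ⟨inferInstance, hM, hmin⟩
  haveI := mM.isMulCommutative
  haveI ht := H1.isPretransitive_of_normal_ne_bot hprim M hM
  have h1 := H1.normalCore_stabilizer_eq_bot (G := G) ω
  have h2 := H1.stabilizer_sup_eq_top (M := M) ω
  refine ⟨H1.isComplement'_of_inf_eq_bot_of_sup_eq_top (H1.inf_eq_bot_of_corefree h1 h2)
    (sup_comm _ M ▸ h2), inf_comm _ (MulAction.stabilizer G ω) ▸
      H1.centralizer_inf_eq_bot_of_sup_eq_top h1 h2, fun K hK hn => ?_⟩
  exact hmin K (H1.normal_of_le_abelian h2 hK hn) hK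

end Cfsg.Agent.S0548
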