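import Cfsg.Statements.S0550
import Cfsg.Agent.H1.CoreFree

set_option autoImplicit false
set_option linter.style.haveILetI false
set_option linter.unusedVariables false
open Cfsg

namespace Cfsg.Agent.S0550

/-- Let U be a maximal subgroup with trivial normal core in a finite group G, and A ≠ B two minimal normal subgroups. Then A is the centralizer of B and B that of A, U complements each of them, A and B are non-abelian, and A, B and (A ⊔ B) ∩ U are pairwise isomorphic. -/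
theorem result {G : Type*} [Group G] [Finite G] (U : Subgroup G) (hU : IsCoatom U) (hcore : U.normalCore = ⊥) (A B : Subgroup G) [A.Normal] [B.Normal] (hA : A ≠ ⊥) (hB : B ≠ ⊥) (hAmin : ∀ K : Subgroup G, K.Normal → K ≤ A → K = ⊥ ∨ K = A) (hBmin : ∀ K : Subgroup G, K.Normal → K ≤ B → K = ⊥ ∨ K = B) (hAB : A ≠ B) : Subgroup.centralizer (B : Set G) = A ∧ Subgroup.centralizer (A : Set G) = B ∧ Subgroup.IsComplement' A U ∧ Subgroup.IsComplement' B U ∧ ¬ IsMulCommutative A ∧ Nonempty (A ≃* B) ∧ Nonempty (A ≃* ↥((A ⊔ B) ⊓ U)) := by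
  have mA : H1.IsMinNormal A := ⟨inferInstance, hA, hAmin⟩
  have mB : H1.IsMinNormal B := ⟨inferInstance, hB, hBmin⟩
  have hd : A ⊓ B = ⊥ := (mA.inf_eq_bot_or_le mB.normal).resolve_right fun h =>
    hAB (mB.eq_of_le mA.normal h hA)
  have hd' : B ⊓ A = ⊥ := inf_comm A B ▸ hd
  have sA := H1.sup_eq_top_of_corefree hU hcore mA.normal hA
  have sB := H1.sup_eq_top_of_corefree hU hcore mB.normal hB
  have cA := H1.centralizer_inf_eq_bot_of_sup_eq_top hcore sA
  have cB := H1.centralizer_inf_eq_bot_of_sup_eq_top hcore sB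
  have e1 : A = Subgroup.centralizer (B : Set G) :=
    H1.eq_of_le_of_inf_eq_bot (H1.IsMinNormal.le_centralizer_of_inf_eq_bot hd') cB sA
  have e2 : B = Subgroup.centralizer (A : Set G) :=
    H1.eq_of_le_of_inf_eq_bot (H1.IsMinNormal.le_centralizer_of_inf_eq_bot hd) cA sB
  rw [← e1] at cB
  rw [← e2] at cA
  have d1 : B ⊔ (A ⊔ B) ⊓ U = A ⊔ B := by
    rw [inf_comm, ← H1.normal_sup_inf le_sup_right, sup_comm B U, sB, top_inf_eq]
  have d2 : A ⊔ (A ⊔ B) ⊓ U = A ⊔ B := by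
    rw [inf_comm, ← H1.normal_sup_inf le_sup_left, sup_comm A U, sA, top_inf_eq]
  obtain ⟨f1⟩ : Nonempty (A ≃* ↥((A ⊔ B) ⊓ U)) := H1.nonempty_equiv_of_complements (N := B) hd'
    (le_bot_iff.mp (cA ▸ inf_le_inf_left B inf_le_right)) (by rw [sup_comm (_ ⊓ _) B, d1])
  obtain ⟨f2⟩ : Nonempty (B ≃* ↥((A ⊔ B) ⊓ U)) := H1.nonempty_equiv_of_complements (N := A) hd
    (le_bot_iff.mp (cB ▸ inf_le_inf_left A inf_le_right)) (by rw [sup_comm _ A, sup_comm _ A, d2])
  refine ⟨e1.symm, e2.symm, H1.isComplement'_of_inf_eq_bot_of_sup_eq_top cB (sup_comm U A ▸ sA),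
    H1.isComplement'_of_inf_eq_bot_of_sup_eq_top cA (sup_comm U B ▸ sB), fun hc => ?_,
    ⟨f1.trans f2.symm⟩, ⟨f1⟩⟩
  have : A ≤ B := e2 ▸ Subgroup.le_centralizer A
  exact hA (by rw [← hd, inf_of_le_left this])

end Cfsg.Agent.S0550
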