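import Cfsg.Statements.S0551
import Cfsg.Agent.H1.CoreFree

set_option autoImplicit false
set_option linter.style.haveILetI false
set_option linter.unusedVariables false
open Pointwise
open Cfsg

namespace Cfsg.Agent.S0551

/-- In a finite solvable group all core-free maximal subgroups are conjugate. -/
theorem result {G : Type*} [Group G] [Finite G] [Group.IsSolvable G] (U V : Subgroup G) (hU : IsCoatom U) (hV : IsCoatom V) (hUc : U.normalCore = ⊥) (hVc : V.normalCore = ⊥) : ∃ g : G, MulAut.conj g • U = V := by
  haveI : Nontrivial G := by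
    by_contra h
    rw [not_nontrivial_iff_subsingleton] at h
    exact hU.1 (Subsingleton.elim _ _)
  obtain ⟨N, hN⟩ := H1.exists_isMinNormal G
  exact H1.exists_conj_eq_of_corefree hN hU.1 hV.1
    (H1.sup_eq_top_of_corefree hU hUc hN.normal hN.ne_bot)
    (H1.sup_eq_top_of_corefree hV hVc hN.normal hN.ne_bot) hUc

end Cfsg.Agent.S0551
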