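import Cfsg.Statements.S0552
import Cfsg.Agent.H1.Fitting

set_option autoImplicit false
set_option linter.style.haveILetI false
set_option linter.unusedVariables false
open Cfsg

namespace Cfsg.Agent.S0552

/-- Let σ be an automorphism of a finite solvable group G fixing every element of the Fitting subgroup. If σ is not the identity then the order of σ and the order of G have a common prime factor. -/
theorem result {G : Type*} [Group G] [Finite G] [Group.IsSolvable G] (σ : G ≃* G) (hσ : ∀ x ∈ Cfsg.fittingSubgroup G, σ x = x) (hne : σ ≠ MulEquiv.refl G) : ¬ (orderOf σ).Coprime (Nat.card G) := by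
  intro hc
  apply hne
  ext g
  have h1 : g⁻¹ * σ g ∈ fittingSubgroup G := by
    apply H1.centralizer_fitting_le
    intro f hf
    have := hσ _ ((H1.fitting_normal G).conj_mem f hf g)
    rw [map_mul, map_mul, map_inv, hσ f hf] at this
    calc f * (g⁻¹ * σ g) = g⁻¹ * (g * f * g⁻¹) * σ g := by group
      _ = _ := by rw [← this]; group
  have h2 : ∀ n : ℕ, (σ ^ n) g = g * (g⁻¹ * σ g) ^ n := by
    intro n
    induction n with
    | zero => simp
    | succ n ih =>
      rw [pow_succ', MulAut.mul_apply, ih, map_mul, map_pow, hσ _ h1, pow_succ']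
      rw [← mul_assoc, mul_inv_cancel_left]
  have h3 := h2 (orderOf σ)
  rw [pow_orderOf_eq_one, MulAut.one_apply, left_eq_mul] at h3
  have h4 : (g⁻¹ * σ g) ^ (orderOf σ).gcd (Nat.card G) = 1 :=
    pow_gcd_eq_one.mpr ⟨h3, pow_card_eq_one'⟩
  rw [hc, pow_one, inv_mul_eq_one] at h4
  exact h4.symm

end Cfsg.Agent.S0552
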