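import Cfsg.Statements.S0553
import Cfsg.Agent.H1.Frattini

set_option autoImplicit false
set_option linter.style.haveILetI false
set_option linter.unusedVariables false
open Cfsg

namespace Cfsg.Agent.S0553

/-- Let G be a nontrivial finite solvable group in which every maximal subgroup has order coprime to its index. Then for some prime p dividing the order of G the Sylow p-subgroups of G are normal. -/
theorem result {G : Type*} [Group G] [Finite G] [Group.IsSolvable G] [Nontrivial G] (h : ∀ M : Subgroup G, IsCoatom M → (Nat.card M).Coprime M.index) : ∃ p : ℕ, p.Prime ∧ p ∣ Nat.card G ∧ ∀ P : Sylow p G, (P : Subgroup G).Normal := by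
  induction hn : Nat.card G using Nat.strong_induction_on generalizing G with
  | _ n ih =>
    subst hn
    obtain ⟨N, hN⟩ := H1.exists_isMinNormal G
    haveI := hN.normal
    obtain ⟨p, hp, he, hP⟩ := hN.exists_isPGroup
    haveI := Fact.mk hp
    have hpN := hP.card_eq_or_dvd.resolve_left fun e => hN.ne_bot (Subgroup.card_eq_one.mp e)
    by_cases hΦ : N ≤ frattini G
    · haveI : Nontrivial (G ⧸ N) := QuotientGroup.nontrivial_iff.mpr fun e =>
        H1.frattini_ne_top (eq_top_iff.mpr (e ▸ hΦ))
      obtain ⟨q, hq, hd, hQ⟩ := ih _ (H1.card_quotient_lt hN.ne_bot) (G := G ⧸ N) (fun M hM => by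
        have := h _ (H1.isCoatom_comap_mk' hM)
        rw [H1.card_comap_mk', Subgroup.index_comap_of_surjective _
          (QuotientGroup.mk'_surjective N)] at this
        exact this.coprime_mul_left) rfl
      haveI := Fact.mk hq
      refine ⟨q, hq, hd.trans (Subgroup.card_quotient_dvd_card N), fun Q => ?_⟩
      have h1 := hQ (Q.mapSurjective (QuotientGroup.mk'_surjective N))
      haveI h2 : ((Q : Subgroup G) ⊔ N).Normal :=
        H1.comap_map_mk' N Q ▸ h1.comap (QuotientGroup.mk' N)
      have h3 := Q.normalizer_sup_eq_top' (le_sup_left : (Q : Subgroup G) ≤ (Q : Subgroup G) ⊔ N)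
      rw [← Q.coe_coe, ← sup_assoc, sup_of_le_left Subgroup.le_normalizer] at h3
      exact Subgroup.normalizer_eq_top_iff.mp (H1.eq_top_of_sup_eq_top_of_le_frattini hΦ h3)
    · obtain ⟨M, hM, -, hs⟩ := H1.exists_coatom_sup_eq_top hΦ
      have hd := hN.inf_eq_bot_of_sup_eq_top he.1 hM.1 hs
      have hc := H1.isComplement'_of_inf_eq_bot_of_sup_eq_top (inf_comm M N ▸ hd)
        (sup_comm M N ▸ hs)
      have h1 := h M hM
      rw [hc.index_eq_card, ← hc.symm.index_eq_card] at h1
      have h2 : ¬ p ∣ N.index := fun hd => hp.not_dvd_one (h1 ▸ Nat.dvd_gcd hd hpN)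
      refine ⟨p, hp, hpN.trans N.card_subgroup_dvd_card, fun P => ?_⟩
      haveI := (hP.toSylow h2).unique_of_normal hN.normal
      exact P.normal_of_subsingleton

end Cfsg.Agent.S0553
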