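import Cfsg.Statements.S0554
import Cfsg.Agent.H1.Fitting

set_option autoImplicit false
set_option linter.style.haveILetI false
set_option linter.unusedVariables false
open Cfsg

namespace Cfsg.Agent.S0554

open scoped Pointwise in
theorem aux {G : Type*} [Group G] (N : Subgroup G) [N.Normal] (l : List (Set G))
    (h : ∃ s ∈ l, (N : Set G) * s = s) : (N : Set G) * l.prod = l.prod := by
  induction l with
  | nil => simp at h
  | cons a l ih =>
    rw [List.prod_cons, ← mul_assoc]
    obtain ⟨s, hs, e⟩ := h
    rcases List.mem_cons.mp hs with rfl | hs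
    · rw [e]
    · rw [← Subgroup.set_mul_normal_comm, mul_assoc, ih ⟨s, hs, e⟩]

/-- Let G be a finite solvable group and let S assign to each of t distinct primes, including every prime divisor of the order of G, a Sylow subgroup of G. Then every element of G is a product s_0 s_1 ⋯ s_(t-1) with s_i in S i, the factors taken in the given order. -/
theorem result {G : Type*} [Group G] [Finite G] [Group.IsSolvable G] (t : ℕ) (p : Fin t → ℕ) (hp : ∀ i, (p i).Prime) (hinj : Function.Injective p) (hall : ∀ q : ℕ, q.Prime → q ∣ Nat.card G → ∃ i, p i = q) (S : (i : Fin t) → Sylow (p i) G) : ∀ g : G, ∃ s : (i : Fin t) → G, (∀ i, s i ∈ (S i : Subgroup G)) ∧ g = (List.ofFn s).prod := by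
  open scoped Pointwise in
  suffices h : (List.ofFn fun i => ((S i : Subgroup G) : Set G)).prod = Set.univ by
    intro g
    obtain ⟨f, hf⟩ := Set.mem_prod_list_ofFn.mp (h ▸ Set.mem_univ g)
    exact ⟨fun i => f i, fun i => (f i).2, hf.symm⟩
  induction hn : Nat.card G using Nat.strong_induction_on generalizing G with
  | _ n ih =>
    subst hn
    rcases subsingleton_or_nontrivial G with hG | hG
    · apply Set.eq_univ_of_forall
      intro g
      exact Set.mem_prod_list_ofFn.mpr ⟨fun i => ⟨1, Subgroup.one_mem _⟩, Subsingleton.elim _ _⟩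
    obtain ⟨N, hN⟩ := H1.exists_isMinNormal G
    haveI := hN.normal
    obtain ⟨q, hq, -, hP⟩ := hN.exists_isPGroup
    haveI := Fact.mk hq
    have hqN := hP.card_eq_or_dvd.resolve_left fun e => hN.ne_bot (Subgroup.card_eq_one.mp e)
    obtain ⟨i, rfl⟩ := hall q hq (hqN.trans N.card_subgroup_dvd_card)
    haveI : ∀ i, Fact (p i).Prime := fun i => ⟨hp i⟩
    have h1 := ih _ (H1.card_quotient_lt hN.ne_bot) (G := G ⧸ N)
      (fun q hq hd => hall q hq (hd.trans (Subgroup.card_quotient_dvd_card N)))
      (fun i => (S i).mapSurjective (QuotientGroup.mk'_surjective N)) rfl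
    rw [← aux N _ ⟨_, List.mem_ofFn.mpr ⟨i, rfl⟩, ?_⟩]
    · apply Set.eq_univ_of_forall
      intro g
      obtain ⟨f, hf⟩ := Set.mem_prod_list_ofFn.mp (h1 ▸ Set.mem_univ (g : G ⧸ N))
      choose s hs hs' using fun i => (f i).2
      have e : (QuotientGroup.mk' N) (List.ofFn s).prod = g := by
        rw [map_list_prod, List.map_ofFn, ← hf]
        congr 2
        funext i
        exact hs' i
      refine ⟨g * ((List.ofFn s).prod)⁻¹, ?_, (List.ofFn s).prod,
        Set.mem_prod_list_ofFn.mpr ⟨fun i => ⟨s i, hs i⟩, rfl⟩, by simp⟩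
      rw [SetLike.mem_coe, ← QuotientGroup.eq_one_iff, QuotientGroup.mk_mul, QuotientGroup.mk_inv,
        mul_inv_eq_one]
      exact e.symm
    · rw [← Subgroup.normal_mul, sup_of_le_right (hP.le_sylow_of_normal (S i))]

end Cfsg.Agent.S0554
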