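import Cfsg.Statements.S0555
import Cfsg.Agent.H1.Factor

set_option autoImplicit false
set_option linter.style.haveILetI false
set_option linter.unusedVariables false
open Cfsg

namespace Cfsg.Agent.S0555

/-- Let i ≥ 1. If in the derived series of a group the quotient of the i-th term by the (i+1)-st and the quotient of the (i+1)-st by the (i+2)-nd are both cyclic, then the (i+1)-st and (i+2)-nd terms coincide. -/
theorem result {G : Type*} [Group G] (i : ℕ) (hi : 1 ≤ i) (h₁ : IsCyclic (↥(derivedSeries G i) ⧸ (derivedSeries G (i + 1)).subgroupOf (derivedSeries G i))) (h₂ : IsCyclic (↥(derivedSeries G (i + 1)) ⧸ (derivedSeries G (i + 2)).subgroupOf (derivedSeries G (i + 1)))) : derivedSeries G (i + 1) = derivedSeries G (i + 2) := by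
  refine le_antisymm ?_ (derivedSeries_antitone G (Nat.le_succ _))
  obtain ⟨a, ha, hA⟩ := H1.exists_of_isCyclic_quotient h₁
  obtain ⟨b, hb, hB⟩ := H1.exists_of_isCyclic_quotient h₂
  set C := derivedSeries G (i + 2)
  set B := derivedSeries G (i + 1) with hBdef
  have e : B.map (QuotientGroup.mk' C) = Subgroup.zpowers (b : G ⧸ C) := by
    refine le_antisymm ?_ (Subgroup.zpowers_le.mpr ⟨b, hb, rfl⟩)
    rintro _ ⟨x, hx, rfl⟩
    obtain ⟨k, c, hc, rfl⟩ := hB x hx
    exact ⟨k, by simp [(QuotientGroup.eq_one_iff c).mpr hc]⟩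
  have h1 := H1.commutator_le_centralizer_zpowers (e ▸ H1.normal_map_mk' C inferInstance)
  rw [← e] at h1
  have h2 : ∀ x ∈ derivedSeries G i, ∀ y ∈ B, Commute (x : G ⧸ C) (y : G ⧸ C) := by
    intro x hx y hy
    have hx' : x ∈ commutator G := derivedSeries_antitone G hi hx
    have : (x : G ⧸ C) ∈ commutator (G ⧸ C) :=
      map_derivedSeries_le_derivedSeries (QuotientGroup.mk' C) 1 ⟨x, hx', rfl⟩
    exact (h1 this _ ⟨y, hy, rfl⟩).symm
  rw [hBdef, derivedSeries_succ, Subgroup.commutator_le]
  intro x hx y hy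
  rw [← QuotientGroup.eq_one_iff]
  change QuotientGroup.mk' C _ = 1
  rw [map_commutatorElement, commutatorElement_eq_one_iff_commute]
  obtain ⟨k, c, hc, rfl⟩ := hA x hx
  obtain ⟨l, d, hd, rfl⟩ := hA y hy
  have hd' : d ∈ derivedSeries G i := derivedSeries_antitone G (Nat.le_succ _) hd
  simp only [map_mul, map_zpow, QuotientGroup.mk'_apply]
  exact (((Commute.refl _).zpow_zpow k l).mul_right ((h2 a ha d hd).zpow_left k)).mul_left
    (((h2 a ha c hc).symm.zpow_right l).mul_right (h2 d hd' c hc).symm)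

end Cfsg.Agent.S0555
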