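import Cfsg.Statements.S0558
import Cfsg.Agent.H1.FrobC

set_option autoImplicit false
set_option linter.style.haveILetI false
set_option linter.unusedVariables false
open Cfsg

namespace Cfsg.Agent.S0558

/-- Let H be a subgroup of a finite group G that is not a Sylow subgroup of G for any prime, and suppose that for every prime p dividing the order of H and every Sylow p-subgroup P of H the normalizer of P in G is exactly H. Then some normal subgroup of G is a complement to H. -/
theorem result {G : Type*} [Group G] [Finite G] (H : Subgroup G) (hnot : ∀ p : ℕ, p.Prime → ∀ P : Sylow p G, (P : Subgroup G) ≠ H) (hnorm : ∀ p : ℕ, p.Prime → p ∣ Nat.card H → ∀ P : Sylow p H, Subgroup.normalizer (((P : Subgroup H).map H.subtype : Subgroup G) : Set G) = H) : ∃ N : Subgroup G, N.Normal ∧ Subgroup.IsComplement' N H := by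
  have h1 : ∀ (p : ℕ) [Fact p.Prime], p ∣ Nat.card H → ∀ P : Subgroup G, Cfsg.H8.IsSyl p P H →
      Subgroup.normalizer (P : Set G) = H ∧ Cfsg.H8.IsSyl p P ⊤ := by
    intro p hp hd P hP
    have e := hnorm p hp.out hd hP.toSylow
    rw [hP.map_toSylow] at e
    exact ⟨e, Cfsg.H8.IsSyl.of_normalizer (by rwa [top_inf_eq, e])⟩
  have h2 : Group.IsNilpotent H := by
    refine Cfsg.H1.isNilpotent_of_sylow_normal fun p hp P => ?_
    by_cases hd : p ∣ Nat.card H
    · have e := (Subgroup.normal_subgroupOf_iff_le_normalizer (Subgroup.map_subtype_le _)).mpr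
        (hnorm p hp.out hd P).ge
      rwa [Subgroup.subgroupOf, Subgroup.comap_map_eq_self_of_injective H.subtype_injective] at e
    · rw [(Cfsg.H8.isSyl_sylow P).eq_bot (by rwa [Subgroup.card_top])]
      infer_instance
  refine Cfsg.H1.exists_normal_complement_of_forall_npc
    (Nat.coprime_of_dvd fun p hp hd hd' => ?_) fun p hp hd => ?_
  · haveI := Fact.mk hp
    obtain ⟨P, hP⟩ := Cfsg.H8.exists_isSyl (p := p) H
    exact (h1 p hd P hP).2.not_dvd_of_le hP.le (by rwa [Subgroup.relIndex_top_right])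
  · obtain ⟨P, hP⟩ := Cfsg.H8.exists_isSyl (p := p) H
    have h3 : ¬ Cfsg.IsPiSubgroup {p} H := fun h => hnot p hp.out (h1 p hd P hP).2.toSylowTop
      (hP.eq_of_le (Cfsg.H1.isPiSubgroup_singleton_iff.mp h) hP.le le_rfl).symm
    obtain ⟨q, hq, hqd, hqp⟩ : ∃ q : ℕ, q.Prime ∧ q ∣ Nat.card H ∧ q ≠ p := by
      by_contra h
      push Not at h
      exact h3 h
    haveI := Fact.mk hq
    obtain ⟨Q, hQ⟩ := Cfsg.H8.exists_isSyl (p := q) H
    exact Cfsg.H1.npc_of_normalizer_le (h1 p hd P hP).2 (h1 q hqd Q hQ).2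
      (Cfsg.H1.le_centralizer_of_coprime_of_isNilpotent h2 hQ.le hP.le
        (Cfsg.H1.coprime_card_of_isPGroup_of_ne hqp hQ.isPGroup hP.isPGroup))
      (Cfsg.H1.npc_of_isNilpotent h2 p) hP (inf_le_right.trans (h1 q hqd Q hQ).1.le)

end Cfsg.Agent.S0558
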