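import Cfsg.Statements.S0559
import Cfsg.Agent.H1.Basic

set_option autoImplicit false
set_option linter.style.haveILetI false
set_option linter.unusedVariables false
open Pointwise
open Cfsg

namespace Cfsg.Agent.S0559

/-- Let G = HK be a finite group (every element a product of an element of H and an element of K), and let A and B be conjugates of H and K. Then every element is a product of an element of A and one of B, and there is g with A = gHg⁻¹ and B = gKg⁻¹ simultaneously. -/
theorem result {G : Type*} [Group G] [Finite G] (H K A B : Subgroup G) (hHK : ∀ g : G, ∃ h ∈ H, ∃ k ∈ K, g = h * k) (hA : ∃ x : G, A = MulAut.conj x • H) (hB : ∃ y : G, B = MulAut.conj y • K) : (∀ g : G, ∃ a ∈ A, ∃ b ∈ B, g = a * b) ∧ ∃ g : G, A = MulAut.conj g • H ∧ B = MulAut.conj g • K := by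
  obtain ⟨x, rfl⟩ := hA
  obtain ⟨y, rfl⟩ := hB
  obtain ⟨h, hh, k, hk, e⟩ := hHK (x⁻¹ * y)
  have e1 : MulAut.conj x • H = MulAut.conj (x * h) • H := by
    rw [Cfsg.H1.conj_mul_smul, Subgroup.conj_smul_eq_self_of_mem hh]
  have e2 : MulAut.conj y • K = MulAut.conj (x * h) • K := by
    have : y = x * h * k := by rw [mul_assoc, ← e]; simp
    rw [this, Cfsg.H1.conj_mul_smul _ k, Subgroup.conj_smul_eq_self_of_mem hk]
  refine ⟨fun g => ?_, x * h, e1, e2⟩
  rw [e1, e2]
  obtain ⟨a, ha, b, hb, e⟩ := hHK ((x * h)⁻¹ * g * (x * h))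
  refine ⟨_, Cfsg.H1.conj_mem_conj_smul _ ha, _, Cfsg.H1.conj_mem_conj_smul _ hb, ?_⟩
  calc g = (x * h) * ((x * h)⁻¹ * g * (x * h)) * (x * h)⁻¹ := by group
    _ = _ := by rw [e]; group

end Cfsg.Agent.S0559
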