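import Cfsg.Statements.S0560
import Cfsg.Agent.H1.Factor

set_option autoImplicit false
set_option linter.style.haveILetI false
set_option linter.unusedVariables false
open Pointwise
open Cfsg

namespace Cfsg.Agent.S0560

/-- Let the finite group G be the product HK of two subgroups and p a prime. Then there are Sylow p-subgroups P of H and Q of K and a Sylow p-subgroup R of G whose underlying set is the product set of P and Q. -/
theorem result {G : Type*} [Group G] [Finite G] (H K : Subgroup G) (hHK : ∀ g : G, ∃ h ∈ H, ∃ k ∈ K, g = h * k) (p : ℕ) [Fact p.Prime] : ∃ (P : Sylow p H) (Q : Sylow p K) (R : Sylow p G), ((R : Subgroup G) : Set G) = (((P : Subgroup H).map H.subtype : Subgroup G) : Set G) * (((Q : Subgroup K).map K.subtype : Subgroup G) : Set G) := by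
  obtain ⟨P⟩ := (inferInstance : Nonempty (Sylow p H))
  obtain ⟨Q⟩ := (inferInstance : Nonempty (Sylow p K))
  have hP := H1.isPiHallOf_map_subtype (H1.isPiHall_sylow P)
  have hQ := H1.isPiHallOf_map_subtype (H1.isPiHall_sylow Q)
  obtain ⟨a, ha, b, hb, R, hR, h1, h2⟩ :=
    H1.Fac.exists_common_hall hHK (H1.hallD_singleton p G) hP.2.1 hQ.2.1
  have hP' := H1.isPiHallOf_conj_of_mem hP ha
  have hQ' := H1.isPiHallOf_conj_of_mem hQ hb
  obtain ⟨h3, h4⟩ := H1.Fac.perm_of_isPiHallOf hHK hP' hQ' hR.1 h1 h2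
  obtain ⟨P', e1⟩ := H1.exists_sylow_of_isPiHallOf hP'
  obtain ⟨Q', e2⟩ := H1.exists_sylow_of_isPiHallOf hQ'
  obtain ⟨R', e3⟩ := H1.exists_sylow_of_isPiHall hR
  exact ⟨P', Q', R', by rw [e1, e2, e3, ← h4, H1.perm_iff_coe.mp h3]⟩

end Cfsg.Agent.S0560
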