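import Cfsg.Statements.S0561
import Cfsg.Agent.H1.Factor

set_option autoImplicit false
set_option linter.style.haveILetI false
set_option linter.unusedVariables false
open Pointwise
open Cfsg

namespace Cfsg.Agent.S0561

/-- Let the finite solvable group G be the product HK of subgroups, and let A be normal in H and B normal in K, where A and B are Hall subgroups of G (order coprime to index). Then for all x, y the product set of xAx⁻¹ and yBy⁻¹ is a subgroup of G. -/
theorem result {G : Type*} [Group G] [Finite G] [Group.IsSolvable G] (H K A B : Subgroup G) (hHK : ∀ g : G, ∃ h ∈ H, ∃ k ∈ K, g = h * k) (hA : A ≤ H) (hAn : (A.subgroupOf H).Normal) (hB : B ≤ K) (hBn : (B.subgroupOf K).Normal) (hAh : (Nat.card A).Coprime A.index) (hBh : (Nat.card B).Coprime B.index) (x y : G) : ∃ S : Subgroup G, (S : Set G) = ((MulAut.conj x • A : Subgroup G) : Set G) * ((MulAut.conj y • B : Subgroup G) : Set G) := by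
  refine ⟨_, H1.perm_iff_coe.mp ?_⟩
  have hAn' := (Subgroup.normal_subgroupOf_iff_le_normalizer hA).mp hAn
  have hBn' := (Subgroup.normal_subgroupOf_iff_le_normalizer hB).mp hBn
  obtain ⟨a, ha, b, hb, R, hR, h1, h2⟩ :=
    H1.Fac.exists_common_hall hHK
      (H1.hallD_of_isSolvable {p | p ∣ Nat.card A ∨ p ∣ Nat.card B} G)
      (A := A) (B := B) (fun _ _ h => Or.inl h) (fun _ _ h => Or.inr h)
  rw [H1.conj_smul_eq_of_mem_normalizer (hAn' ha)] at h1
  rw [H1.conj_smul_eq_of_mem_normalizer (hBn' hb)] at h2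
  have h3 := (H1.perm_of_coprime_relIndex h1 h2 (Nat.coprime_of_dvd fun p hp d1 d2 => by
    rcases hR.1 p hp (d1.trans (Subgroup.relIndex_dvd_card _ _)) with h | h
    · exact hp.not_dvd_one (hAh ▸ Nat.dvd_gcd h (d1.trans (Subgroup.relIndex_dvd_index_of_le h1)))
    · exact hp.not_dvd_one
        (hBh ▸ Nat.dvd_gcd h (d2.trans (Subgroup.relIndex_dvd_index_of_le h2))))).1
  obtain ⟨h, hh, k, hk, e⟩ := hHK (x⁻¹ * y)
  have e1 : MulAut.conj x • A = MulAut.conj (x * h) • A := by
    rw [H1.conj_mul_smul, H1.conj_smul_eq_of_mem_normalizer (hAn' hh)]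
  have e2 : MulAut.conj y • B = MulAut.conj (x * h) • B := by
    have : y = x * h * k := by rw [mul_assoc, ← e]; simp
    rw [this, H1.conj_mul_smul _ k, H1.conj_smul_eq_of_mem_normalizer (hBn' hk)]
  rw [e1, e2]
  exact h3.conj _

end Cfsg.Agent.S0561
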