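import Cfsg.Statements.S0563
import Cfsg.Agent.H1.KW
import Cfsg.Agent.S0561

set_option autoImplicit false
set_option linter.style.haveILetI false
set_option linter.unusedVariables false
open Pointwise
open Cfsg

namespace Cfsg.Agent.S0563

/-- If a finite group G is the product AB of two nilpotent subgroups of coprime orders, then G is solvable, and for every Sylow p-subgroup P of A and Sylow q-subgroup Q of B the product set PQ is a subgroup. -/
theorem result {G : Type*} [Group G] [Finite G] (A B : Subgroup G) (hA : Group.IsNilpotent A) (hB : Group.IsNilpotent B) (hcop : (Nat.card A).Coprime (Nat.card B)) (hAB : ∀ g : G, ∃ a ∈ A, ∃ b ∈ B, g = a * b) : Group.IsSolvable G ∧ ∀ (p q : ℕ) [Fact p.Prime] [Fact q.Prime] (P : Sylow p A) (Q : Sylow q B), ∃ S : Subgroup G, (S : Set G) = (((P : Subgroup A).map A.subtype : Subgroup G) : Set G) * (((Q : Subgroup B).map B.subtype : Subgroup G) : Set G) := by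
  haveI := Cfsg.H1.kegel_wielandt hA hB hAB
  refine ⟨this, fun p q _ _ P Q => ?_⟩
  have key : ∀ (A B : Subgroup G), Group.IsNilpotent A → (Nat.card A).Coprime (Nat.card B) →
      Cfsg.H1.Fac A B → ∀ (p : ℕ) [Fact p.Prime] (P : Sylow p A),
      (((P : Subgroup A).map A.subtype).subgroupOf A).Normal ∧
      (Nat.card ((P : Subgroup A).map A.subtype)).Coprime ((P : Subgroup A).map A.subtype).index := by
    intro A B hA hc hf p hp P
    have hP := Cfsg.H8.isSyl_map_subtype P
    refine ⟨(Subgroup.normal_subgroupOf_iff_le_normalizer hP.le).mpr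
      (Subgroup.le_normalizer.trans (Cfsg.H1.le_normalizer_of_isSyl hA hP)),
      Nat.coprime_of_dvd fun r hr h1 h2 => ?_⟩
    obtain rfl : r = p := Cfsg.H1.isPiSubgroup_singleton_iff.mpr hP.isPGroup r hr h1
    refine (hP.trans le_top ?_).not_dvd (by rwa [Subgroup.relIndex_top_right])
    rw [Subgroup.relIndex_top_right]
    exact fun h3 => hr.one_lt.ne' (Nat.eq_one_of_dvd_coprimes hc
      (h1.trans (Subgroup.card_dvd_of_le hP.le)) (h3.trans hf.index_dvd_card))
  have h1 := key A B hA hcop hAB p P
  have h2 := key B A hB hcop.symm (Cfsg.H1.Fac.symm hAB) q Q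
  have := Cfsg.Agent.S0561.result A B _ _ hAB (Subgroup.map_subtype_le _) h1.1
    (Subgroup.map_subtype_le _) h2.1 h1.2 h2.2 1 1
  rwa [Cfsg.H1.conj_one_smul, Cfsg.H1.conj_one_smul] at this

end Cfsg.Agent.S0563
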