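import Cfsg.Statements.S0567
import Cfsg.Agent.H1.Basic

set_option autoImplicit false
set_option linter.style.haveILetI false
set_option linter.unusedVariables false
open Cfsg

namespace Cfsg.Agent.S0567

/-- A subgroup H of a group G is subnormal exactly when, for some m, the subgroup obtained from G by taking the commutator with H m times in succession is contained in H. -/
theorem result {G : Type*} [Group G] (H : Subgroup G) : H.IsSubnormal ↔ ∃ m : ℕ, (fun K : Subgroup G => ⁅K, H⁆)^[m] ⊤ ≤ H := by
  constructor
  · intro h
    obtain ⟨n, f, hmono, hnorm, h0, hn⟩ := Subgroup.IsSubnormal.isSubnormal_iff.mp h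
    have key : ∀ m k : ℕ, m + k = n → (fun K : Subgroup G => ⁅K, H⁆)^[m] ⊤ ≤ f k := by
      intro m
      induction m with
      | zero => intro k hk; rw [zero_add] at hk; rw [hk, hn]; exact le_top
      | succ m ih =>
        intro k hk
        rw [Function.iterate_succ_apply']
        have h1 := ih (k + 1) (by omega)
        have h2 : H ≤ f k := h0 ▸ hmono (Nat.zero_le k)
        refine (Subgroup.commutator_mono h1 h2).trans ?_
        rw [← Subgroup.le_normalizer_iff_commutator_le_right]
        exact (Subgroup.normal_subgroupOf_iff_le_normalizer (hmono (Nat.le_succ k))).mp (hnorm k)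
    exact ⟨n, h0 ▸ key n 0 rfl⟩
  · rintro ⟨m, hm⟩
    have key : ∀ m : ℕ, ((fun K : Subgroup G => ⁅K, H⁆)^[m] ⊤ ⊔ H).IsSubnormal ∧
        H ≤ Subgroup.normalizer (((fun K : Subgroup G => ⁅K, H⁆)^[m] ⊤ : Subgroup G) : Set G) := by
      intro m
      induction m with
      | zero => exact ⟨by simp [Subgroup.IsSubnormal.top], Subgroup.le_normalizer_of_normal (H := ⊤)⟩
      | succ m ih =>
        rw [Function.iterate_succ_apply']
        set K := (fun K : Subgroup G => ⁅K, H⁆)^[m] ⊤
        refine ⟨?_, Subgroup.normalizer_commutator_ge_right _ _⟩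
        have hle : ⁅K, H⁆ ⊔ H ≤ K ⊔ H :=
          sup_le_sup_right (Subgroup.le_normalizer_iff_commutator_le_left.mp ih.2) H
        refine Subgroup.IsSubnormal.trans hle (Subgroup.Normal.isSubnormal ?_) ih.1
        apply Subgroup.normal_subgroupOf_of_le_normalizer
        refine sup_le ?_ (le_sup_right.trans Subgroup.le_normalizer)
        rw [Subgroup.le_normalizer_iff]
        intro k hk x hx
        obtain ⟨a, ha, b, hb, rfl⟩ := (Cfsg.H1.mem_sup_of_le_normalizer_left
          (Subgroup.normalizer_commutator_ge_right K H)).mp hx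
        have e : k * (a * b) * k⁻¹ = (k * a * k⁻¹) * (k * b * k⁻¹ * b⁻¹) * b := by group
        rw [e]
        refine Subgroup.mul_mem_sup (mul_mem ?_ (Subgroup.commutator_mem_commutator hk hb)) hb
        exact (Subgroup.le_normalizer_iff.mp (Subgroup.normalizer_commutator_ge_left K H)) k hk a ha
    have := (key m).1
    rwa [sup_of_le_right hm] at this

end Cfsg.Agent.S0567
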