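import Cfsg.Statements.S0568
import Cfsg.Agent.H1.System

set_option autoImplicit false
set_option linter.style.haveILetI false
set_option linter.unusedVariables false
open Cfsg

namespace Cfsg.Agent.S0568

/-- Let D be the system normalizer of a Hall complement system of a finite solvable group G, and let A < B be normal subgroups with no normal subgroup of G strictly between them (a chief factor). If G centralizes B modulo A then B ≤ A ⊔ D (D covers the factor); otherwise B ∩ D ≤ A (D avoids it). -/
theorem result {G : Type*} [Group G] [Finite G] [Group.IsSolvable G] (K : Nat.Primes → Subgroup G) (hK : Cfsg.IsComplementSystem K) (A B : Subgroup G) [A.Normal] [B.Normal] (hAB : A < B) (hchief : ∀ N : Subgroup G, N.Normal → A ≤ N → N ≤ B → N = A ∨ N = B) : (⁅B, (⊤ : Subgroup G)⁆ ≤ A → B ≤ A ⊔ Cfsg.systemNormalizer K) ∧ (¬ ⁅B, (⊤ : Subgroup G)⁆ ≤ A → B ⊓ Cfsg.systemNormalizer K ≤ A) := by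
  have hs := QuotientGroup.mk'_surjective A
  have hM := Cfsg.H1.isMinNormal_map_mk' ‹B.Normal› hAB hchief
  have e : ⁅B, (⊤ : Subgroup G)⁆ ≤ A ↔ B.map (QuotientGroup.mk' A) ≤ Subgroup.center (G ⧸ A) := by
    rw [← Cfsg.H1.map_mk'_eq_bot_iff A, Subgroup.map_commutator,
      Subgroup.map_top_of_surjective _ hs, Subgroup.commutator_eq_bot_iff_le_centralizer,
      Subgroup.coe_top, Subgroup.centralizer_univ]
  rw [e]
  constructor
  · intro h
    rw [sup_comm, ← Cfsg.H1.map_mk'_le_map_mk'_iff, ← Cfsg.H1.systemNormalizer_map_mk' hK]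
    exact h.trans (Cfsg.H1.center_le_systemNormalizer _)
  · intro h
    rw [← Cfsg.H1.map_mk'_eq_bot_iff A, ← le_bot_iff,
      ← hM.inf_systemNormalizer_eq_bot (Cfsg.H1.isComplementSystem_map hK _ hs) h,
      Cfsg.H1.systemNormalizer_map_mk' hK]
    exact Subgroup.map_inf_le _ _ _

end Cfsg.Agent.S0568
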