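import Cfsg.Statements.S0570
import Cfsg.Agent.H1.System

set_option autoImplicit false
set_option linter.style.haveILetI false
set_option linter.unusedVariables false
open Cfsg

namespace Cfsg.Agent.S0570

/-- Let G be a finite group with a nilpotent normal subgroup F such that G modulo F is nilpotent (nilpotent length at most two). Then a subgroup of G is a Carter subgroup if and only if it is the system normalizer of some Hall complement system. -/
theorem result {G : Type*} [Group G] [Finite G] (F : Subgroup G) [F.Normal] (hF : Group.IsNilpotent F) (hGF : Group.IsNilpotent (G ⧸ F)) (C : Subgroup G) : Cfsg.IsCarterSubgroup C ↔ ∃ K : Nat.Primes → Subgroup G, Cfsg.IsComplementSystem K ∧ C = Cfsg.systemNormalizer K := by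
  haveI : Group.IsSolvable G := Cfsg.H1.isSolvable_of_normal_of_quotient (N := F)
    inferInstance inferInstance
  constructor
  · intro hC
    obtain ⟨K, hK, h⟩ := Cfsg.H1.exists_system_le_of_carter hC
    exact ⟨K, hK, Cfsg.H1.eq_systemNormalizer_of_le hF hGF hK hC.1 h⟩
  · rintro ⟨K, hK, rfl⟩
    obtain ⟨C, hC, h⟩ := Cfsg.H1.exists_carter_ge_systemNormalizer hK
    exact Cfsg.H1.eq_systemNormalizer_of_le hF hGF hK hC.1 h ▸ hC

end Cfsg.Agent.S0570
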