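import Cfsg.Statements.S0574
import Cfsg.Agent.H1.KW

set_option autoImplicit false
set_option linter.style.haveILetI false
set_option linter.unusedVariables false
open Cfsg

namespace Cfsg.Agent.S0574

open Subgroup Cfsg.H1
open scoped commutatorElement Pointwise

theorem normal_comm {G : Type*} [Group G] {A B Y : Subgroup G}
    (h : Fac A B) (hY : Y ≤ B ⊓ centralizer (B : Set G)) : (⁅A, Y⁆ : Subgroup G).Normal := by
  refine normal_of_le_normalizer_of_sup_eq_top h.sup_eq_top (normalizer_commutator_ge_left A Y)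
    fun b hb => ?_
  have key : ∀ b ∈ B, MulAut.conj b • ⁅A, Y⁆ ≤ ⁅A, Y⁆ := fun b hb => by
    rw [conj_smul_le_iff, Subgroup.commutator_le]
    intro a ha y hy
    obtain ⟨a', ha', b', hb', e⟩ := h (b * a * b⁻¹)
    have e1 : b⁻¹⁻¹ * ⁅a, y⁆ * b⁻¹ = ⁅a', y⁆ := by
      calc _ = (b * a * b⁻¹) * (b * y) * b⁻¹ * (b * a * b⁻¹)⁻¹ * ((b * y) * b⁻¹)⁻¹ := by
            rw [commutatorElement_def]; group
        _ = a' * (b' * y) * b'⁻¹ * a'⁻¹ * y⁻¹ := by rw [(hY hy).2 b hb, e]; group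
        _ = _ := by rw [(hY hy).2 b' hb', commutatorElement_def]; group
    rw [mem_conj_smul_iff, e1]
    exact commutator_mem_commutator ha' hy
  exact conj_smul_eq_iff_mem_normalizer.mp
    (le_antisymm (key b hb) ((le_conj_smul_iff b).mpr (key _ (B.inv_mem hb))))

theorem comm_eq_bot {G : Type*} [Group G] {A B Y : Subgroup G} [IsMulCommutative A]
    (h : Fac A B) (hY : Y ≤ B ⊓ centralizer (B : Set G)) (hd : ⁅⁅A, Y⁆, ⁅A, Y⁆⁆ ⊓ ⁅B, B⁆ = ⊥) :
    ⁅⁅A, Y⁆, ⁅A, Y⁆⁆ = ⊥ := by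
  haveI := normal_comm h hY
  have hA := isMulCommutative_iff_forall.mp (inferInstance : IsMulCommutative A)
  rw [commutator_eq_bot_iff_le_centralizer, Subgroup.commutator_le]
  intro a₁ ha₁ b₁ hb₁
  refine zpowers_le.mp (le_centralizer_iff.mp ?_)
  rw [Subgroup.commutator_le]
  intro a ha b hb
  rw [zpowers_eq_closure, centralizer_closure, mem_centralizer_singleton_iff]
  obtain ⟨a₂, ha₂, b₂, hb₂, e₂⟩ := h (a₁⁻¹ * b⁻¹ * a₁)
  obtain ⟨a₃, ha₃, b₃, hb₃, e₃⟩ := h (b₁⁻¹ * a * b₁)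
  have c1 := hA a ha a₁ ha₁
  have c2 := hA a⁻¹ (A.inv_mem ha) a₂ ha₂
  have c3 := (hY hb₁).2 b₂ hb₂
  have c5 := (hY hb).2 b₁ (hY hb₁).1
  have c6 := (hY hb).2 b₃ hb₃
  have c7 := hA a₃ ha₃ a₁ ha₁
  have c8 := hA a₃ ha₃ a₂ ha₂
  have l1 : (a₁ * b₁)⁻¹ * ⁅a, b⁆ * (a₁ * b₁) =
      a₃ * ⁅b₃, b₂⁻¹⁆ * a₃⁻¹ * (a₃ * b₂⁻¹ * a₃⁻¹ * b₂) := by
    calc _ = b₁⁻¹ * (a₁⁻¹ * (a * a₁) * (a₁⁻¹ * b⁻¹ * a₁)⁻¹ * (a * a₁)⁻¹ * a₁ *
            (a₁⁻¹ * b⁻¹ * a₁)) * b₁ := by rw [commutatorElement_def]; group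
      _ = b₁⁻¹ * (a * b₂⁻¹ * a₂⁻¹ * (a⁻¹ * a₂) * b₂) * b₁ := by rw [c1, e₂]; group
      _ = (b₁⁻¹ * a * b₁) * (b₂ * b₁)⁻¹ * b₁ * (b₁⁻¹ * a * b₁)⁻¹ * b₁⁻¹ * (b₂ * b₁) := by
            rw [c2]; group
      _ = _ := by rw [c3, e₃, commutatorElement_def]; group
  have l2 : (b₁ * a₁)⁻¹ * ⁅a, b⁆ * (b₁ * a₁) = a₃ * b₂⁻¹ * a₃⁻¹ * b₂ := by
    calc _ = a₁⁻¹ * ((b₁⁻¹ * a * b₁) * (b₁⁻¹ * (b * b₁)) * (b₁⁻¹ * a * b₁)⁻¹ *
            (b₁⁻¹ * (b * b₁))⁻¹) * a₁ := by rw [commutatorElement_def]; group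
      _ = a₁⁻¹ * (a₃ * (b₃ * b) * b₃⁻¹ * a₃⁻¹ * b⁻¹) * a₁ := by rw [← c5, e₃]; group
      _ = a₁⁻¹ * (a₃ * a₁) * (a₁⁻¹ * b⁻¹ * a₁)⁻¹ * (a₃ * a₁)⁻¹ * a₁ * (a₁⁻¹ * b⁻¹ * a₁) := by
            rw [c6]; group
      _ = a₃ * b₂⁻¹ * (a₃ * a₂)⁻¹ * a₂ * b₂ := by rw [c7, e₂]; group
      _ = _ := by rw [c8]; group
  have h1 : ⁅b₃, b₂⁻¹⁆ = a₃⁻¹ * ⁅⁅a₁⁻¹, b₁⁻¹⁆⁻¹, (b₁ * a₁)⁻¹ * ⁅a, b⁆ * (b₁ * a₁)⁻¹⁻¹⁆ * a₃⁻¹⁻¹ := by
    calc _ = a₃⁻¹ * (a₃ * ⁅b₃, b₂⁻¹⁆ * a₃⁻¹ * (a₃ * b₂⁻¹ * a₃⁻¹ * b₂)) *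
          (a₃ * b₂⁻¹ * a₃⁻¹ * b₂)⁻¹ * a₃ := by group
      _ = _ := by rw [← l1, ← l2]; simp only [commutatorElement_def]; group
  have h2 : ⁅b₃, b₂⁻¹⁆ = 1 := by
    rw [← mem_bot, ← hd]
    refine ⟨?_, commutator_mem_commutator hb₃ (B.inv_mem hb₂)⟩
    rw [h1]
    exact Normal.conj_mem inferInstance _ (commutator_mem_commutator
      (inv_mem (commutator_mem_commutator (A.inv_mem ha₁) (Y.inv_mem hb₁)))
      (Normal.conj_mem this _ (commutator_mem_commutator ha hb) _)) _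
  rw [h2, mul_one, mul_inv_cancel, one_mul, ← l2] at l1
  rw [commutatorElement_def a₁]
  calc _ = (a₁ * b₁) * ((a₁ * b₁)⁻¹ * ⁅a, b⁆ * (a₁ * b₁)) * (b₁ * a₁)⁻¹ := by group
    _ = _ := by rw [l1]; group

theorem exists_normal {G : Type*} [Group G] [Finite G] [Group.IsSolvable G] {A B : Subgroup G}
    [IsMulCommutative A] (h : Fac A B) (hB : ⁅B, B⁆ ≤ centralizer (B : Set G)) (h0 : ⁅B, B⁆ ≠ ⊥) :
    ∃ L : Subgroup G, L.Normal ∧ L ⊓ ⁅B, B⁆ ≠ ⊥ ∧ ⁅⁅L, L⁆, ⁅L, L⁆⁆ = ⊥ := by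
  obtain ⟨L, ⟨hL, hL0⟩, hmin⟩ := (Set.toFinite
    {L : Subgroup G | L.Normal ∧ L ⊓ ⁅B, B⁆ ≠ ⊥}).exists_minimal ⟨⊤, inferInstance, by rwa [top_inf_eq]⟩
  refine ⟨L, hL, hL0, ?_⟩
  obtain ⟨⟨z, hz⟩, hz1⟩ := ne_bot_iff_exists_ne_one.mp hL0
  have hY : zpowers z ≤ B ⊓ centralizer (B : Set G) :=
    zpowers_le.mpr ⟨commutator_le_self B hz.2, hB hz.2⟩
  haveI := normal_comm h hY
  have h1 : ⁅A, zpowers z⁆ ≤ L := (commutator_mono le_rfl (zpowers_le.mpr hz.1)).trans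
    (commutator_le_right _ _)
  have h2 : (zpowers z ⊔ ⁅A, zpowers z⁆).Normal := by
    refine normal_of_le_normalizer_of_sup_eq_top h.sup_eq_top (fun a ha => ?_)
      (le_normalizer_sup (le_normalizer_of_le_centralizer
        (le_centralizer_iff.mp (hY.trans inf_le_right)) le_rfl) le_normalizer_of_normal)
    refine mem_normalizer_of_conj_smul_le ?_
    rw [smul_sup, Subgroup.Normal.conj_smul_eq_self a ⁅A, zpowers z⁆]
    refine sup_le (fun w hw => ?_) le_sup_right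
    obtain ⟨y, hy, rfl⟩ := mem_conj_smul_iff_exists.mp hw
    have e : a * y * a⁻¹ = ⁅a, y⁆ * y := by rw [commutatorElement_def]; group
    rw [e]
    exact mul_mem (mem_sup_right (commutator_mem_commutator ha hy)) (mem_sup_left hy)
  have h3 : L ≤ zpowers z ⊔ ⁅A, zpowers z⁆ := hmin ⟨h2, fun e => hz1 (Subtype.ext (mem_bot.mp
    (e ▸ (⟨mem_sup_left (mem_zpowers z), hz.2⟩ : z ∈ _ ⊓ ⁅B, B⁆))))⟩
    (sup_le (zpowers_le.mpr hz.1) h1)
  have h4 : ⁅L, L⁆ ≤ ⁅A, zpowers z⁆ := by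
    rw [← map_mk'_eq_bot_iff, Subgroup.map_commutator, ← le_bot_iff]
    have h5 := (map_mk'_le_map_mk'_iff _ _ _).mpr h3
    refine (commutator_mono h5 h5).trans ?_
    rw [← Subgroup.map_commutator, commutator_eq_bot_iff_le_centralizer.mpr (le_centralizer _),
      Subgroup.map_bot]
  have h5 : ⁅L, L⁆ ⊓ ⁅B, B⁆ = ⊥ := by
    by_contra h5
    have h6 := Group.IsSolvable.commutator_lt_of_ne_bot
      (fun e => hL0 (le_bot_iff.mp (inf_le_left.trans (le_of_eq e))) : L ≠ ⊥)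
    exact h6.not_ge (hmin ⟨inferInstance, h5⟩ h6.le)
  rw [← le_bot_iff, ← comm_eq_bot h hY (le_bot_iff.mp
    ((inf_le_inf_right _ (commutator_mono h1 h1)).trans h5.le))]
  exact commutator_mono h4 h4

theorem length_lt {m n : ℕ} (hn : n ≠ 0) (h : m ∣ n) (hne : m ≠ n) :
    m.primeFactorsList.length < n.primeFactorsList.length := by
  obtain ⟨k, rfl⟩ := h
  rw [(Nat.perm_primeFactorsList_mul (left_ne_zero_of_mul hn) (right_ne_zero_of_mul hn)).length_eq,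
    List.length_append, Nat.lt_add_right_iff_pos, List.length_pos_iff, Ne,
    Nat.primeFactorsList_eq_nil]
  rintro (rfl | rfl)
  · exact hn (mul_zero m)
  · exact hne (mul_one m).symm

universe u

theorem main {G : Type u} [Group G] [Finite G] [Group.IsSolvable G] {A B : Subgroup G}
    [IsMulCommutative A] (h : Fac A B) (hB : ⁅B, B⁆ ≤ centralizer (B : Set G)) (n : ℕ)
    (hn : (Nat.card (⁅B, B⁆ : Subgroup G)).primeFactorsList.length ≤ n) :
    derivedSeries G (2 * (1 + n)) = ⊥ := by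
  induction n generalizing G with
  | zero =>
    rw [Nat.le_zero, List.length_eq_zero_iff, Nat.primeFactorsList_eq_nil] at hn
    haveI := le_centralizer_iff_isMulCommutative.mp (commutator_eq_bot_iff_le_centralizer.mp
      (card_eq_one.mp (hn.resolve_left Nat.card_pos.ne')))
    exact Cfsg.Agent.S0572.result A B h
  | succ n ih =>
    by_cases h0 : ⁅B, B⁆ = ⊥
    · haveI := le_centralizer_iff_isMulCommutative.mp (commutator_eq_bot_iff_le_centralizer.mp h0)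
      exact le_bot_iff.mp ((derivedSeries_antitone G (by omega)).trans
        (Cfsg.Agent.S0572.result A B h).le)
    obtain ⟨L, hL, h1, h2⟩ := exists_normal h hB h0
    have hs := QuotientGroup.mk'_surjective L
    have h3 := ih (h.map _ hs) (by
      rw [← Subgroup.map_commutator]
      exact (map_mono hB).trans (map_centralizer_le_centralizer_image _ _)) (by
      rw [← Subgroup.map_commutator]
      refine Nat.le_of_lt_succ (lt_of_lt_of_le
        (length_lt Nat.card_pos.ne' (card_map_dvd _ _) fun e => h1 ?_) hn)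
      have h3 := card_map_mk'_mul L ⁅B, B⁆
      rwa [e, mul_eq_right₀ Nat.card_pos.ne', card_eq_one] at h3)
    rw [← map_derivedSeries_eq hs, map_mk'_eq_bot_iff] at h3
    rw [show 2 * (1 + (n + 1)) = 2 * (1 + n) + 1 + 1 by omega, derivedSeries_succ,
      derivedSeries_succ, ← le_bot_iff, ← h2]
    exact commutator_mono (commutator_mono h3 h3) (commutator_mono h3 h3)

/-- Let the finite group G be the product AB of an abelian subgroup A and a subgroup B of nilpotency class at most two, and let Ω be the number of prime factors, with multiplicity, of the order of the commutator subgroup of B. Then the term of index 2(1 + Ω) of the derived series of G is trivial. -/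
theorem result {G : Type*} [Group G] [Finite G] (A B : Subgroup G) [IsMulCommutative A] (hB : commutator ↥B ≤ Subgroup.center ↥B) (hAB : ∀ g : G, ∃ a ∈ A, ∃ b ∈ B, g = a * b) : derivedSeries G (2 * (1 + (Nat.card ↥(commutator ↥B)).primeFactorsList.length)) = ⊥ := by
  haveI := kegel_wielandt (isNilpotent_of_isMulCommutative (H := A))
    (isNilpotent_of_commutator_le_centralizer (H := B) (by
      rw [← map_subtype_commutator]
      exact (map_mono hB).trans ((map_subtype_center B).le.trans inf_le_right))) hAB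
  refine main hAB ?_ _ ?_
  · rw [← map_subtype_commutator]
    exact (map_mono hB).trans ((map_subtype_center B).le.trans inf_le_right)
  · rw [← map_subtype_commutator, card_map_subtype]

end Cfsg.Agent.S0574
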