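import Cfsg.Statements.S0577
import Cfsg.Agent.H1.MinNonNil

set_option autoImplicit false
set_option linter.style.haveILetI false
set_option linter.unusedVariables false
open Cfsg

namespace Cfsg.Agent.S0577

/-- Let G be a finite minimal non-nilpotent group and Q a normal Sylow q-subgroup of G, and let D be the commutator subgroup of Q regarded in G (a normal subgroup). Then G modulo D is non-abelian and all its proper subgroups are abelian. -/
theorem result {G : Type*} [Group G] [Finite G] (hG : Cfsg.IsMinimalNonNilpotent G) (q : ℕ) [Fact q.Prime] (hq : q ∣ Nat.card G) (Q : Sylow q G) (hQ : (Q : Subgroup G).Normal) (D : Subgroup G) [D.Normal] (hD : D = (commutator ↥(Q : Subgroup G)).map (Q : Subgroup G).subtype) : ¬ IsMulCommutative (G ⧸ D) ∧ ∀ K : Subgroup (G ⧸ D), K ≠ ⊤ → IsMulCommutative K := by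
  obtain ⟨p, r, hp, hr, hpr, x, R, hR, hx, hRr, hs, -⟩ := Cfsg.H1.exists_of_isMinimalNonNilpotent hG
  haveI := Fact.mk hp
  haveI := Fact.mk hr
  have hle : ∀ X : Subgroup G, IsPGroup q X → X ≤ Q := fun X hX =>
    Cfsg.H1.le_normal_isPiHall (Cfsg.H1.isPiHall_sylow Q)
      (Cfsg.H1.isPiSubgroup_singleton_iff.mpr hX)
  have h1 : commutator G ≤ Q := by
    refine (Cfsg.H1.commutator_le_of_sup_eq_top hs).trans (hle R ?_)
    by_cases hqr : q = r
    · exact hqr ▸ hRr
    exfalso
    have hf := Cfsg.H1.fac_of_normal_right hs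
    have hqp : q = p := by
      by_contra hqp
      rw [← R.card_mul_index] at hq
      rcases (Nat.Prime.dvd_mul Fact.out).mp hq with h | h
      · exact Cfsg.H1.not_dvd_card_of_isPGroup_of_ne hqr hRr h
      · exact Cfsg.H1.not_dvd_card_of_isPGroup_of_ne hqp hx (h.trans hf.symm.index_dvd_card)
    subst hqp
    have h2 := Cfsg.H1.isNilpotent_sup_of_normal Q.isPGroup'.isNilpotent hRr.isNilpotent
    rw [top_le_iff.mp (hs.ge.trans (sup_le_sup_right (hle _ hx) R))] at h2
    exact hG.1 (Group.nilpotent_of_mulEquiv Subgroup.topEquiv)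
  have hsurj := QuotientGroup.mk'_surjective D
  constructor
  · intro h
    refine hG.1 (Cfsg.H1.isNilpotent_of_commutator_le_frattini ?_)
    have h2 : commutator G ≤ D := by
      rw [← Cfsg.H1.map_mk'_eq_bot_iff D, Cfsg.H1.map_commutator_of_surjective hsurj,
        commutator_def, Subgroup.commutator_eq_bot_iff_le_centralizer]
      intro a _ b _
      exact h.is_comm.comm _ _
    haveI := Q.isPGroup'.isNilpotent
    rw [hD] at h2
    exact h2.trans ((Subgroup.map_mono Cfsg.H1.commutator_le_frattini_of_isNilpotent).trans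
      (Cfsg.H1.map_frattini_le_of_normal _))
  · intro K hK
    have h2 : Group.IsNilpotent K := by
      rw [← Cfsg.H1.map_comap_mk' D K]
      refine Cfsg.H1.isNilpotent_map (hG.2 _ fun e => hK ?_) _
      rw [← Cfsg.H1.map_comap_mk' D K, e, Subgroup.map_top_of_surjective _ hsurj]
    have hQ' := Q.isPGroup'.map (QuotientGroup.mk' D)
    refine Cfsg.H1.isMulCommutative_of_isNilpotent_of_pSubgroup h2 fun s _ S _ hS => ?_
    rw [← Subgroup.le_centralizer_iff_isMulCommutative,
      ← Subgroup.commutator_eq_bot_iff_le_centralizer, ← le_bot_iff]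
    by_cases hsq : s = q
    · subst hsq
      haveI := Cfsg.H1.normal_map_mk' D hQ
      have h3 := Cfsg.H1.le_normal_isPiHall
        (Cfsg.H1.isPiHall_map (Cfsg.H1.isPiHall_sylow Q) _ hsurj)
        (Cfsg.H1.isPiSubgroup_singleton_iff.mpr hS)
      refine (Subgroup.commutator_mono h3 h3).trans ?_
      rw [← Subgroup.map_commutator, le_bot_iff, Cfsg.H1.map_mk'_eq_bot_iff, hD,
        Subgroup.map_subtype_commutator]
    · rw [← (IsPGroup.disjoint_of_ne s q hsq _ _ hS hQ').eq_bot]
      refine le_inf (Subgroup.commutator_le_self S) ?_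
      refine (Subgroup.commutator_mono le_top le_top).trans ?_
      rw [← commutator_def, ← Cfsg.H1.map_commutator_of_surjective hsurj]
      exact Subgroup.map_mono h1

end Cfsg.Agent.S0577
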