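import Cfsg.Statements.S0586
import Cfsg.Agent.H1.CoreFree

set_option autoImplicit false
set_option linter.style.haveILetI false
set_option linter.unusedVariables false
open Cfsg

namespace Cfsg.Agent.S0586

/-- If the Frattini subgroup of a finite group G is trivial, then the Fitting subgroup of G equals the join of all abelian minimal normal subgroups of G. -/
theorem result {G : Type*} [Group G] [Finite G] (hΦ : frattini G = ⊥) : Cfsg.fittingSubgroup G = sSup {N : Subgroup G | N.Normal ∧ N ≠ ⊥ ∧ IsMulCommutative N ∧ ∀ K : Subgroup G, K.Normal → K ≤ N → K = ⊥ ∨ K = N} := by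
  set S := sSup {N : Subgroup G | N.Normal ∧ N ≠ ⊥ ∧ IsMulCommutative N ∧
    ∀ K : Subgroup G, K.Normal → K ≤ N → K = ⊥ ∨ K = N} with hS
  have hle : S ≤ fittingSubgroup G := sSup_le fun N hN => by
    haveI := hN.2.2.1
    exact H1.le_fitting_of_isMulCommutative hN.1
  haveI : S.Normal := Subgroup.sSup_normal _ fun N hN => hN.1
  haveI := H1.fitting_nilpotent G
  haveI hF : IsMulCommutative (fittingSubgroup G) := by
    rw [← commutator_eq_bot_iff, ← Subgroup.map_eq_bot_iff_of_injective _
      (fittingSubgroup G).subtype_injective, eq_bot_iff, ← hΦ]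
    exact (Subgroup.map_mono H1.commutator_le_frattini_of_isNilpotent).trans
      (H1.map_frattini_le_of_normal _)
  haveI : IsMulCommutative S := H1.isMulCommutative_of_le hle
  obtain ⟨H, hH⟩ := H1.exists_complement_of_inf_frattini_eq_bot S (by rw [hΦ, inf_bot_eq])
  have hs : H ⊔ S = ⊤ := sup_comm S H ▸ hH.sup_eq_top
  refine (H1.eq_of_le_of_inf_eq_bot hle ?_ hs).symm
  by_contra hne
  have hn : (fittingSubgroup G ⊓ H).Normal := H1.normal_of_le_abelian
    (eq_top_iff.mpr (hs.ge.trans (sup_le_sup_left hle H))) inf_le_left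
    (H1.le_normalizer_inf Subgroup.le_normalizer_of_normal Subgroup.le_normalizer)
  obtain ⟨M, hM, hMle⟩ := H1.exists_isMinNormal_le hn hne
  have h1 : M ≤ S := le_sSup ⟨hM.normal, hM.ne_bot,
    H1.isMulCommutative_of_le (hMle.trans inf_le_left), hM.min⟩
  exact hM.ne_bot (le_bot_iff.mp (hH.disjoint h1 (hMle.trans inf_le_right)))

end Cfsg.Agent.S0586
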