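import Cfsg.Statements.S0587
import Cfsg.Agent.H1.Factor

set_option autoImplicit false
set_option linter.style.haveILetI false
set_option linter.unusedVariables false
open Cfsg

namespace Cfsg.Agent.S0587

/-- Let G be a finite group whose largest normal p-subgroup L is nontrivial, and M a maximal subgroup of G with trivial normal core. Then L is elementary abelian, M is a complement to L, L is a minimal normal subgroup of G, the centralizer of L is L, and for every prime q such that the largest normal q-subgroup of M is nontrivial, the order of L is congruent to 1 modulo q and q ≠ p. -/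
theorem result {G : Type*} [Group G] [Finite G] (p : ℕ) [Fact p.Prime] (hL : Cfsg.pCore p G ≠ ⊥) (M : Subgroup G) (hM : IsCoatom M) (hcore : M.normalCore = ⊥) : Cfsg.IsElementaryAbelian p (Cfsg.pCore p G) ∧ Subgroup.IsComplement' (Cfsg.pCore p G) M ∧ (∀ K : Subgroup G, K.Normal → K ≤ Cfsg.pCore p G → K = ⊥ ∨ K = Cfsg.pCore p G) ∧ Subgroup.centralizer ((Cfsg.pCore p G : Subgroup G) : Set G) = Cfsg.pCore p G ∧ ∀ (q : ℕ) [Fact q.Prime], Cfsg.pCore q ↥M ≠ ⊥ → Nat.card (Cfsg.pCore p G) % q = 1 % q ∧ q ≠ p := by
  obtain ⟨N, hN, hle⟩ := H1.exists_isMinNormal_le inferInstance hL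
  haveI := hN.normal
  have hP := H1.isPGroup_pCore p G
  have he := hN.isElementaryAbelian_of_isPGroup (hP.to_le hle)
  haveI := he.1
  have hs := H1.sup_eq_top_of_corefree hM hcore hN.normal hN.ne_bot
  have hc := H1.centralizer_eq_of_corefree hcore hs
  have e : pCore p G = N := le_antisymm (hc ▸ hN.le_centralizer_of_nilpotent hP.isNilpotent) hle
  have hd := H1.inf_eq_bot_of_corefree hcore hs
  rw [e] at hP ⊢
  refine ⟨he, H1.isComplement'_of_inf_eq_bot_of_sup_eq_top hd (sup_comm M N ▸ hs), hN.min, hc,
    fun q hq hQ => ?_⟩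
  have h1 : N ⊓ Subgroup.centralizer (((pCore q M).map M.subtype : Subgroup G) : Set G) = ⊥ := by
    refine (hN.min _ (H1.normal_of_le_abelian hs inf_le_left ?_) inf_le_left).resolve_right
      fun h => hQ ?_
    · refine H1.le_normalizer_inf Subgroup.le_normalizer_of_normal
        (H1.le_normalizer_centralizer ?_)
      haveI := H1.pCore_characteristic q M
      exact Subgroup.le_normalizer.trans (H1.normalizer_le_normalizer_map_subtype _)
    · have h2 := Subgroup.le_centralizer_iff.mp (inf_eq_left.mp h)
      rw [hc] at h2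
      rw [← Subgroup.map_eq_bot_iff_of_injective _ M.subtype_injective, eq_bot_iff, ← hd]
      exact le_inf h2 (Subgroup.map_subtype_le _)
  have h2 := H1.card_modEq_card_inf_centralizer ((H1.isPGroup_pCore q M).map M.subtype)
    (Subgroup.le_normalizer_of_normal (H := N))
  rw [h1, Subgroup.card_bot] at h2
  refine ⟨h2, ?_⟩
  rintro rfl
  have h3 := hP.card_eq_or_dvd.resolve_left fun e => hN.ne_bot (Subgroup.card_eq_one.mp e)
  exact hq.out.not_dvd_one ((Nat.modEq_zero_iff_dvd.mp
    (h2.symm.trans (Nat.modEq_zero_iff_dvd.mpr h3))))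

end Cfsg.Agent.S0587
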