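import Cfsg.Statements.S0588
import Cfsg.Agent.H1.Fitting

set_option autoImplicit false
set_option linter.style.haveILetI false
set_option linter.unusedVariables false
open Cfsg

namespace Cfsg.Agent.S0588

/-- If a subgroup H of a finite group G contains the centralizer of every non-identity element of H, then the order of H is coprime to its index. -/
theorem result {G : Type*} [Group G] [Finite G] (H : Subgroup G) (h : ∀ x ∈ H, x ≠ 1 → Subgroup.centralizer ({x} : Set G) ≤ H) : (Nat.card H).Coprime H.index := by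
  refine Nat.coprime_of_dvd fun p hp h1 h2 => ?_
  haveI := Fact.mk hp
  obtain ⟨x, hx⟩ := exists_prime_orderOf_dvd_card' (G := H) p h1
  have hx1 : (x : G) ≠ 1 := fun e => by
    rw [(Subtype.ext e : x = 1), orderOf_one] at hx
    exact hp.one_lt.ne hx
  have hP : IsPGroup p (Subgroup.zpowers (x : G)) :=
    IsPGroup.of_card (n := 1) (by rw [Nat.card_zpowers, Subgroup.orderOf_coe, hx, pow_one])
  obtain ⟨P, hxP⟩ := hP.exists_le_sylow
  have hxP' : (x : G) ∈ (P : Subgroup G) := hxP (Subgroup.mem_zpowers _)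
  have hne : (P : Subgroup G) ≠ ⊥ := fun e => hx1 (Subgroup.mem_bot.mp (e ▸ hxP'))
  have := Cfsg.H1.inf_centralizer_ne_bot_of_isPGroup P.isPGroup' P.isPGroup' Subgroup.le_normalizer hne
  obtain ⟨⟨z, hzP, hzc⟩, hz1⟩ := Subgroup.ne_bot_iff_exists_ne_one.mp this
  have hz1' : z ≠ 1 := fun e => hz1 (Subtype.ext e)
  have hzH : z ∈ H := h x x.2 hx1 (Subgroup.mem_centralizer_singleton_iff.mpr (hzc x hxP').symm)
  have hPH : (P : Subgroup G) ≤ H := fun y hy =>
    h z hzH hz1' (Subgroup.mem_centralizer_singleton_iff.mpr (hzc y hy))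
  exact P.not_dvd_index (h2.trans (Subgroup.index_dvd_of_le hPH))

end Cfsg.Agent.S0588
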