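import Cfsg.Statements.S0752
import Cfsg.Agent.H2.Bases

set_option autoImplicit false
open Cfsg

namespace Cfsg.Agent.S0752

/-- Classification of alternating forms: for an alternating bilinear form B on a finite-dimensional space over any field there is a basis indexed by (Fin m ⊕ Fin m) ⊕ Fin k such that B (e_i, f_j) = δ_ij, the e's are pairwise orthogonal, the f's are pairwise orthogonal, and the last k basis vectors are orthogonal to everything (they span the radical). -/
theorem result {F V : Type*} [Field F] [AddCommGroup V] [Module F V] [FiniteDimensional F V] (B : LinearMap.BilinForm F V) (hA : B.IsAlt) : ∃ (m k : ℕ) (b : Module.Basis ((Fin m ⊕ Fin m) ⊕ Fin k) F V), (∀ i j : Fin m, B (b (Sum.inl (Sum.inl i))) (b (Sum.inl (Sum.inr j))) = if i = j then 1 else 0) ∧ (∀ i j : Fin m, B (b (Sum.inl (Sum.inl i))) (b (Sum.inl (Sum.inl j))) = 0) ∧ (∀ i j : Fin m, B (b (Sum.inl (Sum.inr i))) (b (Sum.inl (Sum.inr j))) = 0) ∧ (∀ (j : Fin k) (v : V), B (b (Sum.inr j)) v = 0) := by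
  obtain ⟨X, hX⟩ := (LinearMap.ker B).exists_isCompl
  have hA' : (B.restrict X).IsAlt := fun x => hA x
  have hB' : (B.restrict X).Nondegenerate := by
    apply LinearMap.BilinForm.Nondegenerate.ofSeparatingLeft
    intro x hx
    have : (x : V) ∈ LinearMap.ker B := by
      rw [LinearMap.mem_ker]
      ext y
      have hy : y ∈ LinearMap.ker B ⊔ X := by rw [hX.sup_eq_top]; trivial
      obtain ⟨r, hr, z, hz, rfl⟩ := Submodule.mem_sup.1 hy
      have h1 : B x z = 0 := hx ⟨z, hz⟩
      have h2 : B x r = 0 := LinearMap.IsAlt.isRefl hA r x (by rw [LinearMap.mem_ker.1 hr]; rfl)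
      simp [h1, h2]
    exact Subtype.ext (Submodule.disjoint_def.1 hX.disjoint _ this x.2)
  obtain ⟨m, b, hb1, hb2, hb3⟩ := Cfsg.H2.exists_symplectic_basis (B.restrict X) hA' hB'
  let r := Module.finBasis F (LinearMap.ker B)
  refine ⟨m, _, (b.prod r).map (Submodule.prodEquivOfIsCompl X _ hX.symm), ?_, ?_, ?_, ?_⟩
  · intro i j
    simpa using hb3 i j
  · intro i j
    simpa using hb1 i j
  · intro i j
    simpa using hb2 i j
  · intro j v
    have : B (r j : V) = 0 := (r j).2
    simp [this]

end Cfsg.Agent.S0752
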