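import Cfsg.Statements.S0757
import Cfsg.Agent.H2.Ortho

set_option autoImplicit false
open Cfsg

namespace Cfsg.Agent.S0757

/-- The two diagonal forms Σ x_i^2 and Σ_(i<n) x_i^2 + α x_n^2 on F^(n+1), with α a non-square and 2 ≠ 0 in F, are inequivalent quadratic forms (so over a finite field of odd order there are exactly two classes of non-singular symmetric bilinear forms in each dimension). -/
theorem result {F : Type*} [Field F] (h2 : (2 : F) ≠ 0) (n : ℕ) (α : F) (hα : ¬ IsSquare α) : ¬ (QuadraticMap.weightedSumSquares F (fun _ : Fin (n + 1) => (1 : F))).Equivalent (QuadraticMap.weightedSumSquares F (fun i : Fin (n + 1) => if i = Fin.last n then α else (1 : F))) := by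
  rintro ⟨e⟩
  let B₁ := QuadraticMap.polarBilin (QuadraticMap.weightedSumSquares F (fun _ : Fin (n + 1) => (1 : F)))
  let B₂ := QuadraticMap.polarBilin (QuadraticMap.weightedSumSquares F
    (fun i : Fin (n + 1) => if i = Fin.last n then α else (1 : F)))
  have key : ∀ (w : Fin (n + 1) → F), LinearMap.BilinForm.toMatrix (Pi.basisFun F (Fin (n + 1)))
      (QuadraticMap.polarBilin (QuadraticMap.weightedSumSquares F w)) =
      Matrix.diagonal (fun i => 2 * w i) := by
    intro w
    ext i j
    simp only [LinearMap.BilinForm.toMatrix_apply, Pi.basisFun_apply,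
      QuadraticMap.polarBilin_apply_apply, QuadraticMap.polar,
      QuadraticMap.weightedSumSquares_apply, Pi.add_apply, smul_eq_mul, ← Finset.sum_sub_distrib]
    rw [Finset.sum_eq_single i]
    · by_cases hij : i = j
      · subst hij; simp; ring
      · simp [hij]
    · intro k _ hk
      simp [hk]
    · simp
  have h1 : LinearMap.BilinForm.toMatrix ((Pi.basisFun F (Fin (n + 1))).map e.toLinearEquiv) B₂ =
      LinearMap.BilinForm.toMatrix (Pi.basisFun F (Fin (n + 1))) B₁ := by
    ext i j
    simp only [LinearMap.BilinForm.toMatrix_apply, Module.Basis.map_apply, B₁, B₂,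
      QuadraticMap.polarBilin_apply_apply, QuadraticMap.polar]
    rw [← map_add]
    erw [e.map_app, e.map_app, e.map_app]
  obtain ⟨u, hu, hub⟩ := Cfsg.H2.det_toMatrix_change B₂ (Pi.basisFun F (Fin (n + 1)))
    ((Pi.basisFun F (Fin (n + 1))).map e.toLinearEquiv)
  rw [h1, key, key, Matrix.det_diagonal, Matrix.det_diagonal, Finset.prod_mul_distrib,
    Finset.prod_mul_distrib] at hub
  simp only [Finset.prod_const, Finset.prod_ite_eq', Finset.mem_univ, if_true, one_pow] at hub
  have h3 : (2 : F) ^ (Finset.univ : Finset (Fin (n + 1))).card ≠ 0 := pow_ne_zero _ h2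
  apply hα
  refine ⟨u⁻¹, ?_⟩
  field_simp
  apply mul_left_cancel₀ h3
  linear_combination -hub

end Cfsg.Agent.S0757
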