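import Cfsg.Statements.S0759
import Cfsg.Agent.H2.Ortho

set_option autoImplicit false
open Cfsg

namespace Cfsg.Agent.S0759

/-- Type of the orthonormal form: over a finite field of odd order q and for m ≥ 1, the quadratic form Σ_(i<2m) x_i² on F^(2m) admits an m-dimensional subspace on which it vanishes identically if and only if it is not the case that q ≡ 3 (mod 4) and m is odd. -/
theorem result {F : Type*} [Field F] [Fintype F] (h2 : (2 : F) ≠ 0) (m : ℕ) (hm : 1 ≤ m) : (∃ W : Submodule F (Fin (2 * m) → F), Module.finrank F W = m ∧ ∀ w ∈ W, ∑ i, w i ^ 2 = 0) ↔ ¬ (Fintype.card F % 4 = 3 ∧ Odd m) := by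
  let B : LinearMap.BilinForm F (Fin (2 * m) → F) := Matrix.toBilin' 1
  have hBa : ∀ x y, B x y = ∑ i, x i * y i := by
    intro x y
    simp [B, Matrix.toBilin'_apply', dotProduct]
  have hS : B.IsSymm := ⟨fun x y => by simp [hBa, mul_comm]⟩
  have hB : B.Nondegenerate := LinearMap.BilinForm.nondegenerate_toBilin'_of_det_ne_zero' _ (by simp)
  have h := Cfsg.H2.plus_iff_isSquare_disc h2 B hS hB (Pi.basisFun F (Fin (2 * m))) (n := m) (by simp)
  have hM : LinearMap.BilinForm.toMatrix (Pi.basisFun F (Fin (2 * m))) B = 1 := by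
    rw [LinearMap.BilinForm.toMatrix_basisFun]
    exact LinearMap.BilinForm.toMatrix'_toBilin' _
  rw [hM, Matrix.det_one, mul_one] at h
  have h1 := FiniteField.isSquare_neg_one_iff (F := F)
  have h3 : IsSquare ((-1 : F) ^ m) ↔ ¬ (Fintype.card F % 4 = 3 ∧ Odd m) := by
    rcases Nat.even_or_odd m with hm' | hm'
    · rw [hm'.neg_one_pow]
      simp [Nat.not_odd_iff_even.2 hm']
    · rw [hm'.neg_one_pow, h1]
      simp [hm']
  rw [← h3, ← h]
  refine exists_congr fun W => and_congr_right fun _ => ⟨fun hW => ?_, fun hW w hw => ?_⟩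
  · have := Cfsg.H2.FormSp.isTS_of_q (S := Cfsg.H2.ofSymm h2 B hS) (Cfsg.H2.two_ne_zero_trace h2)
      (X := W) (fun x hx => by simpa [hBa, sq] using hW x hx)
    exact fun x hx y hy => this.B_eq hx hy
  · simpa [hBa, sq] using hW w hw w hw

end Cfsg.Agent.S0759
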