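import Cfsg.Statements.S0760
import Cfsg.Agent.H2.Ortho

set_option autoImplicit false
open Cfsg

namespace Cfsg.Agent.S0760

/-- Witt index is well defined: if Q is a quadratic form on a finite-dimensional space V over a finite field with non-degenerate polar form, and W₁, W₂ are subspaces on which Q vanishes that are maximal with this property, then W₁ and W₂ have the same dimension, and twice this dimension is at most dim V. -/
theorem result {F V : Type*} [Field F] [Finite F] [AddCommGroup V] [Module F V] [FiniteDimensional F V] (Q : QuadraticForm F V) (hQ : (QuadraticMap.polarBilin Q).Nondegenerate) (W₁ W₂ : Submodule F V) (h₁ : ∀ w ∈ W₁, Q w = 0) (h₂ : ∀ w ∈ W₂, Q w = 0) (hmax₁ : ∀ W : Submodule F V, W₁ ≤ W → (∀ w ∈ W, Q w = 0) → W = W₁) (hmax₂ : ∀ W : Submodule F V, W₂ ≤ W → (∀ w ∈ W, Q w = 0) → W = W₂) : Module.finrank F W₁ = Module.finrank F W₂ ∧ 2 * Module.finrank F W₁ ≤ Module.finrank F V := by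
  have h : (Cfsg.H2.ofQuad Q).Nondeg := hQ.1
  have key : ∀ W₁ W₂ : Submodule F V, (∀ w ∈ W₁, Q w = 0) → (∀ w ∈ W₂, Q w = 0) →
      (∀ W : Submodule F V, W₁ ≤ W → (∀ w ∈ W, Q w = 0) → W = W₁) →
      Module.finrank F W₁ ≤ Module.finrank F W₂ → Module.finrank F W₁ = Module.finrank F W₂ := by
    intro W₁ W₂ h₁ h₂ hmax hle
    obtain ⟨f, hf⟩ := finrank_le_iff_exists_linearMap.1 hle
    obtain ⟨g, hg, hgf⟩ := Cfsg.H2.witt_quad Q hQ W₁ (W₂.subtype ∘ₗ f)
      (Subtype.val_injective.comp hf) (fun x => by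
        rw [h₁ x x.2]; exact h₂ _ (f x).2)
    have := hmax (W₂.comap g.toLinearMap) (fun x hx => by
      rw [Submodule.mem_comap, LinearEquiv.coe_coe, hgf ⟨x, hx⟩]; exact (f _).2)
      (fun w hw => by rw [← hg]; exact h₂ _ hw)
    rw [← this, Submodule.comap_equiv_eq_map_symm, LinearEquiv.finrank_map_eq]
  constructor
  · rcases le_total (Module.finrank F W₁) (Module.finrank F W₂) with hle | hle
    · exact key W₁ W₂ h₁ h₂ hmax₁ hle
    · exact (key W₂ W₁ h₂ h₁ hmax₂ hle).symm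
  · exact (Cfsg.H2.FormSp.isTS_of_q (S := Cfsg.H2.ofQuad Q) ⟨1, one_ne_zero⟩ h₁).two_mul_finrank_le h

end Cfsg.Agent.S0760
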