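import Cfsg.Statements.S0762


set_option autoImplicit false
open Cfsg

namespace Cfsg.Agent.S0762

/-- In characteristic two over a finite field, a quadratic form on a space of dimension at least 3 vanishes on some non-zero vector. -/
theorem result {F V : Type*} [Field F] [Finite F] [CharP F 2] [AddCommGroup V] [Module F V] [FiniteDimensional F V] (Q : QuadraticForm F V) (h3 : 3 ≤ Module.finrank F V) : ∃ v : V, v ≠ 0 ∧ Q v = 0 := by
  have : Nontrivial V := Module.nontrivial_of_finrank_pos (R := F) (by omega)
  obtain ⟨v, hv⟩ := exists_ne (0 : V)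
  by_cases hQv : Q v = 0
  · exact ⟨v, hv, hQv⟩
  have h1 := LinearMap.finrank_range_add_finrank_ker (QuadraticMap.polarBilin Q v)
  have h2 : Module.finrank F (LinearMap.range (QuadraticMap.polarBilin Q v)) ≤ 1 := by
    simpa using Submodule.finrank_le (LinearMap.range (QuadraticMap.polarBilin Q v))
  obtain ⟨w, hw, hwv⟩ : ∃ w ∈ LinearMap.ker (QuadraticMap.polarBilin Q v), w ∉ F ∙ v := by
    by_contra hc
    push Not at hc
    have := Submodule.finrank_mono (show LinearMap.ker (QuadraticMap.polarBilin Q v) ≤ F ∙ v from hc)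
    rw [finrank_span_singleton hv] at this
    omega
  obtain ⟨a, ha⟩ := FiniteField.isSquare_of_char_two (ringChar.eq F 2) (Q w / Q v)
  refine ⟨a • v + w, fun hc => hwv ?_, ?_⟩
  · rw [eq_neg_of_add_eq_zero_right hc]
    exact Submodule.neg_mem _ (Submodule.smul_mem _ _ (Submodule.mem_span_singleton_self v))
  · have h0 : QuadraticMap.polar Q v w = 0 := hw
    rw [QuadraticMap.map_add Q, QuadraticMap.polar_smul_left, h0, QuadraticMap.map_smul, ← ha]
    simp only [smul_eq_mul, mul_zero, add_zero]
    rw [div_mul_cancel₀ _ hQv, CharTwo.add_self_eq_zero]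

end Cfsg.Agent.S0762
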