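import Cfsg.Statements.S0763
import Cfsg.Agent.H2.Ortho

set_option autoImplicit false
open Cfsg

namespace Cfsg.Agent.S0763

/-- Binary quadratic forms in characteristic two over a finite field: if Q is a quadratic form on a 2-dimensional space whose polar form is non-degenerate, then either there are vectors v, w with Q v = Q w = 0 and polar value 1 (Q is xy in these coordinates), or there are v, w and μ with Q v = 1, Q w = μ, polar value 1 and x² + x + μ without roots in F (Q is x² + xy + μy²). -/
theorem result {F V : Type*} [Field F] [Finite F] [CharP F 2] [AddCommGroup V] [Module F V] (Q : QuadraticForm F V) (h2 : Module.finrank F V = 2) (hQ : (QuadraticMap.polarBilin Q).Nondegenerate) : (∃ v w : V, LinearIndependent F ![v, w] ∧ Q v = 0 ∧ Q w = 0 ∧ QuadraticMap.polar Q v w = 1) ∨ (∃ (v w : V) (μ : F), LinearIndependent F ![v, w] ∧ (∀ x : F, x ^ 2 + x + μ ≠ 0) ∧ Q v = 1 ∧ Q w = μ ∧ QuadraticMap.polar Q v w = 1) := by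
  have : FiniteDimensional F V := Module.finite_of_finrank_eq_succ h2
  have h : (Cfsg.H2.ofQuad Q).Nondeg := hQ.1
  have hpp : ∀ x : V, QuadraticMap.polar Q x x = 0 := fun x => by
    rw [QuadraticMap.polar_self, two_nsmul, CharTwo.add_self_eq_zero]
  have hli : ∀ v w : V, QuadraticMap.polar Q v w = 1 → LinearIndependent F ![v, w] := by
    intro v w hvw
    refine Cfsg.H2.FormSp.linearIndependent_of_dual (S := Cfsg.H2.ofQuad Q) _ ![w, v] ?_ ?_
    · intro i j hij
      fin_cases i <;> fin_cases j <;> simp_all
    · intro i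
      fin_cases i <;> simp [hvw, QuadraticMap.polar_comm Q w v]
  by_cases hiso : ∃ v : V, v ≠ 0 ∧ Q v = 0
  · left
    obtain ⟨v, hv, hQv⟩ := hiso
    obtain ⟨w, -, hw, hvw⟩ := h.exists_partner (Z := ⊥) (x := v) (by simpa using hv) (by simp) hQv
    exact ⟨v, w, hli v w hvw, hQv, hw, hvw⟩
  · right
    push Not at hiso
    have : Nontrivial V := Module.nontrivial_of_finrank_pos (R := F) (by omega)
    obtain ⟨u, hu⟩ := exists_ne (0 : V)
    obtain ⟨a, ha⟩ := FiniteField.isSquare_of_char_two (ringChar.eq F 2) (Q u)⁻¹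
    have hv : Q (a • u) = 1 := by
      rw [QuadraticMap.map_smul, ← ha, smul_eq_mul, inv_mul_cancel₀ (hiso u hu)]
    set v := a • u
    have hv0 : v ≠ 0 := by
      intro hc; rw [hc] at hv; simp at hv
    obtain ⟨w, hw⟩ := h.exists_one hv0
    have hw' : QuadraticMap.polar Q v w = 1 := hw
    refine ⟨v, w, Q w, hli v w hw', fun x hx => ?_, hv, rfl, hw'⟩
    apply hiso (x • v + w)
    · intro hc
      have := congrArg (QuadraticMap.polar Q v) hc
      simp [hpp, hw'] at this
    · rw [QuadraticMap.map_add Q, QuadraticMap.polar_smul_left, hw', QuadraticMap.map_smul, hv]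
      simp only [smul_eq_mul]
      linear_combination hx

end Cfsg.Agent.S0763
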