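import Cfsg.Statements.S0766
import Cfsg.Agent.H2.Symp

set_option autoImplicit false
open Cfsg

namespace Cfsg.Agent.S0766

/-- The subgroup generated by the symplectic transvections acts transitively on ordered pairs (u, v) with f(u, v) = 1. -/
theorem result {F : Type*} [Field F] (m : ℕ) (u v u' v' : Fin m ⊕ Fin m → F) (h : Cfsg.sympForm m F u v = 1) (h' : Cfsg.sympForm m F u' v' = 1) : ∃ A ∈ Subgroup.closure {A : Matrix.symplecticGroup (Fin m) F | ∃ (w : Fin m ⊕ Fin m → F) (c : F), (A : Matrix (Fin m ⊕ Fin m) (Fin m ⊕ Fin m) F) = Cfsg.sympTransvection m w c}, (A : Matrix (Fin m ⊕ Fin m) (Fin m ⊕ Fin m) F).mulVec u = u' ∧ (A : Matrix (Fin m ⊕ Fin m) (Fin m ⊕ Fin m) F).mulVec v = v' := by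
  have hS := Cfsg.H2.sympS_nondeg m F
  have hA := Cfsg.H2.sympBilin_isAlt m F
  rw [← Cfsg.H2.sympS_B] at h h'
  have hu0 : u ≠ 0 := by rintro rfl; simp at h
  have hu0' : u' ≠ 0 := by rintro rfl; simp at h'
  obtain ⟨g1, hg1, -, hg1u⟩ := hS.witt_step ⊥ (u := u) (v := u') (by simpa using hu0)
    (by simpa using hu0') (by simp) rfl
  have key : ∀ w, (Cfsg.H2.sympS m F).B u' w = 1 → w ∉ F ∙ u' := by
    intro w hw hc
    obtain ⟨a, rfl⟩ := Submodule.mem_span_singleton.1 hc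
    rw [map_smul, show (Cfsg.H2.sympS m F).B u' u' = 0 from hA u'] at hw
    simp at hw
  have h1 : (Cfsg.H2.sympS m F).B u' (g1 v) = 1 := by rw [← hg1u, hg1.1, h]
  obtain ⟨g2, hg2, hg2u, hg2v⟩ := hS.witt_step (F ∙ u') (key _ h1) (key _ h') (by
    intro x hx
    obtain ⟨a, rfl⟩ := Submodule.mem_span_singleton.1 hx
    simp [h1, h']) rfl
  obtain ⟨A, hA⟩ := Cfsg.H2.exists_sp_of_isom (mul_mem hg2 hg1)
  refine ⟨A, by rw [Cfsg.H2.sp_closure_transvections]; trivial, ?_, ?_⟩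
  · rw [hA, LinearEquiv.mul_apply, hg1u, hg2u _ (Submodule.mem_span_singleton_self _)]
  · rw [hA, LinearEquiv.mul_apply, hg2v]

end Cfsg.Agent.S0766
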