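import Cfsg.Statements.S0768
import Cfsg.Agent.H2.Symp

set_option autoImplicit false
open scoped LinearAlgebra.Projectivization
open Cfsg

namespace Cfsg.Agent.S0768

/-- Primitivity: for m ≥ 1 and F finite, the symplectic group of the form sympForm (as a subgroup of the general linear group) acts primitively on the projective space of F^(2m). -/
theorem result {F : Type*} [Field F] [Finite F] (m : ℕ) (hm : 1 ≤ m) : MulAction.IsPreprimitive ↥(Cfsg.spGL m F) (ℙ F (Fin m ⊕ Fin m → F)) := by
  have hS := Cfsg.H2.sympS_nondeg m F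
  have hA : ∀ x, (Cfsg.H2.sympS m F).B x x = 0 := Cfsg.H2.sympBilin_isAlt m F
  set S := Cfsg.H2.sympS m F with hSdef
  have lift : ∀ g ∈ S.isom, ∃ A : Cfsg.spGL m F, ∀ (v : Fin m ⊕ Fin m → F) (hv : v ≠ 0)
      (hv' : g v ≠ 0), A • Projectivization.mk F v hv = Projectivization.mk F (g v) hv' := by
    intro g hg
    obtain ⟨A, rfl⟩ := (Cfsg.H2.glEquiv (Fin m ⊕ Fin m) F).surjective g
    refine ⟨⟨A, fun u v => ?_⟩, fun v hv hv' => rfl⟩
    rw [← Cfsg.H2.sympS_B, ← Cfsg.H2.sympS_B]
    exact hg.1 u v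
  have htrans : MulAction.IsPretransitive ↥(Cfsg.spGL m F) (ℙ F (Fin m ⊕ Fin m → F)) := by
    refine ⟨fun p q => ?_⟩
    induction p using Projectivization.ind with | h u hu => ?_
    induction q using Projectivization.ind with | h v hv => ?_
    obtain ⟨g, hg, -, rfl⟩ := hS.witt_step ⊥ (u := u) (v := v) (by simpa using hu)
      (by simpa using hv) (by simp) rfl
    obtain ⟨A, hA⟩ := lift g hg
    exact ⟨A, hA u hu hv⟩
  refine ⟨fun {B} hB => ?_⟩
  by_contra hnt
  rw [MulAction.IsTrivialBlock, not_or, Set.not_subsingleton_iff] at hnt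
  obtain ⟨⟨p, hp, q, hq, hpq⟩, hne⟩ := hnt
  apply hne
  -- `M v` says that `v` is nonzero and its point is in the block
  let M : (Fin m ⊕ Fin m → F) → Prop := fun v => ∃ hv : v ≠ 0, Projectivization.mk F v hv ∈ B
  have hsm : ∀ v (a : F), a ≠ 0 → M v → M (a • v) := by
    rintro v a ha ⟨hv, hvB⟩
    refine ⟨smul_ne_zero ha hv, ?_⟩
    convert hvB using 1
    rw [Projectivization.mk_eq_mk_iff']
    exact ⟨a, rfl⟩
  have move : ∀ u v w, M u → M v → v ∉ F ∙ u → w ∉ F ∙ u → S.B u v = S.B u w → M w := by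
    rintro u v w ⟨hu, huB⟩ ⟨hv, hvB⟩ hvu hwu hB'
    obtain ⟨g, hg, hgu, rfl⟩ := hS.witt_step (F ∙ u) hvu hwu (by
      intro x hx
      obtain ⟨a, rfl⟩ := Submodule.mem_span_singleton.1 hx
      simp [hB']) rfl
    obtain ⟨A, hA⟩ := lift g hg
    have hgu' := hgu u (Submodule.mem_span_singleton_self u)
    have h1 : A • Projectivization.mk F u hu ∈ B := by
      rw [hA u hu (by rwa [hgu'])]
      simpa only [hgu'] using huB
    have h2 := hB.smul_eq_of_mem huB h1
    have hgv : g v ≠ 0 := by simpa using hv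
    refine ⟨hgv, ?_⟩
    rw [← hA v hv hgv, ← h2]
    exact Set.smul_mem_smul_set hvB
  have hnot : ∀ u v, S.B u v ≠ 0 → v ∉ F ∙ u := by
    intro u v huv hc
    obtain ⟨a, rfl⟩ := Submodule.mem_span_singleton.1 hc
    simp [hA] at huv
  have move1 : ∀ u v w, M u → M v → S.B u v ≠ 0 → S.B u w ≠ 0 → M w := by
    intro u v w hu hv h1 h2
    refine move u ((S.B u w / S.B u v) • v) w hu (hsm _ _ (div_ne_zero h2 h1) hv) ?_ (hnot _ _ h2) ?_
    · apply hnot
      simpa [h1] using h2
    · simp [div_mul_cancel₀ _ h1]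
  have move0 : ∀ u v w, M u → M v → v ∉ F ∙ u → S.B u v = 0 → w ≠ 0 → S.B u w = 0 → M w := by
    intro u v w hu hv h1 h2 hw h3
    by_cases hwu : w ∈ F ∙ u
    · obtain ⟨a, rfl⟩ := Submodule.mem_span_singleton.1 hwu
      exact hsm _ _ (by rintro rfl; simp at hw) hu
    · exact move u v w hu hv h1 hwu (h2.trans h3.symm)
  have key : ∀ w, w ≠ 0 → M w := by
    induction p using Projectivization.ind with | h u hu => ?_
    induction q using Projectivization.ind with | h v hv => ?_
    have hvu : v ∉ F ∙ u := by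
      intro hc
      obtain ⟨a, rfl⟩ := Submodule.mem_span_singleton.1 hc
      exact hpq ((Projectivization.mk_eq_mk_iff' F _ _ _ _).2 ⟨a, rfl⟩).symm
    have Mu : M u := ⟨hu, hp⟩
    have Mv : M v := ⟨hv, hq⟩
    intro w hw
    by_cases huv : S.B u v = 0
    · by_cases huw : S.B u w = 0
      · exact move0 u v w Mu Mv hvu huv hw huw
      · -- a common perpendicular of `u` and `w`
        have hy0 : v - (S.B w v / S.B w u) • u ≠ 0 := by
          intro hc
          apply hvu
          rw [sub_eq_zero.1 hc]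
          exact Submodule.smul_mem _ _ (Submodule.mem_span_singleton_self u)
        have hwu : S.B w u ≠ 0 := fun hc => huw (S.refl hc)
        have h1 : S.B u (v - (S.B w v / S.B w u) • u) = 0 := by simp [huv, hA]
        have h2 : S.B w (v - (S.B w v / S.B w u) • u) = 0 := by simp [div_mul_cancel₀ _ hwu]
        refine move0 _ u w (move0 u v _ Mu Mv hvu huv hy0 h1) Mu ?_ (S.refl h1) hw (S.refl h2)
        intro hc
        obtain ⟨a, ha⟩ := Submodule.mem_span_singleton.1 hc
        apply hwu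
        rw [← ha, map_smul, h2, smul_zero]
    · obtain ⟨x, hx⟩ := hS.exists_one hw
      obtain ⟨z, -, hz1, hz2⟩ := Cfsg.H2.exists_mem_two_duals (W := ⊤) (φ := S.B u) (ψ := S.B w)
        ⟨v, trivial, huv⟩ ⟨x, trivial, by rw [hx]; exact one_ne_zero⟩
      exact move1 z u w (move1 u v z Mu Mv huv hz1) Mu (fun hc => hz1 (S.refl hc))
        (fun hc => hz2 (S.refl hc))
  rw [Set.eq_univ_iff_forall]
  intro r
  induction r using Projectivization.ind with | h w hw => ?_
  exact (key w hw).2

end Cfsg.Agent.S0768
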