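import Cfsg.Statements.S0770
import Cfsg.Agent.H2.Monomial

set_option autoImplicit false
open Cfsg

namespace Cfsg.Agent.S0770

/-- For a field with at least 3 elements, an invertible matrix normalises the subgroup of invertible diagonal matrices of GL_n if and only if it is monomial (exactly one non-zero entry in each row). -/
theorem result {F : Type*} [Field F] (hF : ∃ a : F, a ≠ 0 ∧ a ≠ 1) (n : ℕ) (g : Matrix.GeneralLinearGroup (Fin n) F) : g ∈ Subgroup.normalizer ((Units.map (Matrix.diagonalRingHom (Fin n) F).toMonoidHom).range : Subgroup (Matrix.GeneralLinearGroup (Fin n) F)) ↔ ∀ i : Fin n, ∃! j : Fin n, (g : Matrix (Fin n) (Fin n) F) i j ≠ 0 := by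
  obtain ⟨a, ha0, ha1⟩ := hF
  have h1 : ((Units.map (Matrix.diagonalRingHom (Fin n) F).toMonoidHom).range :
      Subgroup (Matrix.GeneralLinearGroup (Fin n) F)) =
      Cfsg.H2.diagSub (Cfsg.glToMat (Fin n) F) := by
    ext h
    rw [Cfsg.H2.mem_diagSub]
    constructor
    · rintro ⟨d, rfl⟩ i j hij
      exact Matrix.diagonal_apply_ne _ hij
    · intro hh
      have hne : ∀ i, (h : Matrix (Fin n) (Fin n) F) i i ≠ 0 := by
        intro i
        obtain ⟨j, hj⟩ := Cfsg.H2.row_ne_zero (Cfsg.glToMat (Fin n) F) h i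
        have : i = j := by_contra fun hc => hj (hh i j hc)
        subst this
        exact hj
      refine ⟨⟨fun i => (h : Matrix (Fin n) (Fin n) F) i i, fun i => ((h : Matrix (Fin n) (Fin n) F) i i)⁻¹,
        funext fun i => mul_inv_cancel₀ (hne i), funext fun i => inv_mul_cancel₀ (hne i)⟩, ?_⟩
      ext i j
      change Matrix.diagonal _ i j = _
      by_cases hij : i = j
      · subst hij; simp
      · rw [Matrix.diagonal_apply_ne _ hij]; exact (hh i j hij).symm
  have h2 := Cfsg.H2.normalizer_diagSub (Cfsg.glToMat (Fin n) F) (by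
    intro j k hjk
    rw [← h1]
    refine ⟨_, ⟨⟨Function.update 1 j a, Function.update 1 j a⁻¹, ?_, ?_⟩, rfl⟩, ?_⟩
    · ext i; by_cases hi : i = j
      · subst hi; simp [ha0]
      · simp [hi]
    · ext i; by_cases hi : i = j
      · subst hi; simp [ha0]
      · simp [hi]
    · change Matrix.diagonal _ j j ≠ Matrix.diagonal _ k k
      simp [hjk.symm, ha1])
  rw [h1, h2, Cfsg.H2.mem_monoSub_iff]
  rfl

end Cfsg.Agent.S0770
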