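import Cfsg.Statements.S0773
import Cfsg.Agent.H2.GLPar

set_option autoImplicit false
open Cfsg

namespace Cfsg.Agent.S0773

/-- Inverse transpose followed by reversal of the coordinates. -/
def theta (n : ℕ) (F : Type*) [Field F] :
    Matrix.GeneralLinearGroup (Fin n) F →* Matrix.GeneralLinearGroup (Fin n) F where
  toFun g := ⟨((g⁻¹ : Matrix.GeneralLinearGroup (Fin n) F) : Matrix (Fin n) (Fin n) F).transpose.submatrix
      Fin.revPerm Fin.revPerm,
    (g : Matrix (Fin n) (Fin n) F).transpose.submatrix Fin.revPerm Fin.revPerm,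
    by rw [Matrix.submatrix_mul_equiv, ← Matrix.transpose_mul, Units.mul_inv]; simp,
    by rw [Matrix.submatrix_mul_equiv, ← Matrix.transpose_mul, Units.inv_mul]; simp⟩
  map_one' := by ext; simp [Matrix.one_apply]
  map_mul' g h := by
    apply Units.ext
    simp only [Units.val_mul, mul_inv_rev, Matrix.transpose_mul, Matrix.submatrix_mul_equiv]

theorem theta_theta {n : ℕ} {F : Type*} [Field F] (g : Matrix.GeneralLinearGroup (Fin n) F) :
    theta n F (theta n F g) = g := by
  ext i j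
  change (g : Matrix (Fin n) (Fin n) F) (Fin.rev (Fin.rev i)) (Fin.rev (Fin.rev j)) = _
  simp

theorem theta_mem {n k l : ℕ} {F : Type*} [Field F] (hkl : k + l = n)
    (g : Matrix.GeneralLinearGroup (Fin n) F)
    (hg : g ∈ Cfsg.stabilizing (Cfsg.glToMat (Fin n) F) (Cfsg.H2.coordSub n k F)) :
    theta n F g ∈ Cfsg.stabilizing (Cfsg.glToMat (Fin n) F) (Cfsg.H2.coordSub n l F) := by
  have h1 := (Cfsg.H2.mem_stabSub_coordSub (n := n) (k := k) g⁻¹).1 (inv_mem hg :)
  refine ((Cfsg.H2.mem_stabSub_coordSub (n := n) (k := l) (theta n F g)).2 ?_ :)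
  intro i j hi hj
  exact h1 (Fin.rev j) (Fin.rev i) (by simp; omega) (by simp; omega)

/-- The stabilisers in GL_n(F), F finite, of the coordinate subspaces of dimensions k and n − k are isomorphic groups, but when 2k ≠ n (and 0 < k < n) no element of GL_n conjugates one onto the other. -/
theorem result {F : Type*} [Field F] [Finite F] (n k : ℕ) (hk0 : 0 < k) (hkn : k < n) (h2 : 2 * k ≠ n) : Nonempty (↥(Cfsg.stabilizing (Cfsg.glToMat (Fin n) F) {v : Fin n → F | ∀ i : Fin n, k ≤ (i : ℕ) → v i = 0}) ≃* ↥(Cfsg.stabilizing (Cfsg.glToMat (Fin n) F) {v : Fin n → F | ∀ i : Fin n, n - k ≤ (i : ℕ) → v i = 0})) ∧ ∀ g : Matrix.GeneralLinearGroup (Fin n) F, (Cfsg.stabilizing (Cfsg.glToMat (Fin n) F) {v : Fin n → F | ∀ i : Fin n, k ≤ (i : ℕ) → v i = 0}).map (MulAut.conj g).toMonoidHom ≠ Cfsg.stabilizing (Cfsg.glToMat (Fin n) F) {v : Fin n → F | ∀ i : Fin n, n - k ≤ (i : ℕ) → v i = 0} := by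
  constructor
  · exact ⟨{ toFun := fun g => ⟨theta n F g, theta_mem (by omega) g.1 g.2⟩
             invFun := fun g => ⟨theta n F g, theta_mem (by omega) g.1 g.2⟩
             left_inv := fun g => Subtype.ext (theta_theta g.1)
             right_inv := fun g => Subtype.ext (theta_theta g.1)
             map_mul' := fun g h => Subtype.ext (map_mul (theta n F) g.1 h.1) }⟩
  · intro g hg
    have h1 : Cfsg.H2.stabSub (Cfsg.H2.coordSub n (n - k) F) ≤
        Cfsg.H2.stabSub ((Cfsg.H2.coordSub n k F).map (Cfsg.H2.glEquiv (Fin n) F g).toLinearMap) := by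
      intro x hx
      obtain ⟨y, rfl⟩ := (Cfsg.H2.glEquiv (Fin n) F).surjective x
      have hy : y ∈ Cfsg.stabilizing (Cfsg.glToMat (Fin n) F)
        {v : Fin n → F | ∀ i : Fin n, n - k ≤ (i : ℕ) → v i = 0} := hx
      rw [← hg] at hy
      obtain ⟨z, hz, rfl⟩ := hy
      rw [← Cfsg.H2.stabSub_map_conj]
      exact ⟨Cfsg.H2.glEquiv (Fin n) F z, hz, by simp⟩
    have h3 := LinearEquiv.finrank_map_eq (Cfsg.H2.glEquiv (Fin n) F g) (Cfsg.H2.coordSub n k F)
    rw [Cfsg.H2.finrank_coordSub hkn.le] at h3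
    rcases Cfsg.H2.eq_of_stabSub_le h1 with h | h | h <;> rw [h] at h3
    · simp at h3; omega
    · rw [Cfsg.H2.finrank_coordSub (by omega)] at h3; omega
    · simp at h3; omega

end Cfsg.Agent.S0773
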