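import Cfsg.Statements.S0774
import Cfsg.Agent.H2.Symp

set_option autoImplicit false
open Cfsg

namespace Cfsg.Agent.S0774

/-- The embedding of `F^m` as the span of the first `m` coordinate vectors of `F^(2m)`. -/
def inlMap (m : ℕ) (F : Type*) [Field F] : (Fin m → F) →ₗ[F] (Fin m ⊕ Fin m → F) where
  toFun x := Sum.elim x 0
  map_add' x y := by ext (i | i) <;> simp
  map_smul' a x := by ext (i | i) <;> simp

theorem inlMap_injective (m : ℕ) (F : Type*) [Field F] : Function.Injective (inlMap m F) :=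
  fun _ _ h => funext fun i => congrFun h (Sum.inl i)

theorem mem_map_inlMap {m : ℕ} {F : Type*} [Field F] (k : ℕ) (v : Fin m ⊕ Fin m → F) :
    v ∈ (Cfsg.H2.coordSub m (k + 1) F).map (inlMap m F) ↔
      (∀ i : Fin m, k < (i : ℕ) → v (Sum.inl i) = 0) ∧ ∀ i : Fin m, v (Sum.inr i) = 0 := by
  constructor
  · rintro ⟨x, hx, rfl⟩
    exact ⟨fun i hi => hx i hi, fun _ => rfl⟩
  · rintro ⟨h1, h2⟩
    refine ⟨fun i => v (Sum.inl i), fun i hi => h1 i hi, ?_⟩
    ext (i | i)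
    · rfl
    · exact (h2 i).symm

/-- Borel subgroup of the symplectic group: the elements of Sp_2m(q) stabilising each of the totally isotropic coordinate subspaces ⟨e_0, ..., e_k⟩ (k < m) form a subgroup of order q^(m²) (q − 1)^m. -/
theorem result {F : Type*} [Field F] [Fintype F] {q : ℕ} (hF : Fintype.card F = q) (m : ℕ) : Nat.card ↥(⨅ k : Fin m, Cfsg.stabilizing (Cfsg.spToMat m F) {v : Fin m ⊕ Fin m → F | (∀ i : Fin m, (k : ℕ) < (i : ℕ) → v (Sum.inl i) = 0) ∧ ∀ i : Fin m, v (Sum.inr i) = 0}) = q ^ (m ^ 2) * (q - 1) ^ m := by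
  have hS := Cfsg.H2.sympS_nondeg m F
  let W := LinearMap.range (inlMap m F)
  let e : (Fin m → F) ≃ₗ[F] W := LinearEquiv.ofInjective _ (inlMap_injective m F)
  have he : ∀ x, (e x : Fin m ⊕ Fin m → F) = inlMap m F x := fun _ => rfl
  have hW : (Cfsg.H2.sympS m F).IsTS W := Cfsg.H2.sympS_isTS_iff.2 (by
    rintro _ ⟨x, rfl⟩ _ ⟨y, rfl⟩
    simp [Cfsg.H2.sympForm_eq, inlMap])
  have hWm : Module.finrank F W = m := by rw [← e.finrank_eq]; simp
  let T : Subgroup ((Fin m → F) ≃ₗ[F] (Fin m → F)) :=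
    ⨅ k : Fin m, Cfsg.H2.stabSub (Cfsg.H2.coordSub m (k + 1) F)
  let L : Subgroup ((Fin m ⊕ Fin m → F) ≃ₗ[F] (Fin m ⊕ Fin m → F)) :=
    ⨅ k : Fin m, Cfsg.H2.stabSub ((Cfsg.H2.coordSub m (k + 1) F).map (inlMap m F))
  have hT : Nat.card T = q ^ (m.choose 2) * (q - 1) ^ m := by
    have h1 := Cfsg.H2.card_upperTriangular (F := F) (ι := Fin m)
    rw [hF, Fintype.card_fin] at h1
    rw [← h1]
    symm
    refine Nat.card_congr (Equiv.subtypeEquiv (Cfsg.H2.glEquiv (Fin m) F).toEquiv fun g => ?_)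
    simp only [T, Subgroup.mem_iInf, MulEquiv.toEquiv_eq_coe, EquivLike.coe_coe,
      Cfsg.H2.mem_stabSub_coordSub]
    exact ⟨fun h k i j hi hj => h i j (by omega), fun h i j hij => h j i j hij (by omega)⟩
  have h1 := Cfsg.H2.card_eq_card_fix_mul (Cfsg.H2.sympS m F).isom ((Cfsg.H2.sympS m F).isom ⊓ L) W
    (T.map (Cfsg.H2.autCongr e).toMonoidHom) (by
      intro g
      refine and_congr_right fun _ => ⟨fun hg => ?_, ?_⟩
      · have hgL := Subgroup.mem_iInf.1 hg
        have hgW : g ∈ Cfsg.H2.stabSub W := by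
          rcases Nat.eq_zero_or_pos m with rfl | hm
          · intro v
            rw [Subsingleton.elim (g v) v]
          · have := hgL ⟨m - 1, by omega⟩
            have h2 : Cfsg.H2.coordSub m (m - 1 + 1) F = ⊤ := by
              rw [eq_top_iff]; intro v _ i hi; omega
            rwa [h2, Submodule.map_top] at this
        refine ⟨Cfsg.H2.resHom W ⟨g, hgW⟩, ⟨(Cfsg.H2.autCongr e).symm (Cfsg.H2.resHom W ⟨g, hgW⟩),
          Subgroup.mem_iInf.2 fun k => ?_, (Cfsg.H2.autCongr e).apply_symm_apply _⟩, fun _ => rfl⟩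
        apply Cfsg.H2.mem_stabSub_of_forall
        intro v hv
        obtain ⟨y, hy, hy'⟩ := (hgL k _).1 (Submodule.mem_map_of_mem hv)
        have : Cfsg.H2.resHom W ⟨g, hgW⟩ (e v) = e y := Subtype.ext hy'.symm
        rwa [Cfsg.H2.autCongr_symm_apply, this, e.symm_apply_apply]
      · rintro ⟨_, ⟨t, ht, rfl⟩, hg⟩
        refine Subgroup.mem_iInf.2 fun k => Cfsg.H2.mem_stabSub_of_forall ?_
        rintro _ ⟨x, hx, rfl⟩
        refine ⟨t x, (Subgroup.mem_iInf.1 ht k x).1 hx, ?_⟩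
        rw [← he, ← he, hg]
        simp)
    (fun k _ => hS.witt' W (W.subtype ∘ₗ k.toLinearMap) (Subtype.val_injective.comp k.injective)
      (fun x y => (hW.B_eq (k x).2 (k y).2).trans (hW.B_eq x.2 y.2).symm) (fun _ => rfl))
  have h2 := Cfsg.H2.alt_card_fix_TS _ (Cfsg.H2.sympBilin_isAlt m F) hS 0 W m hW hWm
    (by rw [Cfsg.H2.finrank_sp]; omega)
  have h3 := Cfsg.H2.card_comap_eq (Cfsg.H2.toLE (Cfsg.spToMat m F))
    (Cfsg.H2.toLE_injective (Cfsg.H2.spToMat_injective m F)) _ L (Cfsg.H2.range_toLE_sp m F)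
  have h4 : Nat.card (T.map (Cfsg.H2.autCongr e).toMonoidHom) = Nat.card T :=
    Subgroup.card_map_of_injective (Cfsg.H2.autCongr e).injective
  have h5 : Nat.card ↥((Cfsg.H2.sympS m F).isom ⊓ Cfsg.H2.fixSub W) = q ^ (m * (m + 1) / 2) := by
    simpa [hF, Cfsg.H2.sympS] using h2
  rw [h4, hT, h5, ← h3, ← mul_assoc, ← pow_add] at h1
  have h6 : m * (m + 1) / 2 + m.choose 2 = m ^ 2 := by
    rw [Nat.choose_two_right]
    rcases m with _ | m
    · rfl
    · rw [Cfsg.H2.triangle_succ, Nat.add_sub_cancel, mul_comm (m + 1) m]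
      have := Nat.div_mul_cancel (Nat.even_mul_succ_self m).two_dvd
      nlinarith
  rw [h6] at h1
  rw [← h1]
  congr 2
  ext A
  simp only [L, Subgroup.mem_iInf, Subgroup.mem_comap, Cfsg.H2.mem_stabSub, mem_map_inlMap]
  rfl

end Cfsg.Agent.S0774
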