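import Cfsg.Statements.S0776
import Cfsg.Agent.H2.Symp

set_option autoImplicit false
open Cfsg

namespace Cfsg.Agent.S0776

/-- If W ≤ F^(2m) is a 2k-dimensional subspace on which the symplectic form is non-degenerate, then the stabiliser of W in Sp_2m(F) is isomorphic to Sp_2k(F) × Sp_(2m−2k)(F). -/
theorem result {F : Type*} [Field F] (m k : ℕ) (hk : k ≤ m) (W : Submodule F (Fin m ⊕ Fin m → F)) (hWk : Module.finrank F W = 2 * k) (hW : ∀ u ∈ W, (∀ v ∈ W, Cfsg.sympForm m F u v = 0) → u = 0) : Nonempty (↥(Cfsg.stabilizing (Cfsg.spToMat m F) (W : Set (Fin m ⊕ Fin m → F))) ≃* Matrix.symplecticGroup (Fin k) F × Matrix.symplecticGroup (Fin (m - k)) F) := by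
  have hS := Cfsg.H2.sympS_nondeg m F
  have hd : Disjoint W ((Cfsg.H2.sympS m F).perp W) := by
    rw [Submodule.disjoint_def]
    intro u hu hu'
    exact hW u hu fun v hv => (Cfsg.H2.sympS_B u v).symm.trans
      (((Cfsg.H2.sympS m F).mem_perp'.1 hu') v hv)
  have key : ∀ (X : Submodule F (Fin m ⊕ Fin m → F)) (l : ℕ), Module.finrank F X = 2 * l →
      Disjoint X ((Cfsg.H2.sympS m F).perp X) →
      Nonempty (((Cfsg.H2.sympS m F).restrict X).isom ≃* Matrix.symplecticGroup (Fin l) F) := by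
    intro X l hX hXd
    obtain ⟨e, he⟩ := Cfsg.H2.exists_equiv_sympForm ((Cfsg.H2.sympS m F).restrict X).B
      (fun x => Cfsg.H2.sympBilin_isAlt m F x)
      (Cfsg.H2.FormSp.nondegenerate_of_nondeg _
        (((Cfsg.H2.sympS m F).restrict_nondeg_iff X).2 hXd)) hX
    exact ⟨(Cfsg.H2.FormSp.isomCongr _ (Cfsg.H2.sympS l F) e
      (fun x y => (Cfsg.H2.sympS_B _ _).trans (he x y)) (fun _ => rfl)).trans
      (Cfsg.H2.spEquiv l F).symm⟩
  obtain ⟨e1⟩ := key W k hWk hd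
  obtain ⟨e2⟩ := key _ (m - k) (by
    rw [hS.finrank_perp, hWk, Cfsg.H2.finrank_sp]; omega) (hS.disjoint_perp hd)
  exact ⟨((Cfsg.H2.comapEquiv (Cfsg.H2.toLE (Cfsg.spToMat m F))
    (Cfsg.H2.toLE_injective (Cfsg.H2.spToMat_injective m F)) _
    (Cfsg.H2.stabSub W) (Cfsg.H2.range_toLE_sp m F)).trans
    (Cfsg.H2.FormSp.stabEquivProd (hS.isCompl_perp hd))).trans (e1.prodCongr e2)⟩

end Cfsg.Agent.S0776
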