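import Cfsg.Statements.S0777
import Cfsg.Agent.H2.Symp
import Cfsg.Agent.H2.Monomial
import Cfsg.Agent.H2.Ortho

set_option autoImplicit false
open Cfsg

namespace Cfsg.Agent.S0777

open scoped Matrix

theorem diagonal_mem_sp {F : Type*} [Field F] {m : ℕ} (d : Fin m ⊕ Fin m → F) :
    Matrix.diagonal d ∈ Matrix.symplecticGroup (Fin m) F ↔
      ∀ i, d (Sum.inl i) * d (Sum.inr i) = 1 := by
  have : Matrix.diagonal d = Matrix.fromBlocks (Matrix.diagonal fun i => d (Sum.inl i)) 0 0
      (Matrix.diagonal fun i => d (Sum.inr i)) := by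
    rw [Matrix.fromBlocks_diagonal]
    congr 1
    ext (i | i) <;> rfl
  rw [this, SymplecticGroup.fromBlocks_mem_iff, ← Matrix.diagonal_one]
  simp [Matrix.diagonal_mul_diagonal, -Matrix.diagonal_one]

theorem card_diag {F : Type*} [Field F] [Fintype F] (m : ℕ) :
    Nat.card (Cfsg.H2.diagSub (Cfsg.spToMat m F)) = (Fintype.card F - 1) ^ m := by
  have : Nat.card (Fin m → Fˣ) = (Fintype.card F - 1) ^ m := by
    rw [Nat.card_fun, Nat.card_units]; simp
  rw [← this]
  symm
  refine Nat.card_congr (Equiv.ofBijective (fun c => ⟨⟨Matrix.diagonal (Sum.elim (fun i => (c i : F))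
    fun i => ((c i)⁻¹ : Fˣ)), (diagonal_mem_sp _).2 fun i => by simp⟩,
    (Cfsg.H2.mem_diagSub _).2 fun i j hij => Matrix.diagonal_apply_ne _ hij⟩) ⟨?_, ?_⟩)
  · intro c d h
    ext i
    simpa using congrArg (fun A => A.1.1 (Sum.inl i) (Sum.inl i)) h
  · rintro ⟨⟨A, hA⟩, hA'⟩
    have h1 : A = Matrix.diagonal fun i => A i i := by
      ext i j
      by_cases hij : i = j
      · subst hij; simp
      · rw [Matrix.diagonal_apply_ne _ hij]; exact (Cfsg.H2.mem_diagSub _).1 hA' i j hij
    have h2 := hA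
    rw [h1, diagonal_mem_sp] at h2
    refine ⟨fun i => Units.mk0 _ (left_ne_zero_of_mul_eq_one (h2 i)), Subtype.ext (Subtype.ext ?_)⟩
    refine Eq.trans ?_ h1.symm
    change Matrix.diagonal _ = Matrix.diagonal _
    congr 1
    ext (i | i)
    · rfl
    · simpa using (eq_inv_of_mul_eq_one_right (h2 i)).symm

theorem card_centralizer_swap (m : ℕ) :
    Nat.card (Subgroup.centralizer {(Equiv.sumComm (Fin m) (Fin m) : Equiv.Perm (Fin m ⊕ Fin m))}) =
      2 ^ m * m.factorial := by
  set s : Equiv.Perm (Fin m ⊕ Fin m) := Equiv.sumComm (Fin m) (Fin m) with hs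
  have h2 : s ^ 2 = 1 := by ext x; simp [hs, sq]
  have h3 := Equiv.Perm.cycleType_of_pow_prime_eq_one h2
  have h4 : s.support = Finset.univ := by
    rw [Finset.eq_univ_iff_forall]
    rintro (i | i) <;> simp [hs]
  have h5 := s.sum_cycleType
  rw [h4, h3] at h5
  simp at h5
  have h6 : s.cycleType.card = m := by omega
  rw [h6] at h3
  rw [Equiv.Perm.nat_card_centralizer, h3]
  rcases Nat.eq_zero_or_pos m with rfl | hm
  · simp
  · simp [Multiset.toFinset_replicate, hm.ne', mul_two]

theorem J_ne_zero_iff {F : Type*} [Field F] {m : ℕ} (j k : Fin m ⊕ Fin m) :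
    Matrix.J (Fin m) F j k ≠ 0 ↔ k = j.swap := by
  rcases j with j | j <;> rcases k with k | k <;> simp [Matrix.J, Matrix.one_apply, eq_comm]

theorem range_monoPerm {F : Type*} [Field F] (m : ℕ) :
    (Cfsg.H2.monoPerm (Cfsg.spToMat m F)).range =
      Subgroup.centralizer {(Equiv.sumComm (Fin m) (Fin m) : Equiv.Perm (Fin m ⊕ Fin m))} := by
  have key : ∀ (A : Matrix (Fin m ⊕ Fin m) (Fin m ⊕ Fin m) F) (π : Equiv.Perm (Fin m ⊕ Fin m)),
      (∀ i j, A i j ≠ 0 → i = π j) → ∀ j k, (Aᵀ * Matrix.J (Fin m) F * A) j k =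
        A (π j) j * Matrix.J (Fin m) F (π j) (π k) * A (π k) k := by
    intro A π h j k
    rw [Cfsg.H2.mul_apply_of_col (k := π k) (fun i hi => h i k hi),
      Cfsg.H2.mul_apply_of_row (k := π j) (fun i hi => h i j hi)]
    rfl
  ext π
  rw [Subgroup.mem_centralizer_singleton_iff]
  constructor
  · rintro ⟨g, rfl⟩
    ext1 j
    have h1 := key g.1.1 _ (fun i j h => (Cfsg.H2.monoPerm_spec _ g i j).1 h) j j.swap
    rw [SymplecticGroup.mem_iff'.1 g.1.2] at h1
    have h2 := (J_ne_zero_iff (F := F) j j.swap).2 rfl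
    rw [h1] at h2
    exact (J_ne_zero_iff _ _).1 (right_ne_zero_of_mul (left_ne_zero_of_mul h2))
  · intro hπ
    have hπ' : ∀ j, π j.swap = (π j).swap := fun j => congrArg (fun p : Equiv.Perm _ => p j) hπ
    let c : Fin m ⊕ Fin m → F := Sum.elim (fun _ => 1)
      fun i => -Matrix.J (Fin m) F (π (Sum.inl i)) (π (Sum.inl i)).swap
    have hc : ∀ j, c j ≠ 0 := by
      rintro (i | i)
      · simp [c]
      · simpa [c] using (J_ne_zero_iff (F := F) _ _).2 rfl
    let A : Matrix (Fin m ⊕ Fin m) (Fin m ⊕ Fin m) F := fun i j => if i = π j then c j else 0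
    have hA : ∀ i j, A i j ≠ 0 ↔ i = π j := fun i j => by simp [A, hc]
    have hA' : A ∈ Matrix.symplecticGroup (Fin m) F := by
      rw [SymplecticGroup.mem_iff']
      ext j k
      rw [key A π (fun i j h => (hA i j).1 h)]
      by_cases hjk : k = j.swap
      · subst hjk
        rcases j with j | j
        · simp only [A, if_true, c, Sum.swap_inl, Sum.elim_inl, Sum.elim_inr]
          rw [← Sum.swap_inl, hπ']
          rcases π (Sum.inl j) with l | l <;> simp [Matrix.J]
        · simp only [A, if_true, c, Sum.swap_inr, Sum.elim_inl, Sum.elim_inr]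
          rw [← Sum.swap_inl, hπ']
          rcases π (Sum.inl j) with l | l <;> simp [Matrix.J]
      · have h1 : Matrix.J (Fin m) F j k = 0 := by
          by_contra hc; exact hjk ((J_ne_zero_iff _ _).1 hc)
        have h2 : Matrix.J (Fin m) F (π j) (π k) = 0 := by
          by_contra hc
          have := (J_ne_zero_iff _ _).1 hc
          rw [← hπ'] at this
          exact hjk (π.injective this)
        rw [h1, h2]; simp
    exact ⟨⟨⟨A, hA'⟩, π, hA⟩, Cfsg.H2.monoPerm_unique (Cfsg.H2.monoPerm_spec _ _) hA⟩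

/-- Weyl group of type C_m: for q ≥ 4 the diagonal matrices of Sp_2m(q) form a torus T ≅ (C_(q−1))^m (the elements stabilising every coordinate axis), and the normaliser of T in Sp_2m(q) has order 2^m · m! · (q − 1)^m. -/
theorem result {F : Type*} [Field F] [Fintype F] {q : ℕ} (hF : Fintype.card F = q) (hq : 4 ≤ q) (m : ℕ) : Nat.card ↥(Subgroup.normalizer (⨅ i : Fin m ⊕ Fin m, Cfsg.stabilizing (Cfsg.spToMat m F) ((Submodule.span F {(Pi.single i (1 : F) : Fin m ⊕ Fin m → F)} : Submodule F (Fin m ⊕ Fin m → F)) : Set (Fin m ⊕ Fin m → F)) : Set (Matrix.symplecticGroup (Fin m) F))) = 2 ^ m * Nat.factorial m * (q - 1) ^ m := by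
  have h1 : (⨅ i : Fin m ⊕ Fin m, Cfsg.stabilizing (Cfsg.spToMat m F) ((Submodule.span F {(Pi.single i (1 : F) : Fin m ⊕ Fin m → F)} : Submodule F (Fin m ⊕ Fin m → F)) : Set (Fin m ⊕ Fin m → F)) : Set (Matrix.symplecticGroup (Fin m) F)) = Cfsg.H2.diagSub (Cfsg.spToMat m F) := by
    ext A
    simp only [Set.iInf_eq_iInter, Set.mem_iInter, SetLike.mem_coe, Cfsg.H2.mem_diagSub,
      Cfsg.H2.stabilizing_eq_comap, Subgroup.mem_comap]
    constructor
    · intro h i j hij
      obtain ⟨a, ha⟩ := Submodule.mem_span_singleton.1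
        ((h j _).1 (Submodule.mem_span_singleton_self _))
      simpa [hij] using (congrFun ha i).symm
    · intro h j
      apply Cfsg.H2.mem_stabSub_of_forall
      intro v hv
      obtain ⟨a, rfl⟩ := Submodule.mem_span_singleton.1 hv
      refine Submodule.mem_span_singleton.2 ⟨a * A.1 j j, ?_⟩
      ext i
      by_cases hij : i = j
      · subst hij; simp
      · simpa [hij] using Or.inr (h i j hij)
  obtain ⟨a, ha0, ha⟩ : ∃ a : F, a ≠ 0 ∧ a ^ 2 ≠ 1 := by
    classical
    by_contra hc
    push Not at hc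
    have : (Finset.univ : Finset F) ⊆ {0, 1, -1} := by
      intro x _
      by_cases hx : x = 0
      · simp [hx]
      · rcases sq_eq_one_iff.1 (hc x hx) with h | h <;> simp [h]
    have h3 := (Finset.card_le_card this).trans Finset.card_le_three
    rw [Finset.card_univ] at h3
    omega
  have ha1 : a ≠ 1 := by rintro rfl; simp at ha
  have ha2 : a ≠ a⁻¹ := by
    intro h; apply ha; rw [sq]; nth_rewrite 2 [h]; exact mul_inv_cancel₀ ha0
  rw [h1, Cfsg.H2.normalizer_diagSub, Cfsg.H2.card_monoSub, card_diag, range_monoPerm,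
    card_centralizer_swap, hF, mul_comm]
  intro j k hjk
  refine ⟨⟨Matrix.diagonal fun i => if i = j then a else if i = j.swap then a⁻¹ else 1,
    (diagonal_mem_sp _).2 fun i => ?_⟩,
    (Cfsg.H2.mem_diagSub _).2 fun i j hij => Matrix.diagonal_apply_ne _ hij, ?_⟩
  · rcases j with j | j <;> by_cases hij : i = j <;> simp [hij, ha0]
  · change Matrix.diagonal _ j j ≠ Matrix.diagonal _ k k
    simp only [Matrix.diagonal_apply_eq, if_true, if_neg hjk.symm]
    split_ifs
    · exact ha2
    · exact ha1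

end Cfsg.Agent.S0777
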