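import Cfsg.Statements.S0778
import Cfsg.Agent.H2.Symp

set_option autoImplicit false
open Cfsg

namespace Cfsg.Agent.S0778

open scoped Matrix in
/-- The block-diagonal embedding of the general linear group in the symplectic group. -/
def blockHom (m : ℕ) (F : Type*) [Field F] :
    Matrix.GeneralLinearGroup (Fin m) F →* Matrix.symplecticGroup (Fin m) F where
  toFun X := ⟨Matrix.fromBlocks (X : Matrix (Fin m) (Fin m) F) 0 0
      ((X⁻¹ : Matrix.GeneralLinearGroup (Fin m) F) : Matrix (Fin m) (Fin m) F)ᵀ, by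
    rw [SymplecticGroup.fromBlocks_mem_iff]
    refine ⟨by simp, by simp, ?_⟩
    rw [← Matrix.transpose_mul, Units.inv_mul]; simp⟩
  map_one' := by ext1; simp
  map_mul' X Y := by
    ext1
    simp only [Units.val_mul, mul_inv_rev, Matrix.transpose_mul, Submonoid.coe_mul,
      Matrix.fromBlocks_multiply]
    simp

/-- The elements of Sp_2m(F) stabilising both W = ⟨e_1..e_m⟩ and U = ⟨f_1..f_m⟩ form a subgroup isomorphic to GL_m(F) (block-diagonal matrices diag(X, X^(−ᵀ)) up to the sign convention of J), for m ≥ 1 or m = 0 alike. -/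
theorem result {F : Type*} [Field F] (m : ℕ) : Nonempty (↥(Cfsg.stabilizing (Cfsg.spToMat m F) {v : Fin m ⊕ Fin m → F | ∀ i : Fin m, v (Sum.inr i) = 0} ⊓ Cfsg.stabilizing (Cfsg.spToMat m F) {v : Fin m ⊕ Fin m → F | ∀ i : Fin m, v (Sum.inl i) = 0}) ≃* Matrix.GeneralLinearGroup (Fin m) F) := by
  have hinj : Function.Injective (blockHom m F) := by
    intro X Y h
    have := congrArg (fun A : Matrix.symplecticGroup (Fin m) F => A.1.toBlocks₁₁) h
    exact Units.ext this
  refine ⟨((MonoidHom.ofInjective hinj).trans (MulEquiv.subgroupCongr ?_)).symm⟩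
  ext A
  constructor
  · rintro ⟨X, rfl⟩
    have key : ∀ (Y : Matrix.GeneralLinearGroup (Fin m) F) (v : Fin m ⊕ Fin m → F),
        ((∀ i, v (Sum.inr i) = 0) → ∀ i, (blockHom m F Y).1.mulVec v (Sum.inr i) = 0) ∧
        ((∀ i, v (Sum.inl i) = 0) → ∀ i, (blockHom m F Y).1.mulVec v (Sum.inl i) = 0) := by
      intro Y v
      constructor <;> intro h i <;>
        simp [blockHom, Matrix.mulVec, dotProduct, h]
    have back : ∀ v, (blockHom m F X⁻¹).1.mulVec ((blockHom m F X).1.mulVec v) = v := by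
      intro v
      rw [Matrix.mulVec_mulVec, ← Submonoid.coe_mul, ← map_mul, inv_mul_cancel, map_one]
      simp
    refine ⟨fun v => ⟨(key X v).1, fun h => ?_⟩, fun v => ⟨(key X v).2, fun h => ?_⟩⟩
    · rw [← back v]; exact (key X⁻¹ _).1 h
    · rw [← back v]; exact (key X⁻¹ _).2 h
  · rintro ⟨h1, h2⟩
    obtain ⟨A, hA⟩ := A
    have hC : A.toBlocks₂₁ = 0 := by
      ext i j
      have := (h1 (Pi.single (Sum.inl j) 1)).1 (fun i => by simp) i
      simpa [Matrix.toBlocks₂₁] using this
    have hB : A.toBlocks₁₂ = 0 := by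
      ext i j
      have := (h2 (Pi.single (Sum.inr j) 1)).1 (fun i => by simp) i
      simpa [Matrix.toBlocks₁₂] using this
    have hA' := hA
    rw [← Matrix.fromBlocks_toBlocks A, hB, hC, SymplecticGroup.fromBlocks_mem_iff] at hA'
    have h3 := congrArg Matrix.transpose hA'.2.2
    simp only [Matrix.mul_zero, sub_zero, Matrix.transpose_mul, Matrix.transpose_transpose,
      Matrix.transpose_one] at h3
    refine ⟨⟨A.toBlocks₁₁, A.toBlocks₂₂.transpose, mul_eq_one_comm.1 h3, h3⟩, Subtype.ext ?_⟩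
    change Matrix.fromBlocks A.toBlocks₁₁ 0 0 A.toBlocks₂₂ = A
    conv_rhs => rw [← Matrix.fromBlocks_toBlocks A, hB, hC]

end Cfsg.Agent.S0778
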