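import Cfsg.Statements.S0779
import Cfsg.Agent.H2.SUGen

set_option autoImplicit false
open Cfsg

namespace Cfsg.Agent.S0779

/-- Unitary transvections: let |F| = q², h the standard Hermitian form Σ x_i y_i^q and v ≠ 0 with h(v, v) = 0. The linear map x ↦ x + c h(x, v) v is an isometry of h if and only if c = 0 or c^(q−1) = −1. -/
theorem result {F : Type*} [Field F] [Fintype F] {q : ℕ} (hF : Fintype.card F = q ^ 2) (n : ℕ) (v : Fin n → F) (hv : v ≠ 0) (hv0 : Cfsg.hermForm n F q v v = 0) (c : F) : (∀ x y : Fin n → F, Cfsg.hermForm n F q ((Cfsg.unitaryTransvection n q v c).mulVec x) ((Cfsg.unitaryTransvection n q v c).mulVec y) = Cfsg.hermForm n F q x y) ↔ (c = 0 ∨ c ^ (q - 1) = -1) := by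
  have hq := Cfsg.H2.two_le_q hF
  have hS := Cfsg.H2.unitS_nondeg hF n
  set S := Cfsg.H2.unitS hF n with hSdef
  have hT : ∀ x, (Cfsg.unitaryTransvection n q v c).mulVec x = x + (c * S.B v x) • v :=
    Cfsg.H2.unitaryTransvection_mulVec hF v c
  have hvv : S.B v v = 0 := (Cfsg.H2.unitS_B hF v v).trans hv0
  have hsymm : ∀ x y, Cfsg.H2.frobq hF (S.B x y) = S.B y x :=
    (Cfsg.H2.stdSesq_isSymm (Cfsg.H2.frobq_invol hF) n).eq
  have key : ∀ x y, S.B (x + (c * S.B v x) • v) (y + (c * S.B v y) • v) =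
      S.B x y + (c + c ^ q) * (S.B x v * S.B v y) := by
    intro x y
    simp only [map_add, LinearMap.add_apply, S.B_smul_left, S.B_smul_right, hvv, map_mul, hsymm,
      ← Cfsg.H2.frobq_apply hF]
    ring
  have hc : c + c ^ q = 0 ↔ c = 0 ∨ c ^ (q - 1) = -1 := by
    rw [show c + c ^ q = c * (c ^ (q - 1) + 1) by
      rw [mul_add, ← pow_succ', Nat.sub_add_cancel (by omega)]; ring, mul_eq_zero,
      add_eq_zero_iff_eq_neg]
  simp only [hT, ← Cfsg.H2.unitS_B hF, ← hSdef, key, ← hc]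
  constructor
  · intro h
    obtain ⟨y, hy⟩ := hS.exists_one hv
    have := h y y
    rw [← hsymm v y, hy] at this
    simpa using this
  · intro h x y
    rw [h]; simp

end Cfsg.Agent.S0779
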