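import Cfsg.Statements.S0780
import Cfsg.Agent.H2.SUGen

set_option autoImplicit false
open Cfsg

namespace Cfsg.Agent.S0780

/-- Generation of SU_n(q), n ≥ 3, (n, q) ≠ (3, 2), by unitary transvections: the subgroup generated by the elements whose matrix is x ↦ x + c h(x, v) v with v isotropic is all of SU_n(q). -/
theorem result {F : Type*} [Field F] [Fintype F] {q : ℕ} (hF : Fintype.card F = q ^ 2) (n : ℕ) (hn : 3 ≤ n) (h32 : ¬ (n = 3 ∧ q = 2)) : Subgroup.closure {A : ↥(Cfsg.SU n F q) | ∃ (v : Fin n → F) (c : F), Cfsg.hermForm n F q v v = 0 ∧ ((A : Matrix.SpecialLinearGroup (Fin n) F) : Matrix (Fin n) (Fin n) F) = Cfsg.unitaryTransvection n q v c} = ⊤ := by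
  have hS := Cfsg.H2.unitS_nondeg hF n
  have H := Cfsg.H2.unitS_isHerm hF n
  have hp : (Cfsg.H2.unitS hF n).perp ⊤ = ⊥ := by
    rw [eq_bot_iff]
    intro x hx
    exact hS x fun y => (Cfsg.H2.unitS hF n).refl (hx y trivial)
  rw [eq_top_iff]
  intro A _
  rw [← Subgroup.mem_map_iff_mem (Cfsg.H2.toLE_injective (Cfsg.H2.suToMat_injective n))]
  have h3 : Module.finrank F (⊤ : Submodule F (Fin n → F)) ≠ 3 ∨
      ∃ a : F, Cfsg.H2.frobq hF a = a ∧ a ≠ 0 ∧ a ≠ 1 := by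
    by_cases hq : q = 2
    · left
      simp only [finrank_top, Module.finrank_fin_fun]
      exact fun h => h32 ⟨h, hq⟩
    · exact Or.inr (Cfsg.H2.exists_fixed_ne_one hF hq)
  have h1 := H.le_tvGroup hS _ ⊤ (by rw [hp]; exact disjoint_bot_right) rfl h3
  rw [hp, Cfsg.H2.fixSub_bot, inf_top_eq, ← Cfsg.H2.range_toLE_su] at h1
  refine (Subgroup.closure_le _).2 ?_ (h1 ⟨A, rfl⟩)
  rintro _ ⟨v, -, c, hv, hc, rfl⟩
  have h2 := (H.tvGroup_le ⊤ (Cfsg.H2.FormSp.tv_mem_tvGroup Submodule.mem_top hv hc)).1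
  rw [← Cfsg.H2.range_toLE_su] at h2
  obtain ⟨B, hB⟩ := h2
  refine ⟨B, Subgroup.subset_closure ⟨v, c, (Cfsg.H2.unitS_B hF v v).symm.trans hv, ?_⟩, hB⟩
  apply Matrix.toLin'.injective
  refine LinearMap.ext fun x => ?_
  rw [Matrix.toLin'_apply, Matrix.toLin'_apply, Cfsg.H2.unitaryTransvection_mulVec hF,
    ← Cfsg.H2.FormSp.tv_apply0 hv, ← hB]
  rfl

end Cfsg.Agent.S0780
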