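import Cfsg.Statements.S0781
import Cfsg.Agent.H2.SUGen

set_option autoImplicit false
open Cfsg

namespace Cfsg.Agent.S0781

/-- In SU_n(q) with n ≥ 4, or n = 3 and q > 2, every element whose matrix is a unitary transvection x ↦ x + c h(x, v) v (v isotropic) is a commutator ⁅B, C⁆ of two elements of SU_n(q). -/
theorem result {F : Type*} [Field F] [Fintype F] {q : ℕ} (hF : Fintype.card F = q ^ 2) (n : ℕ) (hn : 4 ≤ n ∨ (n = 3 ∧ 3 ≤ q)) (A : ↥(Cfsg.SU n F q)) (v : Fin n → F) (c : F) (hv0 : Cfsg.hermForm n F q v v = 0) (hA : ((A : Matrix.SpecialLinearGroup (Fin n) F) : Matrix (Fin n) (Fin n) F) = Cfsg.unitaryTransvection n q v c) : A ∈ commutatorSet ↥(Cfsg.SU n F q) := by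
  have hS := Cfsg.H2.unitS_nondeg hF n
  have H := Cfsg.H2.unitS_isHerm hF n
  have hinj := Cfsg.H2.toLE_injective (Cfsg.H2.suToMat_injective (F := F) (q := q) n)
  have hrange := Cfsg.H2.range_toLE_su hF n
  have hT := Cfsg.H2.unitaryTransvection_mulVec hF v c
  have hv : (Cfsg.H2.unitS hF n).B v v = 0 := (Cfsg.H2.unitS_B hF v v).trans hv0
  generalize Cfsg.H2.unitS hF n = S at hS H hrange hT hv
  generalize Cfsg.H2.frobq hF = σ at S hS H hrange hT hv
  have hAx : ∀ x, Cfsg.H2.toLE (Cfsg.H2.suToMat n F q) A x = x + (c * S.B v x) • v := by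
    intro x
    rw [← hT, ← hA]; rfl
  by_cases hv1 : v = 0
  · have : A = 1 := hinj (by ext1 x; rw [hAx, hv1]; simp)
    rw [this]; exact one_mem_commutatorSet _
  have hAi : Cfsg.H2.toLE (Cfsg.H2.suToMat n F q) A ∈ S.isom := by
    have : Cfsg.H2.toLE (Cfsg.H2.suToMat n F q) A ∈ S.isom ⊓ LinearEquiv.det.ker := by
      rw [← hrange]; exact ⟨A, rfl⟩
    exact this.1
  obtain ⟨f, -, hf, hvf⟩ := Cfsg.H2.FormSp.exists_partner_mem (S := S) (X := ⊤)
    (Submodule.disjoint_def.2 fun x _ hx => hS x fun y => S.refl (hx y trivial)) trivial hv1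
    (by rw [H.q_eq, hv])
  rw [H.q_eq] at hf
  have hfv : S.B f v = 1 := by rw [← H.conj, hvf, map_one]
  have hc : c + σ c = 0 := by
    have := hAi.1 f f
    rw [hAx, H.B_tv, hv, hvf, hfv] at this
    simpa using this
  obtain ⟨k1, k2⟩ := hS.split_pair (X := ⊤)
    (Submodule.disjoint_def.2 fun x _ hx => hS x fun y => S.refl (hx y trivial)) trivial trivial
    hv hf hvf
  obtain ⟨x, hx, hxx⟩ := H.exists_norm_eq k1 (μ := 1) (by
    intro hc
    rw [hc, finrank_bot, finrank_top, Module.finrank_fin_fun] at k2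
    omega) (map_one _)
  have hvx : S.B v x = 0 := S.mem_perp_span.1 hx.2 v (by simp)
  have hxv : S.B x v = 0 := S.refl hvx
  obtain ⟨l, hl⟩ : ∃ l : F, l - σ l = c := by
    obtain ⟨t, ht⟩ := H.exists_trace (map_one σ)
    refine ⟨c * t, ?_⟩
    rw [map_mul, eq_neg_of_add_eq_zero_right hc]
    linear_combination c * ht
  obtain ⟨μ, hμ⟩ := H.exists_trace (H.conj x x)
  obtain ⟨ν, hν⟩ := H.exists_trace (H.conj (l • x) (l • x))
  obtain ⟨ρ, hρ, hρd, hρy⟩ := H.exists_siegel hS hv hvx hμ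
  obtain ⟨τ, hτ, hτd, hτy⟩ := H.exists_siegel hS hv (x := l • x) (by simp [hvx]) hν
  have lift : ∀ g ∈ S.isom, LinearMap.det g.toLinearMap = 1 →
      ∃ B, Cfsg.H2.toLE (Cfsg.H2.suToMat n F q) B = g := by
    intro g hg hd
    have : g ∈ (Cfsg.H2.toLE (Cfsg.H2.suToMat n F q)).range := by
      rw [hrange]
      exact ⟨hg, MonoidHom.mem_ker.2 (Units.ext (by rw [LinearEquiv.coe_det, hd]; rfl))⟩
    exact this
  obtain ⟨B, hB⟩ := lift ρ hρ hρd
  obtain ⟨C, hC⟩ := lift τ hτ hτd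
  refine ⟨C, B, ?_⟩
  rw [commutatorElement_def, mul_inv_eq_iff_eq_mul, mul_inv_eq_iff_eq_mul]
  apply hinj
  ext1 y
  simp only [map_mul, LinearEquiv.mul_apply, hAx, hB, hC, hρy, hτy, map_add, map_sub,
    S.B_smul_left, S.B_smul_right, hv, hvx, hxv, hxx, ← hl]
  module

end Cfsg.Agent.S0781
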