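import Cfsg.Statements.S0783
import Cfsg.Agent.H2.UDet

set_option autoImplicit false
open Cfsg

namespace Cfsg.Agent.S0783

/-- PGU_n(q)/PSU_n(q) is cyclic of order (n, q+1): for n ≥ 2 and |F| = q² there is a surjective homomorphism from GU_n(q) onto the cyclic group of order gcd(n, q + 1) whose kernel is generated by the determinant-one elements together with the centre. -/
theorem result {F : Type*} [Field F] [Fintype F] {q : ℕ} (hF : Fintype.card F = q ^ 2) (n : ℕ) (hn : 2 ≤ n) : ∃ φ : ↥(Cfsg.GU n F q) →* Multiplicative (ZMod (Nat.gcd n (q + 1))), Function.Surjective φ ∧ φ.ker = (Matrix.GeneralLinearGroup.det : Matrix.GeneralLinearGroup (Fin n) F →* Fˣ).ker.subgroupOf (Cfsg.GU n F q) ⊔ Subgroup.center ↥(Cfsg.GU n F q) := by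
  have hinj := Cfsg.H2.toLE_injective (Cfsg.H2.guToMat_injective (F := F) (q := q) n)
  have hrange := Cfsg.H2.range_toLE_gu hF n
  set μ := (powMonoidHom (q + 1) : Fˣ →* Fˣ).ker with hμ
  set D : Cfsg.GU n F q →* Fˣ := Matrix.GeneralLinearGroup.det.comp (Cfsg.GU n F q).subtype with hD
  have hDe : ∀ A, D A = LinearEquiv.det (Cfsg.H2.toLE (Cfsg.H2.guToMat n F q) A) := by
    intro A
    ext
    rw [LinearEquiv.coe_det, Cfsg.H2.det_toLE]; rfl
  have hst : Cfsg.H2.stabSub (⊥ : Submodule F (Fin n → F)) = ⊤ :=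
    top_le_iff.1 (Cfsg.H2.fixSub_bot.ge.trans (Cfsg.H2.fixSub_le_stabSub _))
  have hDr : D.range = μ := by
    rw [hμ, ← Cfsg.H2.range_det_stab hF (n := n) (by omega) Cfsg.H2.FormSp.isTS_bot, hst,
      inf_top_eq, ← hrange]
    ext b
    constructor
    · rintro ⟨A, rfl⟩
      exact ⟨⟨_, A, rfl⟩, (hDe A).symm⟩
    · rintro ⟨⟨_, A, rfl⟩, rfl⟩
      exact ⟨A, hDe A⟩
  have hcard : Nat.card μ = q + 1 := Cfsg.H2.card_ker_pow_succ hF
  let d : Cfsg.GU n F q →* μ := D.codRestrict μ fun A => hDr ▸ ⟨A, rfl⟩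
  have hd : Function.Surjective d := fun b => by
    obtain ⟨A, hA⟩ : b.1 ∈ D.range := hDr.ge b.2
    exact ⟨A, Subtype.ext hA⟩
  let N := (powMonoidHom n : μ →* μ).range
  have hN : Nat.card (μ ⧸ N) = Nat.gcd n (q + 1) := by
    rw [← Subgroup.index_eq_card, IsCyclic.index_powMonoidHom_range, hcard, Nat.gcd_comm]
  have hcyc : IsCyclic (μ ⧸ N) := isCyclic_of_surjective _ (QuotientGroup.mk'_surjective N)
  have e : Multiplicative (ZMod (Nat.gcd n (q + 1))) ≃* μ ⧸ N := hN ▸ zmodCyclicMulEquiv hcyc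
  have hsc : ∀ (A : Cfsg.GU n F q) (a : F),
      (∀ x, Cfsg.H2.toLE (Cfsg.H2.guToMat n F q) A x = a • x) → (D A : F) = a ^ n := by
    intro A a h
    rw [hDe, LinearEquiv.coe_det, show (Cfsg.H2.toLE (Cfsg.H2.guToMat n F q) A).toLinearMap =
      a • LinearMap.id from LinearMap.ext h]
    simp
  refine ⟨e.symm.toMonoidHom.comp ((QuotientGroup.mk' N).comp d),
    e.symm.surjective.comp ((QuotientGroup.mk'_surjective N).comp hd), ?_⟩
  have hker : ∀ A, A ∈ (e.symm.toMonoidHom.comp ((QuotientGroup.mk' N).comp d)).ker ↔ d A ∈ N := by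
    intro A
    simp [MonoidHom.mem_ker]
  apply le_antisymm
  · intro A hA
    obtain ⟨b, hb⟩ := (hker A).1 hA
    have hb1 := (Cfsg.H2.mem_ker_pow_succ hF).1 b.2
    obtain ⟨Z, hZ⟩ : LinearEquiv.smulOfUnit b.1 ∈ (Cfsg.H2.toLE (Cfsg.H2.guToMat n F q)).range := by
      rw [hrange]
      refine (Cfsg.H2.unitS_isHerm hF n).mem_isom fun x y => ?_
      change (Cfsg.H2.unitS hF n).B ((b.1 : F) • x) ((b.1 : F) • y) = _
      rw [Cfsg.H2.FormSp.B_smul_left, Cfsg.H2.FormSp.B_smul_right, ← mul_assoc, hb1, one_mul]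
    have hZx : ∀ x, Cfsg.H2.toLE (Cfsg.H2.guToMat n F q) Z x = (b.1 : F) • x := by
      intro x; rw [hZ]; rfl
    have hZc : Z ∈ Subgroup.center (Cfsg.GU n F q) := by
      rw [Subgroup.mem_center_iff]
      intro g
      apply hinj
      ext1 x
      simp only [map_mul, LinearEquiv.mul_apply, hZx, map_smul]
    rw [← inv_mul_cancel_right A Z]
    refine Subgroup.mul_mem_sup ?_ hZc
    have h1 : D Z = D A := by
      ext
      rw [hsc Z _ hZx, ← show ((d A : Fˣ) : F) = D A from rfl, ← hb]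
      simp
    change D (A * Z⁻¹) = 1
    rw [map_mul, map_inv, h1, mul_inv_cancel]
  · refine sup_le (fun A hA => (hker A).2 ?_) fun Z hZ => (hker Z).2 ?_
    · have : d A = 1 := Subtype.ext hA
      rw [this]; exact one_mem _
    · obtain ⟨a, ha⟩ := Cfsg.H2.exists_scalar_of_comm hF
        (z := Cfsg.H2.toLE (Cfsg.H2.guToMat n F q) Z) (fun g hg => by
          rw [← hrange] at hg
          obtain ⟨B, rfl⟩ := hg
          rw [← map_mul, ← map_mul, Subgroup.mem_center_iff.1 hZ B]) ⟨0, by omega⟩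
      have hZi : Cfsg.H2.toLE (Cfsg.H2.guToMat n F q) Z ∈ (Cfsg.H2.unitS hF n).isom :=
        hrange ▸ ⟨Z, rfl⟩
      have h1 := hZi.1 (Pi.single ⟨0, by omega⟩ 1) (Pi.single ⟨0, by omega⟩ 1)
      rw [ha, Cfsg.H2.FormSp.B_smul_left, Cfsg.H2.FormSp.B_smul_right] at h1
      have h2 : (Cfsg.H2.unitS hF n).B (Pi.single ⟨0, by omega⟩ 1) (Pi.single ⟨0, by omega⟩ 1) = 1 := by
        simp [Cfsg.H2.stdSesq_apply, Pi.single_apply]
      rw [h2, mul_one] at h1
      have ha0 : a ≠ 0 := by rintro rfl; simp at h1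
      refine ⟨⟨Units.mk0 a ha0, (Cfsg.H2.mem_ker_pow_succ hF).2 h1⟩, Subtype.ext (Units.ext ?_)⟩
      exact ((hsc Z a ha).trans (by simp)).symm

end Cfsg.Agent.S0783
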