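import Cfsg.Statements.S0798
import Cfsg.Agent.H3.Orth4

set_option autoImplicit false
open Cfsg

namespace Cfsg.Agent.S0798

/-- For q odd, n ≥ 2 even, Q with non-degenerate polar form (n, |F|) ≠ (4, 3), and a fixed c ≠ 0: the subgroup of the isometry group generated by the reflections r_v with Q(v) ∈ c·(F^×)² has index 2. -/
theorem result {F : Type*} [Field F] [Fintype F] (h2 : (2 : F) ≠ 0) {n : ℕ} (hn : 2 ≤ n) (heven : Even n) (Q : QuadraticForm F (Fin n → F)) (hQ : (QuadraticMap.polarBilin Q).Nondegenerate) (h43 : ¬ (n = 4 ∧ Fintype.card F = 3)) (c : F) (hc : c ≠ 0) : (Subgroup.closure {g : ↥(Cfsg.isometryGroup F ⇑Q) | ∃ (v : Fin n → F) (t : F), t ≠ 0 ∧ Q v = c * t ^ 2 ∧ ((g : Matrix.GeneralLinearGroup (Fin n) F) : Matrix (Fin n) (Fin n) F) = Cfsg.reflectionMatrix ⇑Q v}).index = 2 := by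
  have hset : {g : ↥(Cfsg.isometryGroup F ⇑Q) | ∃ (v : Fin n → F) (t : F), t ≠ 0 ∧ Q v = c * t ^ 2 ∧ ((g : Matrix.GeneralLinearGroup (Fin n) F) : Matrix (Fin n) (Fin n) F) = Cfsg.reflectionMatrix ⇑Q v} = {g : H3.OG Q | ∃ (v : Fin n → F) (t : F), t ≠ 0 ∧ Q v = c * t ^ 2 ∧ g = H3.refl Q v} := by
    ext g
    constructor
    · rintro ⟨v, t, ht, hv, h⟩
      exact ⟨v, t, ht, hv, H3.OG.ext_mat h⟩
    · rintro ⟨v, t, ht, hv, rfl⟩
      exact ⟨v, t, ht, hv, rfl⟩
  rw [hset]
  refine H3.index_closure_class h2 hQ (by simpa using hn) hc _ rfl ?_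
  have hnorm := H3.normal_closure_class (Q := Q) c
  obtain ⟨k, hk⟩ := heven
  by_cases hn2 : n = 2
  · subst hn2
    refine H3.commutator_le_of_refl hQ (Or.inl (H3.exists_ne_zero_one_of_two_ne_zero h2)) _
      fun u v hu hv => ?_
    obtain ⟨a, ha⟩ := H3.exists_Q_eq h2 hQ (by simp) c
    have h1 := H3.OG.mul_self_of_det_two h2 hQ (H3.refl Q a * (H3.refl Q u * H3.refl Q v)) (by
      rw [H3.OG.mat_mul, H3.OG.mat_mul, Matrix.det_mul, Matrix.det_mul, H3.refl_mat, H3.refl_mat,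
        H3.refl_mat, H3.det_reflectionMatrix hu, H3.det_reflectionMatrix hv,
        H3.det_reflectionMatrix (ha ▸ hc)]; simp)
    have ha' : H3.refl Q a ∈ Subgroup.closure {g : H3.OG Q | ∃ (v : Fin 2 → F) (t : F), t ≠ 0 ∧
        Q v = c * t ^ 2 ∧ g = H3.refl Q v} :=
      Subgroup.subset_closure ⟨a, 1, one_ne_zero, by simp [ha], rfl⟩
    have h3 := Subgroup.mul_mem _ (hnorm.conj_mem _ ha' (H3.refl Q u * H3.refl Q v)) ha'
    set s := H3.refl Q u * H3.refl Q v
    set r := H3.refl Q a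
    have hr : r * r = 1 := H3.refl_mul_self a
    have h4 : s⁻¹ = r * s * r := by
      rw [inv_eq_iff_mul_eq_one]
      calc s * (r * s * r) = r * (r * s * (r * s)) * r := by
            simp only [← mul_assoc, hr, one_mul]
        _ = 1 := by rw [h1, mul_one, hr]
    have h5 : s * r * s⁻¹ * r = s ^ 2 := by
      rw [h4, pow_two]
      calc s * r * (r * s * r) * r = s * (r * r) * s * (r * r) := by simp only [mul_assoc]
        _ = s * s := by rw [hr, mul_one, mul_one]
    rwa [h5] at h3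
  · refine H3.commutator_le_of_eich h2 hQ (by simp; omega) _
      (H3.eich_mem_of_class h2 hQ (by simp; omega) ?_ hc _
        fun v t ht hv => Subgroup.subset_closure ⟨v, t, ht, hv, rfl⟩)
    by_cases h3 : Fintype.card F = 3
    · right; simp only [Fintype.card_fin]; simp only [h3, and_true] at h43; omega
    · exact Or.inl h3

end Cfsg.Agent.S0798
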