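import Cfsg.Statements.S0800
import Cfsg.Agent.H3.Dickson2

set_option autoImplicit false
open Cfsg

namespace Cfsg.Agent.S0800

/-- Tori of SL_2(q): if g ∈ SL_2(q) has order coprime to the characteristic p, then the order of g divides q − 1 or q + 1. -/
theorem result {F : Type*} [Field F] [Fintype F] {q : ℕ} (hF : Fintype.card F = q) (p : ℕ) [Fact p.Prime] [CharP F p] (g : Matrix.SpecialLinearGroup (Fin 2) F) (hg : Nat.Coprime (orderOf g) p) : orderOf g ∣ q - 1 ∨ orderOf g ∣ q + 1 := by
  subst hF
  rcases H3.SL2_order p g with h | h | h | h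
  · left
    rw [hg.eq_one_of_dvd (orderOf_dvd_of_pow_eq_one h)]
    exact one_dvd _
  · have h1 : orderOf g ∣ 2 := by
      apply hg.dvd_of_dvd_mul_left
      apply orderOf_dvd_of_pow_eq_one
      rw [pow_mul, h]; simp
    by_cases h2 : (2 : F) = 0
    · left
      rw [H3.neg_eq_self_SL2 h2] at h
      rw [hg.eq_one_of_dvd (orderOf_dvd_of_pow_eq_one h)]
      exact one_dvd _
    · have := H3.odd_card_of_two_ne_zero h2
      right
      exact h1.trans (by omega)
  · exact Or.inl (orderOf_dvd_of_pow_eq_one h)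
  · exact Or.inr (orderOf_dvd_of_pow_eq_one h)

end Cfsg.Agent.S0800
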