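import Cfsg.Statements.S0802
import Cfsg.Agent.H3.Tri

set_option autoImplicit false
open Cfsg

namespace Cfsg.Agent.S0802

/-- PSL_2(p^n) has a subgroup isomorphic to A_4 if and only if it is not the case that p = 2 and n is odd. -/
theorem result {F : Type*} [Field F] [Fintype F] (p n : ℕ) [Fact p.Prime] [CharP F p] (hF : Fintype.card F = p ^ n) : (∃ H : Subgroup (Matrix.ProjectiveSpecialLinearGroup (Fin 2) F), Nonempty (H ≃* alternatingGroup (Fin 4))) ↔ ¬ (p = 2 ∧ Odd n) := by
  by_cases h2 : (2 : F) = 0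
  · have hp : p = 2 := by
      have := (CharP.cast_eq_zero_iff F p 2).1 (by exact_mod_cast h2)
      exact (Nat.prime_dvd_prime_iff_eq Fact.out Nat.prime_two).1 this
    subst hp
    rw [H3.exists_A4_iff_even h2, hF]
    have h1 : 0 < 2 ^ n := Nat.two_pow_pos n
    rcases Nat.even_or_odd' n with ⟨k, rfl | rfl⟩
    · have : 2 ^ (2 * k) % 3 = 1 := by rw [pow_mul, Nat.pow_mod]; simp
      simp only [true_and, Nat.not_odd_iff_even, even_two_mul, iff_true]
      omega
    · have : 2 ^ (2 * k + 1) % 3 = 2 := by rw [pow_succ, pow_mul, Nat.mul_mod, Nat.pow_mod]; simp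
      simp only [true_and, odd_two_mul_add_one, not_true, iff_false]
      omega
  · refine iff_of_true (H3.exists_A4_odd h2) ?_
    rintro ⟨rfl, -⟩
    exact h2 (by exact_mod_cast CharP.cast_eq_zero F 2)

end Cfsg.Agent.S0802
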