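import Cfsg.Statements.S0803
import Cfsg.Agent.H3.Tri

set_option autoImplicit false
open Cfsg

namespace Cfsg.Agent.S0803

/-- PSL_2(q) has a subgroup isomorphic to S_4 iff q² ≡ 1 (mod 16). -/
theorem result {F : Type*} [Field F] [Fintype F] {q : ℕ} (hF : Fintype.card F = q) : (∃ H : Subgroup (Matrix.ProjectiveSpecialLinearGroup (Fin 2) F), Nonempty (H ≃* Equiv.Perm (Fin 4))) ↔ q ^ 2 % 16 = 1 := by
  subst hF
  rw [H3.exists_S4_iff]
  generalize Fintype.card F = q
  rw [Nat.pow_mod, ← Nat.mod_mod_of_dvd q (show 8 ∣ 16 by decide)]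
  have : q % 16 < 16 := Nat.mod_lt _ (by decide)
  generalize q % 16 = r at *
  interval_cases r <;> decide

end Cfsg.Agent.S0803
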