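import Cfsg.Statements.S0805
import Cfsg.Agent.H3.Sub

set_option autoImplicit false
open Cfsg

namespace Cfsg.Agent.S0805

/-- Subfield subgroups: let F be a finite field of odd order q and K a finite field with |K|^m = q, m ≥ 1. Then PSL_2(F) has a subgroup isomorphic to PSL_2(K), and has a subgroup isomorphic to PGL_2(K) if and only if m is even. -/
theorem result {F K : Type*} [Field F] [Fintype F] [Field K] [Fintype K] {q : ℕ} (hF : Fintype.card F = q) (hodd : Odd q) (m : ℕ) (hm : 1 ≤ m) (hK : Fintype.card K ^ m = q) : (∃ H : Subgroup (Matrix.ProjectiveSpecialLinearGroup (Fin 2) F), Nonempty (H ≃* Matrix.ProjectiveSpecialLinearGroup (Fin 2) K)) ∧ ((∃ H : Subgroup (Matrix.ProjectiveSpecialLinearGroup (Fin 2) F), Nonempty (H ≃* Matrix.ProjGenLinGroup (Fin 2) K)) ↔ Even m) := by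
  subst hF
  obtain ⟨f⟩ := H3.nonempty_ringHom_of_card_pow hK
  have h2 := H3.two_ne_zero_of_odd_card hodd
  have hr : 1 < Fintype.card K := Fintype.one_lt_card
  have hKodd : Odd (Fintype.card K) := by
    rw [← hK] at hodd
    exact (Nat.odd_pow_iff (by omega)).1 hodd
  refine ⟨H3.exists_sub_PSL f, ?_, ?_⟩
  · rintro ⟨H, ⟨e⟩⟩
    by_contra hm2
    rw [Nat.not_even_iff_odd] at hm2
    have h3 := H.card_subgroup_dvd_card
    have h4 := H3.card_PSL2_mul (F := F)
    rw [Nat.card_congr e.toEquiv, H3.card_PGL2] at h3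
    rw [H3.gcd_two_of_two_ne_zero h2] at h4
    have h5 := Nat.mul_dvd_mul_right h3 2
    rw [show Nat.card (Matrix.SpecialLinearGroup (Fin 2) F ⧸ Subgroup.center _) * 2 = _ from h4,
      ← hK, ← pow_mul, mul_comm m 2, pow_mul] at h5
    have h6 : 1 < Fintype.card K ^ 2 := Nat.one_lt_pow (by decide) hr
    rw [← geom_sum_mul_of_one_le h6.le m, mul_right_comm, ← mul_assoc] at h5
    have h7 := Nat.dvd_of_mul_dvd_mul_right (by omega) h5
    have h8 : Odd (Fintype.card K ^ m * ∑ i ∈ Finset.range m, (Fintype.card K ^ 2) ^ i) := by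
      refine hKodd.pow.mul ?_
      rw [Finset.odd_sum_iff_odd_card_odd, Finset.filter_true_of_mem fun i _ => hKodd.pow.pow]
      simpa using hm2
    exact h8.not_two_dvd_nat ((dvd_mul_left 2 _).trans h7)
  · rintro ⟨k, rfl⟩
    refine H3.exists_sub_PGL f fun a => ?_
    by_cases ha : a = 0
    · simp [ha]
    rw [FiniteField.isSquare_iff (H3.ringChar_ne_two h2) (by simpa using ha), ← map_pow]
    have h3 : Fintype.card K - 1 ∣ Fintype.card F / 2 := by
      obtain ⟨s, hs⟩ := hKodd.pow (n := k)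
      have h4 := Nat.sub_one_dvd_pow_sub_one (Fintype.card K) k
      rw [← hK, pow_add, hs, show (2 * s + 1) * (2 * s + 1) = 1 + 2 * (2 * s * (s + 1)) by ring,
        Nat.add_mul_div_left _ _ (by decide)]
      rw [hs] at h4
      simpa using h4.mul_right _
    obtain ⟨t, ht⟩ := h3
    rw [ht, pow_mul, FiniteField.pow_card_sub_one_eq_one a ha, one_pow, map_one]

end Cfsg.Agent.S0805
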