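import Cfsg.Statements.S0806
import Cfsg.Agent.H3.Sub

set_option autoImplicit false
open Cfsg

namespace Cfsg.Agent.S0806

/-- Minimal index (Galois): if q ∉ {2, 3, 5, 7, 9, 11} then every proper subgroup of PSL_2(q) has index ≥ q + 1, and some subgroup has index exactly q + 1. -/
theorem result {F : Type*} [Field F] [Fintype F] {q : ℕ} (hF : Fintype.card F = q) (hq : q ∉ ({2, 3, 5, 7, 9, 11} : Finset ℕ)) : (∀ H : Subgroup (Matrix.ProjectiveSpecialLinearGroup (Fin 2) F), H ≠ ⊤ → q + 1 ≤ H.index) ∧ ∃ H : Subgroup (Matrix.ProjectiveSpecialLinearGroup (Fin 2) F), H.index = q + 1 := by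
  subst hF
  have hb : (H3.borel F).index = Fintype.card F + 1 := by
    rw [H3.index_borel, Nat.card_eq_fintype_card]
  refine ⟨fun H hH => ?_, _, hb⟩
  have h1 := H3.card_le_card_borel hq H hH
  have h2 := H.card_mul_index
  rw [← (H3.borel F).card_mul_index, hb] at h2
  by_contra hcon
  have h3 : 0 < Nat.card H := Nat.card_pos
  have h4 : Nat.card H * H.index < Nat.card (H3.borel F) * (Fintype.card F + 1) :=
    Nat.mul_lt_mul_of_le_of_lt h1 (by omega) (by omega)
  omega

end Cfsg.Agent.S0806
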