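import Cfsg.Statements.S0808
import Cfsg.Agent.H3.Klein

set_option autoImplicit false
open Cfsg

namespace Cfsg.Agent.S0808

/-- Conjugacy classes of four-groups in PSL_2(q), q odd: if q ≡ 3 or 5 (mod 8) all Klein four-subgroups are conjugate; if q ≡ 1 or 7 (mod 8) there are two Klein four-subgroups which are not conjugate, and every Klein four-subgroup is conjugate to one of them. -/
theorem result {F : Type*} [Field F] [Fintype F] {q : ℕ} (hF : Fintype.card F = q) (hodd : Odd q) : ((q % 8 = 3 ∨ q % 8 = 5) → ∀ V W : Subgroup (Matrix.ProjectiveSpecialLinearGroup (Fin 2) F), IsKleinFour V → IsKleinFour W → ∃ g : Matrix.ProjectiveSpecialLinearGroup (Fin 2) F, W = V.map (MulAut.conj g).toMonoidHom) ∧ ((q % 8 = 1 ∨ q % 8 = 7) → ∃ V₁ V₂ : Subgroup (Matrix.ProjectiveSpecialLinearGroup (Fin 2) F), IsKleinFour V₁ ∧ IsKleinFour V₂ ∧ (¬ ∃ g : Matrix.ProjectiveSpecialLinearGroup (Fin 2) F, V₂ = V₁.map (MulAut.conj g).toMonoidHom) ∧ ∀ W : Subgroup (Matrix.ProjectiveSpecialLinearGroup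 (Fin 2) F), IsKleinFour W → (∃ g : Matrix.ProjectiveSpecialLinearGroup (Fin 2) F, W = V₁.map (MulAut.conj g).toMonoidHom) ∨ (∃ g : Matrix.ProjectiveSpecialLinearGroup (Fin 2) F, W = V₂.map (MulAut.conj g).toMonoidHom)) := by
  classical
  subst hF
  have h2 := H3.two_ne_zero_of_odd_card hodd
  have inner : ∀ (T : GL (Fin 2) F) (i j : Matrix.SpecialLinearGroup (Fin 2) F), IsSquare T.1.det →
      ∃ g : Matrix.ProjectiveSpecialLinearGroup (Fin 2) F,
        H3.V4 (H3.conjSL T i) (H3.conjSL T j) = (H3.V4 i j).map (MulAut.conj g).toMonoidHom := by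
    intro T i j hT
    obtain ⟨g, hg⟩ := H3.exists_inner_of_isSquare hT
    exact ⟨QuotientGroup.mk g, by rw [H3.V4_map_conj, hg, hg]⟩
  have nsq : ∀ a b : F, ¬ IsSquare a → ¬ IsSquare b → IsSquare (a * b) := by
    intro a b ha hb
    rw [← quadraticChar_neg_one_iff_not_isSquare] at ha hb
    by_contra h
    rw [← quadraticChar_neg_one_iff_not_isSquare, map_mul, ha, hb] at h
    exact absurd h (by decide)
  constructor
  · intro h V W hV hW
    obtain ⟨i, j, hp, rfl⟩ := H3.exists_pair_of_klein h2 hV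
    obtain ⟨i', j', hp', rfl⟩ := H3.exists_pair_of_klein h2 hW
    obtain ⟨T, rfl, rfl⟩ := H3.exists_conj_pair h2 hp hp'
    by_cases hT : IsSquare T.1.det
    · exact inner T i j hT
    · obtain ⟨S, h3, h4, h5⟩ := H3.exists_alpha h2 hp
      have h6 : ¬ IsSquare (2 : F) := by rw [FiniteField.isSquare_two_iff]; omega
      have := inner (T * S) i j (by rw [Units.val_mul, Matrix.det_mul, h3]; exact nsq _ _ hT h6)
      rwa [H3.conjSL_mul, H3.conjSL_mul, h4, h5, map_mul, H3.V4_mul] at this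
  · intro h
    have hs : IsSquare (2 : F) := by rw [FiniteField.isSquare_two_iff]; omega
    obtain ⟨j, hp⟩ := H3.exists_pair h2 (H3.tr_comp (0 : F))
    generalize H3.comp (0 : F) = i at hp
    obtain ⟨c, hc⟩ := FiniteField.exists_nonsquare (H3.ringChar_ne_two h2)
    have hc0 : c ≠ 0 := by rintro rfl; exact hc IsSquare.zero
    obtain ⟨T0, hT0⟩ := Matrix.GeneralLinearGroup.det_surjective (n := Fin 2) (Units.mk0 c hc0)
    have hT0' : T0.1.det = c := congrArg Units.val hT0
    refine ⟨H3.V4 i j, H3.V4 (H3.conjSL T0 i) (H3.conjSL T0 j), hp.isKleinFour h2,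
      (hp.conj T0).isKleinFour h2, ?_, fun W hW => ?_⟩
    · rintro ⟨g, hg⟩
      obtain ⟨g, rfl⟩ := QuotientGroup.mk_surjective g
      have h3 := congrArg (Subgroup.map (H3.conjPSL (Matrix.SpecialLinearGroup.toGL g⁻¹) :
        Matrix.ProjectiveSpecialLinearGroup (Fin 2) F →* Matrix.ProjectiveSpecialLinearGroup (Fin 2) F)) hg
      rw [H3.V4_map_conj, H3.V4_map, H3.V4_map, ← H3.conjSL_mul, ← H3.conjSL_mul,
        H3.conjSL_toGL, H3.conjSL_toGL] at h3
      have h4 := H3.isSquare_det_of_V4_eq h2 hs hp (h3.trans (by simp [mul_assoc]))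
      rw [Units.val_mul, Matrix.det_mul, hT0'] at h4
      exact hc (by simpa using h4)
    · obtain ⟨i', j', hp', rfl⟩ := H3.exists_pair_of_klein h2 hW
      obtain ⟨T, rfl, rfl⟩ := H3.exists_conj_pair h2 hp hp'
      by_cases hT : IsSquare T.1.det
      · exact Or.inl (inner T i j hT)
      · right
        have := inner (T * T0⁻¹) (H3.conjSL T0 i) (H3.conjSL T0 j) (by
          have h3 := nsq _ _ hT (hT0' ▸ hc)
          have h4 : (T * T0⁻¹).1.det = T.1.det * T0.1.det * ((T0⁻¹).1.det * (T0⁻¹).1.det) := by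
            rw [mul_assoc, ← mul_assoc T0.1.det, ← Matrix.det_mul T0.1, Units.mul_inv]; simp
          rw [h4]
          exact h3.mul (IsSquare.mul_self _))
        rwa [← H3.conjSL_mul, ← H3.conjSL_mul, inv_mul_cancel_right] at this

end Cfsg.Agent.S0808
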