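import Cfsg.Statements.S0809
import Cfsg.Agent.H3.Klein

set_option autoImplicit false
open Cfsg

namespace Cfsg.Agent.S0809

/-- In SL_2(q), q odd: any two subgroups of order 4 are conjugate, and the normaliser of a subgroup of order 4 has order 2(q − 1) if q ≡ 1 (mod 4) and 2(q + 1) if q ≡ 3 (mod 4); consequently all involutions of PSL_2(q) are conjugate. -/
theorem result {F : Type*} [Field F] [Fintype F] {q : ℕ} (hF : Fintype.card F = q) (hodd : Odd q) (A : Subgroup (Matrix.SpecialLinearGroup (Fin 2) F)) (hA : Nat.card A = 4) : (∀ B : Subgroup (Matrix.SpecialLinearGroup (Fin 2) F), Nat.card B = 4 → ∃ g : Matrix.SpecialLinearGroup (Fin 2) F, B = A.map (MulAut.conj g).toMonoidHom) ∧ (q % 4 = 1 → Nat.card ↥(Subgroup.normalizer (A : Set (Matrix.SpecialLinearGroup (Fin 2) F))) = 2 * (q - 1)) ∧ (q % 4 = 3 → Nat.card ↥(Subgroup.normalizer (A : Set (Matrix.SpecialLinearGroup (Fin 2) F))) = 2 * (q + 1)) ∧ (∀ x y : Matrix.ProjectiveSpecialLinearGroup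 (Fin 2) F, orderOf x = 2 → orderOf y = 2 → IsConj x y) := by
  subst hF
  have h2 := H3.two_ne_zero_of_odd_card hodd
  obtain ⟨a, ha, rfl⟩ := H3.exists_zpowers_of_card_four h2 hA
  refine ⟨fun B hB => ?_, fun h => ?_, fun h => ?_, fun x y hx hy => ?_⟩
  · obtain ⟨b, hb, rfl⟩ := H3.exists_zpowers_of_card_four h2 hB
    obtain ⟨g, rfl⟩ := H3.exists_conj_of_tr h2 ha hb
    exact ⟨g, by rw [MonoidHom.map_zpowers]; rfl⟩
  · rw [H3.card_normalizer_zpowers h2 ha, (H3.card_centralizer_of_tr h2 ha).1 h]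
  · rw [H3.card_normalizer_zpowers h2 ha, (H3.card_centralizer_of_tr h2 ha).2 h]
  · obtain ⟨X, rfl⟩ := QuotientGroup.mk_surjective x
    obtain ⟨Y, rfl⟩ := QuotientGroup.mk_surjective y
    rw [orderOf_eq_prime_iff] at hx hy
    obtain ⟨g, rfl⟩ := H3.exists_conj_of_tr h2 ((H3.tr_of_pow_two hx.1).resolve_left hx.2)
      ((H3.tr_of_pow_two hy.1).resolve_left hy.2)
    exact isConj_iff.2 ⟨QuotientGroup.mk g, rfl⟩

end Cfsg.Agent.S0809
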