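import Cfsg.Statements.S0810
import Cfsg.Agent.H3.MinSimple

set_option autoImplicit false
open Cfsg

namespace Cfsg.Agent.S0810

theorem five_dvd_iff (q : ℕ) (hq : 0 < q) : 5 ∣ q * (q ^ 2 - 1) ↔ ¬ (q % 5 = 2 ∨ q % 5 = 3) := by
  have h1 : 1 ≤ q ^ 2 := Nat.one_le_pow _ _ hq
  rw [Nat.prime_five.dvd_mul, ← Nat.modEq_iff_dvd' h1, Nat.ModEq, Nat.pow_mod,
    Nat.dvd_iff_mod_eq_zero]
  have : q % 5 < 5 := Nat.mod_lt _ (by decide)
  generalize q % 5 = r at *
  interval_cases r <;> decide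

theorem odd_pow_mod (a : ℕ) (ha : a = 2 ∨ a = 3) (r : ℕ) (hr : Odd r) :
    a ^ r % 5 = 2 ∨ a ^ r % 5 = 3 := by
  obtain ⟨k, rfl⟩ := hr
  induction k with
  | zero => rcases ha with rfl | rfl <;> decide
  | succ k ih =>
    rw [show 2 * (k + 1) + 1 = 2 * k + 1 + 2 by ring, pow_add]
    generalize a ^ (2 * k + 1) = x at *
    rcases ha with rfl | rfl <;> omega

theorem le_of_pow_eq_prime_pow {p r s m : ℕ} (hp : p.Prime) (hr : r.Prime) (hm : 2 ≤ m)
    (h : s ^ m = p ^ r) : s ≤ p := by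
  obtain ⟨j, -, rfl⟩ := (Nat.dvd_prime_pow hp).1 (h ▸ dvd_pow_self s (by omega) : s ∣ p ^ r)
  rw [← pow_mul] at h
  have h1 := Nat.pow_right_injective hp.two_le h
  rcases (Nat.dvd_prime hr).1 ⟨m, h1.symm⟩ with rfl | rfl
  · simp
  · have := hr.pos
    nlinarith


/-- PSL_2(q) is minimal simple iff q is 2^r (r prime), 3^r (r an odd prime), a prime greater than 5 congruent to 2 or 3 mod 5, or 5. -/
theorem result {F : Type*} [Field F] [Fintype F] {q : ℕ} (hF : Fintype.card F = q) : Cfsg.IsMinimalSimple (Matrix.ProjectiveSpecialLinearGroup (Fin 2) F) ↔ ((∃ r : ℕ, r.Prime ∧ q = 2 ^ r) ∨ (∃ r : ℕ, r.Prime ∧ r ≠ 2 ∧ q = 3 ^ r) ∨ (q.Prime ∧ 5 < q ∧ (q % 5 = 2 ∨ q % 5 = 3)) ∨ q = 5) := by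
  subst hF
  have hq1 : 1 < Fintype.card F := Fintype.one_lt_card
  constructor
  · rintro ⟨h1, h2, h3⟩
    obtain ⟨h4, h5⟩ := H3.conditions_of_solvable h3
    rw [five_dvd_iff _ (by omega)] at h4
    have h6 : 4 ≤ Fintype.card F := by
      by_contra hcon
      have := H3.isSolvable_of_dvd_24 (H3.card_PSL2_dvd.trans
        (H3.card_PGL2_dvd_24 (F := F) (by rw [Nat.card_eq_fintype_card]; omega)))
      exact H3.not_comm_PSL2 (IsSimpleGroup.comm_iff_isSolvable.2 this)
    obtain ⟨p, hp⟩ := CharP.exists F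
    obtain ⟨⟨n, hn0⟩, hp, hn⟩ := FiniteField.card F p
    simp only [PNat.mk_coe] at hn
    by_cases hn1 : n = 1
    · subst hn1
      rw [pow_one] at hn
      rw [hn] at h4 h6 ⊢
      have : p ≠ 4 := by rintro rfl; exact absurd hp (by decide)
      refine Or.inr (Or.inr ?_)
      by_cases h7 : p = 5
      · exact Or.inr h7
      · exact Or.inl ⟨hp, by omega, by omega⟩
    · have hr := Nat.minFac_prime hn1
      obtain ⟨j, hj⟩ := Nat.minFac_dvd n
      have hj0 : 1 ≤ j := Nat.pos_of_ne_zero (by rintro rfl; omega)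
      have h7 := h5 p j n.minFac hp hj0 hr.two_le (by rw [hn, ← pow_mul, mul_comm, ← hj])
      have h8 := hp.two_le
      have hj1 : j = 1 := by
        by_contra hcon
        have h9 : p ^ 2 ≤ p ^ j := Nat.pow_le_pow_right (by omega) (by omega)
        nlinarith
      subst hj1
      rw [mul_one] at hj
      rw [← hj] at hr
      rw [pow_one] at h7
      interval_cases p
      · exact Or.inl ⟨n, hr, hn⟩
      · refine Or.inr (Or.inl ⟨n, hr, ?_, hn⟩)
        rintro rfl
        omega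
  · intro h
    have h6 : 4 ≤ Fintype.card F := by
      rcases h with ⟨r, hr, h⟩ | ⟨r, hr, -, h⟩ | h | h
      · exact h ▸ Nat.pow_le_pow_right (n := 2) (by decide) hr.two_le
      · have := Nat.pow_le_pow_right (n := 3) (by decide) hr.two_le
        omega
      · omega
      · omega
    refine ⟨Matrix.ProjectiveSpecialLinearGroup.rank_two_simple
      (by rwa [Nat.card_eq_fintype_card]), fun h => H3.not_comm_PSL2 (F := F) fun a b => mul_comm' a b,
      H3.solvable_of_ne_top ?_ ?_⟩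
    · rw [five_dvd_iff _ (by omega)]
      rcases h with ⟨r, hr, h⟩ | ⟨r, hr, hr2, h⟩ | h | h
      · rcases hr.eq_two_or_odd' with rfl | hr'
        · omega
        · have := odd_pow_mod 2 (Or.inl rfl) r hr'
          omega
      · have := odd_pow_mod 3 (Or.inr rfl) r (hr.odd_of_ne_two hr2)
        omega
      · omega
      · omega
    · intro s m hm hs
      rcases h with ⟨r, hr, h⟩ | ⟨r, hr, hr2, h⟩ | h | h
      · exact (le_of_pow_eq_prime_pow Nat.prime_two hr hm (hs.trans h)).trans (by decide)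
      · exact le_of_pow_eq_prime_pow Nat.prime_three hr hm (hs.trans h)
      · have := (hs ▸ h.1 : (s ^ m).Prime).eq_one_of_pow
        omega
      · have := (hs.trans h ▸ Nat.prime_five : (s ^ m).Prime).eq_one_of_pow
        omega

end Cfsg.Agent.S0810
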