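import Cfsg.Statements.S0812
import Cfsg.Agent.H3.MaxDih

set_option autoImplicit false
open Cfsg

namespace Cfsg.Agent.S0812

/-- For q ∉ {2, 3, 5, 7, 9, 11}, PSL_2(q) has a maximal subgroup isomorphic to the dihedral group of order 2(q − 1)/d, d = gcd(2, q − 1). -/
theorem result {F : Type*} [Field F] [Fintype F] {q : ℕ} (hF : Fintype.card F = q) (hq : q ∉ ({2, 3, 5, 7, 9, 11} : Finset ℕ)) : ∃ H : Subgroup (Matrix.ProjectiveSpecialLinearGroup (Fin 2) F), IsCoatom H ∧ Nonempty (H ≃* DihedralGroup ((q - 1) / Nat.gcd 2 (q - 1))) := by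
  subst hF
  have hq' := hq
  simp only [Finset.mem_insert, Finset.mem_singleton, not_or] at hq'
  have h1 : 1 < Fintype.card F := Fintype.one_lt_card
  have hd : Nat.gcd 2 (Fintype.card F - 1) ≤ 2 := Nat.gcd_le_left _ (by decide)
  have hd0 : 0 < Nat.gcd 2 (Fintype.card F - 1) := Nat.gcd_pos_of_pos_left _ (by decide)
  refine H3.exists_maximal_dihedral _ ((Nat.le_div_iff_mul_le hd0).2 ?_) (by omega)
    (Or.inr ⟨rfl, hq⟩)
  by_cases h4 : Fintype.card F = 4
  · rw [h4]; decide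
  · omega

end Cfsg.Agent.S0812
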