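import Cfsg.Statements.S0819
import Cfsg.Agent.H3.Small

set_option autoImplicit false
open Cfsg

namespace Cfsg.Agent.S0819

open Matrix

/-- Coefficients of powers modulo the characteristic polynomial. -/
def cf (t s : H3.F4) : ℕ → H3.F4 × H3.F4 × H3.F4
  | 0 => (0, 0, 1)
  | n + 1 => ((cf t s n).1 * t + (cf t s n).2.1, (cf t s n).2.2 - (cf t s n).1 * s, (cf t s n).1)

theorem cayley (A : Matrix (Fin 3) (Fin 3) H3.F4) : ∃ t s : H3.F4,
    A * A * A = t • (A * A) - s • A + A.det • 1 := by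
  refine ⟨A 0 0 + A 1 1 + A 2 2, A 0 0 * A 1 1 - A 0 1 * A 1 0 + (A 0 0 * A 2 2 - A 0 2 * A 2 0) +
    (A 1 1 * A 2 2 - A 1 2 * A 2 1), ?_⟩
  ext1 i j
  fin_cases i <;> fin_cases j <;> simp [Matrix.mul_apply, Fin.sum_univ_three, det_fin_three] <;> ring

theorem pow_eq (A : Matrix (Fin 3) (Fin 3) H3.F4) (t s : H3.F4)
    (h : A * A * A = t • (A * A) - s • A + 1) (n : ℕ) :
    A ^ n = (cf t s n).1 • (A * A) + (cf t s n).2.1 • A + (cf t s n).2.2 • 1 := by
  induction n with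
  | zero => simp [cf]
  | succ n ih =>
    rw [pow_succ, ih, add_mul, add_mul, smul_mul_assoc, smul_mul_assoc, smul_mul_assoc, h, one_mul]
    simp only [cf]
    module

theorem main (g : Matrix.ProjectiveSpecialLinearGroup (Fin 3) H3.F4) :
    g ^ 12 = 1 ∨ g ^ 5 = 1 ∨ g ^ 7 = 1 := by
  obtain ⟨A, rfl⟩ := QuotientGroup.mk_surjective g
  obtain ⟨t, s, h⟩ := cayley A.1
  rw [A.2, one_smul] at h
  have key : ∀ n, (cf t s n).1 = 0 ∧ (cf t s n).2.1 = 0 →
      (QuotientGroup.mk A : Matrix.ProjectiveSpecialLinearGroup (Fin 3) H3.F4) ^ n = 1 := by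
    intro n hn
    rw [← QuotientGroup.mk_pow, QuotientGroup.eq_one_iff, Subgroup.mem_center_iff]
    intro B
    apply Subtype.ext
    simp [pow_eq A.1 t s h n, hn.1, hn.2]
  have : ∀ t s : H3.F4, ((cf t s 12).1 = 0 ∧ (cf t s 12).2.1 = 0) ∨
    ((cf t s 5).1 = 0 ∧ (cf t s 5).2.1 = 0) ∨ ((cf t s 7).1 = 0 ∧ (cf t s 7).2.1 = 0) := by
    decide +kernel
  exact (this t s).imp (key _) (Or.imp (key _) (key _))


/-- No element of PSL_3(4) has order 15. -/
theorem result {F : Type*} [Field F] [Fintype F] (hF : Fintype.card F = 4) (g : Matrix.ProjectiveSpecialLinearGroup (Fin 3) F) : orderOf g ≠ 15 := by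
  obtain ⟨σ⟩ := H3.nonempty_equiv_F4 hF
  intro h
  have := main (H3.pslCongr σ g)
  simp only [← orderOf_dvd_iff_pow_eq_one, MulEquiv.orderOf_eq, h] at this
  omega

end Cfsg.Agent.S0819
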