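import Cfsg.Statements.S0820
import Cfsg.Agent.H3.Small

set_option autoImplicit false
open Cfsg

namespace Cfsg.Agent.S0820

open Matrix

theorem conj_std {F : Type*} [Field F] (t : Matrix.SpecialLinearGroup (Fin 3) F) (h1 : t ≠ 1)
    (h2 : (t.1 - 1) * (t.1 - 1) = 0) :
    IsConj (Matrix.SpecialLinearGroup.transvection (show (0 : Fin 3) ≠ 1 by decide) (1 : F)) t := by
  set N := t.1 - 1 with hN
  obtain ⟨w, hw⟩ : ∃ w, N *ᵥ w ≠ 0 := by
    by_contra hcon
    push Not at hcon
    exact h1 (Subtype.ext (sub_eq_zero.1 (Matrix.ext_iff_mulVec.2 fun w => by simpa using hcon w)))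
  have hv : N *ᵥ (N *ᵥ w) = 0 := by rw [mulVec_mulVec, h2, zero_mulVec]
  obtain ⟨u, hu, hu'⟩ : ∃ u, N *ᵥ u = 0 ∧ u ∉ Submodule.span F {N *ᵥ w} := by
    by_contra hcon
    push Not at hcon
    have h3 : LinearMap.range (toLin' N) ≤ LinearMap.ker (toLin' N) := by
      rintro _ ⟨x, rfl⟩
      simp [h2]
    have h4 : LinearMap.ker (toLin' N) ≤ Submodule.span F {N *ᵥ w} := fun x hx => hcon x hx
    have h5 := LinearMap.finrank_range_add_finrank_ker (toLin' N)
    have h6 := Submodule.finrank_mono h3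
    have h7 := Submodule.finrank_mono h4
    rw [finrank_span_singleton hw] at h7
    simp at h5
    omega
  have hd : (Matrix.of ![N *ᵥ w, w, u])ᵀ.det ≠ 0 := by
    rw [Ne, ← Matrix.exists_mulVec_eq_zero_iff]
    rintro ⟨c, hc, h3⟩
    have h4 : c 0 • N *ᵥ w + c 1 • w + c 2 • u = 0 := by
      rw [← h3]; ext i; simp [mulVec, dotProduct, Fin.sum_univ_three, mul_comm]
    have h5 : c 1 = 0 := by
      simpa [mulVec_add, mulVec_smul, hv, hu, hw] using congrArg (N *ᵥ ·) h4
    have h6 : c 2 = 0 := by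
      by_contra h6
      apply hu'
      rw [Submodule.mem_span_singleton]
      refine ⟨-(c 0 / c 2), smul_right_injective _ h6 ?_⟩
      simp only [smul_smul]
      rw [h5, zero_smul, add_zero, add_eq_zero_iff_neg_eq, ← neg_smul] at h4
      rw [← h4]; congr 1; field_simp
    have h7 : c 0 = 0 := by simpa [h5, h6, hw] using h4
    exact hc (by ext i; fin_cases i <;> simp [h5, h6, h7])
  set d := (Matrix.of ![N *ᵥ w, w, u])ᵀ.det with hdd
  let P : Matrix.SpecialLinearGroup (Fin 3) F := ⟨(Matrix.of ![N *ᵥ w, w, d⁻¹ • u])ᵀ, by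
    rw [← inv_mul_cancel₀ hd]
    conv_rhs => rw [hdd]
    rw [← hdd]
    nth_rewrite 3 [hdd]
    simp [det_fin_three]; ring⟩
  refine isConj_iff.2 ⟨P, mul_inv_eq_iff_eq_mul.2 (Subtype.ext ?_)⟩
  have ht : t.1 = N + 1 := by simp [hN]
  change P.1 * _ = t.1 * P.1
  rw [ht, Matrix.SpecialLinearGroup.transvection_coe, mul_add, add_mul, mul_one, one_mul, add_comm]
  congr 1
  ext i j
  have e1 := congrFun hv i
  have e2 := congrFun hu i
  fin_cases j
  · simpa [P, Matrix.mul_apply, Fin.sum_univ_three, mulVec, dotProduct] using e1.symm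
  · simp [P, Matrix.mul_apply, Fin.sum_univ_three, mulVec, dotProduct]
  · simp [P, Matrix.mul_apply, Fin.sum_univ_three, mulVec, dotProduct] at e2 ⊢
    linear_combination -d⁻¹ * e2

theorem main {F : Type*} [Field F] (h2 : (2 : F) = 0)
    (x : Matrix.ProjectiveSpecialLinearGroup (Fin 3) F) (hx : orderOf x = 2) :
    IsConj (QuotientGroup.mk (Matrix.SpecialLinearGroup.transvection
      (show (0 : Fin 3) ≠ 1 by decide) (1 : F))) x := by
  obtain ⟨A, rfl⟩ := QuotientGroup.mk_surjective x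
  rw [orderOf_eq_prime_iff, ← QuotientGroup.mk_pow, QuotientGroup.eq_one_iff] at hx
  have h3 : (QuotientGroup.mk (A ^ 3) : Matrix.ProjectiveSpecialLinearGroup (Fin 3) F) =
      QuotientGroup.mk A := by
    rw [pow_succ, QuotientGroup.mk_mul, (QuotientGroup.eq_one_iff _).2 hx.1, one_mul]
  obtain ⟨r, hr, hA⟩ := Matrix.SpecialLinearGroup.mem_center_iff.1 hx.1
  rw [← h3]
  refine (QuotientGroup.mk' _).map_isConj (conj_std _ (fun h => hx.2 (by rw [← h3, h]; rfl)) ?_)
  have h4 : (A ^ 3).1 * (A ^ 3).1 = 1 := by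
    rw [← Matrix.SpecialLinearGroup.coe_mul, ← pow_add, show 3 + 3 = 2 * 3 from rfl, pow_mul,
      Matrix.SpecialLinearGroup.coe_pow, ← hA, ← map_pow, show r ^ 3 = 1 from hr, map_one]
  rw [sub_mul, mul_sub, mul_sub, h4]
  simp only [mul_one, one_mul]
  have h5 := congrArg (· • (1 - (A ^ 3).1)) h2
  simp only [two_smul, zero_smul] at h5
  rw [← h5]; abel


/-- Any two elements of order 2 of PSL_3(4) are conjugate. -/
theorem result {F : Type*} [Field F] [Fintype F] (hF : Fintype.card F = 4) (x y : Matrix.ProjectiveSpecialLinearGroup (Fin 3) F) (hx : orderOf x = 2) (hy : orderOf y = 2) : IsConj x y := by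
  have h2 : (2 : F) = 0 := by
    have := FiniteField.cast_card_eq_zero F
    rw [hF] at this
    exact pow_eq_zero_iff two_ne_zero |>.1 (by rw [← this]; norm_num)
  exact (main h2 x hx).symm.trans (main h2 y hy)

end Cfsg.Agent.S0820
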