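import Cfsg.Statements.S0823
import Cfsg.Agent.H3.Small

set_option autoImplicit false
open Cfsg

namespace Cfsg.Agent.S0823

open Matrix

/-- Index map. -/
def ix : Unit ⊕ (Fin 1 ⊕ Fin 1) → Fin 3 := Sum.elim (fun _ => 0) (Sum.elim ![1] ![2])

/-- An isometry from matrices. -/
def mkO (M N : Matrix (Fin 3) (Fin 3) (ZMod 3)) (h1 : M.submatrix ix ix * N.submatrix ix ix = 1)
    (h2 : ∀ v, quadFormOdd 1 (ZMod 3) (M.submatrix ix ix *ᵥ v) = quadFormOdd 1 (ZMod 3) v) :
    isometryGroup (ZMod 3) (quadFormOdd 1 (ZMod 3)) :=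
  ⟨⟨M.submatrix ix ix, N.submatrix ix ix, h1, mul_eq_one_comm.1 h1⟩, fun u _ => h2 u⟩

/-- A generator. -/
def gx : specialIsometryGroup (ZMod 3) (quadFormOdd 1 (ZMod 3)) :=
  ⟨mkO !![1, 0, 0; 0, 2, 0; 0, 0, 2] !![1, 0, 0; 0, 2, 0; 0, 0, 2] (by decide +kernel)
    (by decide +kernel), Units.ext (by decide +kernel)⟩

/-- A generator. -/
def gy : specialIsometryGroup (ZMod 3) (quadFormOdd 1 (ZMod 3)) :=
  ⟨mkO !![2, 0, 1; 0, 0, 2; 1, 2, 1] !![2, 2, 0; 2, 1, 2; 0, 2, 0] (by decide +kernel)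
    (by decide +kernel), Units.ext (by decide +kernel)⟩

theorem main : Nonempty (specialIsometryGroup (ZMod 3) (quadFormOdd 1 (ZMod 3)) ≃*
    Equiv.Perm (Fin 4)) := by
  obtain ⟨H, ⟨e⟩⟩ := H3.Words.exists_S4 gx gy (by decide +kernel) (by decide +kernel)
    (by decide +kernel) (by decide +kernel) (by decide +kernel)
  refine H3.equiv_of_injective_of_card_le (H.subtype.comp e.symm.toMonoidHom)
    (H.subtype_injective.comp e.symm.injective) ?_
  have h1 : Nat.card (isometryGroup (ZMod 3) (quadFormOdd 1 (ZMod 3))) ≤ 48 := by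
    rw [← Subgroup.card_top]
    refine (H3.card_isom_le _ ⊤ [Pi.single (.inr (.inl 0)) 1, Pi.single (.inr (.inr 0)) 1,
      Pi.single (.inl ()) 1] fun g hg => ?_).trans (by decide +kernel)
    refine Subtype.ext (Subtype.ext (Units.ext ?_))
    have : ∀ j, g.1.1.1 *ᵥ Pi.single j 1 = Pi.single j 1 := fun j => hg _ (by
      rcases j with j | j | j <;> fin_cases j <;> simp)
    ext i j
    simpa [Pi.single_apply, one_apply] using congrFun (this j) i
  have h2 := (specialIsometryGroup (ZMod 3) (quadFormOdd 1 (ZMod 3))).card_mul_index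
  have h3 : 1 < (specialIsometryGroup (ZMod 3) (quadFormOdd 1 (ZMod 3))).index :=
    Subgroup.one_lt_index_of_ne_top fun h => by
      have : mkO (-1) (-1) (by decide +kernel) (by decide +kernel) ∈
        specialIsometryGroup (ZMod 3) (quadFormOdd 1 (ZMod 3)) := h ▸ Subgroup.mem_top _
      exact absurd (congrArg Units.val this) (by decide +kernel)
  rw [H3.Words.card_S4]
  nlinarith


/-- SO_3(3) ≅ S_4: the determinant-one isometries of the form x_0² + x_1y_1 over the field with 3 elements form a group isomorphic to the symmetric group on 4 letters. -/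
theorem result {F : Type*} [Field F] [Fintype F] (hF : Fintype.card F = 3) : Nonempty (↥(Cfsg.specialIsometryGroup F (Cfsg.quadFormOdd 1 F)) ≃* Equiv.Perm (Fin 4)) := by
  have : Fact (Nat.Prime 3) := ⟨Nat.prime_three⟩
  obtain ⟨σ⟩ := H3.nonempty_equiv_zmod 3 hF
  obtain ⟨e⟩ := main
  exact ⟨(H3.specialIsomCongr σ _ _ fun v => by simp [quadFormOdd]).trans e⟩

end Cfsg.Agent.S0823
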