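import Cfsg.Statements.S0825
import Cfsg.Agent.H3.Small

set_option autoImplicit false
open Cfsg

namespace Cfsg.Agent.S0825

open Matrix

/-- Index map. -/
def ix : Fin 3 ⊕ Fin 3 → Fin 6 := Sum.elim ![0, 1, 2] ![3, 4, 5]

/-- Basis of the heart. -/
def mA : Matrix (Fin 8) (Fin 3 ⊕ Fin 3) (ZMod 2) :=
  (!![0, 0, 1, 0, 0, 1; 0, 1, 0, 0, 1, 1; 0, 1, 1, 1, 1, 0; 1, 0, 0, 1, 1, 1; 1, 0, 1, 1, 0, 0;
    1, 1, 0, 1, 0, 1; 1, 1, 1, 0, 1, 0; 0, 0, 0, 0, 0, 0] :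
      Matrix (Fin 8) (Fin 6) (ZMod 2)).submatrix id ix

/-- Coordinates on the heart. -/
def mB : Matrix (Fin 3 ⊕ Fin 3) (Fin 8) (ZMod 2) :=
  (!![0, 0, 1, 1, 1, 1, 0, 0; 0, 1, 1, 1, 0, 0, 1, 0; 1, 1, 0, 1, 0, 1, 0, 0;
    0, 0, 0, 1, 1, 1, 1, 0; 0, 1, 1, 0, 0, 1, 1, 0; 1, 0, 1, 0, 1, 0, 1, 0] :
      Matrix (Fin 6) (Fin 8) (ZMod 2)).submatrix ix id

theorem main : Nonempty (isometryGroup (ZMod 2) (quadFormPlus 3 (ZMod 2)) ≃* Equiv.Perm (Fin 8)) := by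
  obtain ⟨f, hf⟩ := H3.exists_heart_hom (quadFormPlus 3 (ZMod 2)) mA mB ![0, 0, 0, 0, 0, 0, 0, 1]
    ![1, 1, 1, 1, 1, 1, 1, 0] H3.halfWt H3.halfWt_comp (by decide +kernel) (by decide +kernel)
    (by decide +kernel) (by decide +kernel) (by decide +kernel) (by decide +kernel)
  refine H3.equiv_of_injective_of_card_le f (H3.injective_of_three_cycle (by simp) f
    (Equiv.swap 0 1 * Equiv.swap 1 2) (by simp) fun h => ?_) ?_
  · have h1 := hf (Equiv.swap 0 1 * Equiv.swap 1 2)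
    rw [h] at h1
    revert h1
    decide +kernel
  · rw [← Subgroup.card_top]
    refine (H3.card_isom_le _ ⊤ [Pi.single (.inl 0) 1, Pi.single (.inr 0) 1, Pi.single (.inl 1) 1,
      Pi.single (.inr 1) 1, Pi.single (.inl 2) 1, Pi.single (.inr 2) 1] fun g hg => ?_).trans ?_
    · refine Subtype.ext (Subtype.ext (Units.ext ?_))
      have : ∀ j, g.1.1.1 *ᵥ Pi.single j 1 = Pi.single j 1 := fun j => hg _ (by
        rcases j with j | j <;> fin_cases j <;> simp)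
      ext i j
      simpa [Pi.single_apply, one_apply] using congrFun (this j) i
    · rw [Nat.card_perm, Nat.card_fin]
      decide +kernel


/-- O⁺_6(2) ≅ S_8: the isometry group of the hyperbolic form x_1y_1 + x_2y_2 + x_3y_3 over the field with 2 elements is isomorphic to the symmetric group on 8 letters. -/
theorem result {F : Type*} [Field F] [Fintype F] (hF : Fintype.card F = 2) : Nonempty (↥(Cfsg.isometryGroup F (Cfsg.quadFormPlus 3 F)) ≃* Equiv.Perm (Fin 8)) := by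
  obtain ⟨σ⟩ := H3.nonempty_equiv_zmod 2 hF
  obtain ⟨e⟩ := main
  exact ⟨(H3.isomCongr σ _ _ fun v => by simp [quadFormPlus]).trans e⟩

end Cfsg.Agent.S0825
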