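import Cfsg.Statements.S0826
import Cfsg.Agent.H2.Symp

set_option autoImplicit false
open Cfsg

namespace Cfsg.Agent.S0826

open Matrix

theorem aux {κ : Type} [Fintype κ] [DecidableEq κ] (k : ℕ) (hk : Fintype.card κ = 2 * k + 2)
    (o a b c : κ) (hoa : o ≠ a) (hob : o ≠ b) (hoc : o ≠ c) (hab : a ≠ b) (hac : a ≠ c)
    (hbc : b ≠ c) (h5 : 5 ≤ Nat.card κ) :
    ∃ f : Equiv.Perm κ →* Matrix.symplecticGroup (Fin k) (ZMod 2), Function.Injective f := by
  have h2 : (2 : ZMod 2) = 0 := rfl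
  have hN : (Fintype.card κ : ZMod 2) = 0 := by rw [hk]; push_cast; rw [h2]; simp
  let φ : (κ → ZMod 2) →ₗ[ZMod 2] ZMod 2 × ZMod 2 :=
    (∑ i, LinearMap.proj i).prod (LinearMap.proj o)
  have hφ : ∀ w, w ∈ LinearMap.ker φ ↔ ∑ i, w i = 0 ∧ w o = 0 := fun w => by simp [φ]
  set U := LinearMap.ker φ
  have hU : Module.finrank (ZMod 2) U = 2 * k := by
    have h1 := LinearMap.finrank_range_add_finrank_ker φ
    rw [LinearMap.range_eq_top.2, finrank_top] at h1
    · simp only [Module.finrank_prod, Module.finrank_self, Module.finrank_pi, hk] at h1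
      change 1 + 1 + Module.finrank (ZMod 2) U = _ at h1
      omega
    · rintro ⟨x, y⟩
      refine ⟨Pi.single o y + Pi.single a (x - y), ?_⟩
      simp [φ, Finset.sum_add_distrib, hoa]
  have hpair : ∀ i j, i ≠ o → j ≠ o → (Pi.single i 1 + Pi.single j 1 : κ → ZMod 2) ∈ U :=
    fun i j hi hj => (hφ _).2 (by simp [Finset.sum_add_distrib, hi.symm, hj.symm]; rfl)
  let ρ0 : Equiv.Perm κ → U →ₗ[ZMod 2] U := fun σ =>
    { toFun := fun w => ⟨fun i => w.1 (σ⁻¹ i) + w.1 (σ⁻¹ o), (hφ _).2 ⟨by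
        rw [Finset.sum_add_distrib, Equiv.sum_comp σ⁻¹ w.1, ((hφ _).1 w.2).1]; simp [hN],
        CharTwo.add_self_eq_zero _⟩⟩
      map_add' := fun v w => Subtype.ext (funext fun i => by simp; ring)
      map_smul' := fun t w => Subtype.ext (funext fun i => by simp; ring) }
  let ρ : Equiv.Perm κ →* Module.End (ZMod 2) U :=
    { toFun := ρ0
      map_one' := LinearMap.ext fun w => Subtype.ext (funext fun i => by
        change w.1 i + w.1 o = w.1 i
        rw [((hφ _).1 w.2).2, add_zero])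
      map_mul' := fun σ τ => LinearMap.ext fun w => Subtype.ext (funext fun i => by
        simp only [ρ0, _root_.mul_inv_rev, Equiv.Perm.mul_apply, Module.End.mul_apply,
          LinearMap.coe_mk, AddHom.coe_mk]
        linear_combination -w.1 (τ⁻¹ o) * h2) }
  let B : LinearMap.BilinForm (ZMod 2) U := (dotProductBilin (ZMod 2) (ZMod 2)).compl₁₂ U.subtype U.subtype
  have hB : ∀ v w : U, B v w = ∑ i, v.1 i * w.1 i := fun v w => rfl
  have hA : B.IsAlt := fun v => by
    rw [hB, ← ((hφ _).1 v.2).1]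
    exact Finset.sum_congr rfl fun i _ => by generalize v.1 i = x; revert x; decide
  have hnd : B.Nondegenerate := by
    refine (hA.isRefl.nondegenerate_iff_separatingLeft).2 fun v hv => ?_
    have h1 : ∀ i, i ≠ o → v.1 i = v.1 a := fun i hi => by
      have := hv ⟨_, hpair i a hi hoa.symm⟩
      simp [hB, mul_add, Finset.sum_add_distrib, Pi.single_apply] at this
      linear_combination this - v.1 a * h2
    obtain ⟨h3, h4⟩ := (hφ _).1 v.2
    have h6 : v.1 a = 0 := by
      have h7 : ∑ i, v.1 i = ∑ i, (v.1 a - (Pi.single o (v.1 a) : κ → ZMod 2) i) :=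
        Finset.sum_congr rfl fun i _ => by
          by_cases hi : i = o
          · simp [hi, h4]
          · simp [hi, h1 i hi]
      simpa [h3, hN] using h7.symm
    ext i
    by_cases hi : i = o
    · simp [hi, h4]
    · simp [h1 i hi, h6]
  obtain ⟨e, he⟩ := H2.exists_equiv_sympForm B hA hnd hU
  have hρ : ∀ σ v w, B (ρ σ v) (ρ σ w) = B v w := fun σ v w => by
    simp only [hB]
    change ∑ i, (v.1 (σ⁻¹ i) + v.1 (σ⁻¹ o)) * (w.1 (σ⁻¹ i) + w.1 (σ⁻¹ o)) = _
    simp only [mul_add, add_mul, Finset.sum_add_distrib, ← Finset.mul_sum, ← Finset.sum_mul,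
      Equiv.sum_comp σ⁻¹ w.1, Equiv.sum_comp σ⁻¹ v.1, ((hφ _).1 v.2).1, ((hφ _).1 w.2).1,
      Equiv.sum_comp σ⁻¹ fun i => v.1 i * w.1 i]
    simp [hN]
  let g : Equiv.Perm κ →* Matrix (Fin k ⊕ Fin k) (Fin k ⊕ Fin k) (ZMod 2) :=
    ((e.conjAlgEquiv (ZMod 2)).trans LinearMap.toMatrixAlgEquiv').toAlgHom.toRingHom.toMonoidHom.comp ρ
  have hg : ∀ σ v, g σ *ᵥ v = e (ρ σ (e.symm v)) := fun σ v => by
    simp [g, LinearMap.toMatrixAlgEquiv', LinearEquiv.conjAlgEquiv]
  have hmem : ∀ σ, g σ ∈ Matrix.symplecticGroup (Fin k) (ZMod 2) := fun σ => by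
    rw [H2.mem_symplecticGroup_iff]
    intro u v
    rw [hg, hg, he, hρ, ← he, e.apply_symm_apply, e.apply_symm_apply]
  let f0 : Equiv.Perm κ →* (Matrix.symplecticGroup (Fin k) (ZMod 2) : Submonoid _) :=
    g.codRestrict _ hmem
  refine ⟨f0, ?_⟩
  rw [← MonoidHom.ker_eq_bot_iff]
  by_contra hcon
  have h1 := Equiv.Perm.alternatingGroup_le_of_normal h5
    ((Subgroup.nontrivial_iff_ne_bot _).2 hcon)
    (show Equiv.swap a b * Equiv.swap b c ∈ alternatingGroup κ by simp [hab, hbc])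
  have h3 := hg (Equiv.swap a b * Equiv.swap b c) (e ⟨_, hpair a b hoa.symm hob.symm⟩)
  rw [show g _ = 1 from congrArg Subtype.val h1, one_mulVec, e.symm_apply_apply,
    e.injective.eq_iff] at h3
  have h4 := congrFun (congrArg Subtype.val h3) c
  simp only [ρ, ρ0, MonoidHom.coe_mk, OneHom.coe_mk, LinearMap.coe_mk, AddHom.coe_mk,
    _root_.mul_inv_rev, Equiv.swap_inv, Equiv.Perm.mul_apply] at h4
  simp [Equiv.swap_apply_def, hoa, hob, hoc, hab.symm, hac.symm, hbc.symm] at h4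


/-- S_2n ≤ Sp_(2n−2)(2) for n ≥ 3: there is an injective homomorphism from the symmetric group on 2n letters into the symplectic group of degree 2n − 2 over the field with two elements. -/
theorem result (n : ℕ) (hn : 3 ≤ n) : ∃ f : Equiv.Perm (Fin (2 * n)) →* Matrix.symplecticGroup (Fin (n - 1)) (ZMod 2), Function.Injective f := by
  exact aux (n - 1) (by simp; omega) ⟨0, by omega⟩ ⟨1, by omega⟩ ⟨2, by omega⟩ ⟨3, by omega⟩
    (by simp) (by simp) (by simp) (by simp) (by simp) (by simp) (by simp; omega)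

end Cfsg.Agent.S0826
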