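import Cfsg.Statements.S0827
import Cfsg.Agent.H3.Small2
import Mathlib.GroupTheory.SpecificGroups.Quaternion

set_option autoImplicit false
open Cfsg

namespace Cfsg.Agent.S0827

open Cfsg.H3 Matrix

/-- A subgroup from a family of matrices. -/
def famSub {G M T : Type*} [Group G] [Finite G] [Monoid M] (φ : G →* M) (L : T → M)
    (h1 : ∃ t, 1 = L t) (h : ∀ s t, ∃ u, L s * L t = L u) : Subgroup G where
  carrier := {g | ∃ t, φ g = L t}
  one_mem' := by simpa using h1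
  mul_mem' := by
    rintro a b ⟨s, hs⟩ ⟨t, ht⟩
    simpa [hs, ht] using h s t
  inv_mem' := fun {a} ⟨s, hs⟩ => by
    have : ∀ k : ℕ, ∃ t, φ (a ^ k) = L t := fun k => by
      induction k with
      | zero => simpa using h1
      | succ k ih => obtain ⟨t, ht⟩ := ih; rw [pow_succ, map_mul, ht, hs]; exact h _ _
    have h2 := this (orderOf a - 1)
    rwa [show a ^ (orderOf a - 1) = a⁻¹ from eq_inv_of_mul_eq_one_left (by
      rw [← pow_succ, Nat.sub_add_cancel (orderOf_pos a), pow_orderOf_eq_one])] at h2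

theorem card_eq_fam {G M T : Type*} [Group G] [Monoid M] (φ : G →* M) (hφ : Function.Injective φ)
    (H : Subgroup G) (L : T → M) (hL : Function.Injective L) (h1 : ∀ g, g ∈ H ↔ ∃ t, φ g = L t)
    (h2 : ∀ t, ∃ g, φ g = L t) : Nat.card H = Nat.card T := by
  choose g hg using h2
  refine (Nat.card_eq_of_bijective (fun t => (⟨g t, (h1 _).2 ⟨t, hg t⟩⟩ : H))
    ⟨fun a b h => hL ?_, fun ⟨x, hx⟩ => ?_⟩).symm
  · rw [← hg, ← hg, show g a = g b from congrArg Subtype.val h]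
  · obtain ⟨t, ht⟩ := (h1 x).1 hx
    exact ⟨t, Subtype.ext (hφ ((hg t).trans ht.symm))⟩

abbrev M3 : Type := Matrix (Fin 3) (Fin 3) F4

def wp : Fin 3 → F4 := ![⟨1, 0⟩, ⟨0, 1⟩, ⟨1, 1⟩]

def hm (t : Fin 3 × Fin 3 × Fin 3) : M3 :=
  of fun r c => if c + t.2.1 = r then wp (t.1 * r + t.2.2) else 0

def fa : Fin 4 → M3 := ![1,
  !![⟨1, 0⟩, ⟨1, 0⟩, ⟨1, 0⟩; ⟨1, 0⟩, ⟨0, 1⟩, ⟨1, 1⟩; ⟨1, 0⟩, ⟨1, 1⟩, ⟨0, 1⟩],
  !![⟨1, 0⟩, ⟨0, 0⟩, ⟨0, 0⟩; ⟨0, 0⟩, ⟨0, 0⟩, ⟨1, 0⟩; ⟨0, 0⟩, ⟨1, 0⟩, ⟨0, 0⟩],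
  !![⟨1, 0⟩, ⟨1, 0⟩, ⟨1, 0⟩; ⟨1, 0⟩, ⟨1, 1⟩, ⟨0, 1⟩; ⟨1, 0⟩, ⟨0, 1⟩, ⟨1, 1⟩]]

def fxa : Fin 4 → M3 := ![
  !![⟨1, 0⟩, ⟨1, 1⟩, ⟨1, 1⟩; ⟨0, 1⟩, ⟨0, 1⟩, ⟨1, 1⟩; ⟨0, 1⟩, ⟨1, 1⟩, ⟨0, 1⟩],
  !![⟨1, 0⟩, ⟨0, 1⟩, ⟨0, 1⟩; ⟨1, 1⟩, ⟨1, 1⟩, ⟨0, 1⟩; ⟨1, 1⟩, ⟨0, 1⟩, ⟨1, 1⟩],
  !![⟨1, 0⟩, ⟨1, 1⟩, ⟨1, 1⟩; ⟨0, 1⟩, ⟨1, 1⟩, ⟨0, 1⟩; ⟨0, 1⟩, ⟨0, 1⟩, ⟨1, 1⟩],
  !![⟨1, 0⟩, ⟨0, 1⟩, ⟨0, 1⟩; ⟨1, 1⟩, ⟨0, 1⟩, ⟨1, 1⟩; ⟨1, 1⟩, ⟨1, 1⟩, ⟨0, 1⟩]]

def fm : QuaternionGroup 2 → M3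
  | .a i => fa i
  | .xa i => fxa i

theorem hF1 : ∀ q, (fm q).det = 1 ∧ (fm q)ᵀ * (fm q).map (· ^ 2) = 1 := by
  simp only [det_fin_three]; decide +kernel
theorem hF2 : ∀ p q, fm (p * q) = fm p * fm q := by decide +kernel
theorem hF3 : ∀ q ∈ [QuaternionGroup.a 1, .xa 0], ∀ t, ∃ u, fm q * hm t = hm u * fm q := by
  decide +kernel
theorem hF4 : ∀ q t, fm q = hm t → q = 1 := by decide +kernel
theorem hF5 : ∀ q : QuaternionGroup 2, ∃ i : Fin 4, q = .a 1 ^ i.val ∨ q = .xa 0 * .a 1 ^ i.val := by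
  decide +kernel
theorem hL1 : ∀ t, (hm t).det = 1 ∧ (hm t)ᵀ * (hm t).map (· ^ 2) = 1 := by
  simp only [det_fin_three]; decide +kernel
theorem hL2 : ∀ s t, hm s * hm t =
    hm (s.1 + t.1, s.2.1 + t.2.1, s.2.2 + t.2.2 - t.1 * s.2.1) := by decide +kernel
theorem hL3 : ∀ t, hm t * hm t * hm t = 1 := by
  simp only [hL2]; decide +kernel
theorem hL4 : Function.Injective hm := by decide +kernel
theorem hL5 : (1 : M3) = hm 0 := by decide +kernel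
theorem hL6 : ∀ c : F4, c ≠ 0 → ∃ k, diagonal (fun _ => c) = hm (0, 0, k) := by decide +kernel
theorem hL7 : ∀ k, hm (0, 0, k) = diagonal fun _ => wp k := by decide +kernel
theorem hcard : Nat.card (SU 3 F4 2) ≤ 216 :=
  (card_SU_le (n := 2) two_ne_zero).trans (by decide +kernel)

theorem hZ (M : M3) (h1 : hm (1, 0, 0) * M = M * hm (1, 0, 0))
    (h2 : hm (0, 1, 0) * M = M * hm (0, 1, 0)) : M = diagonal fun _ => M 0 0 := by
  have e1 : hm (1, 0, 0) = diagonal wp := by decide +kernel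
  have e2 : hm (0, 1, 0) = !![0, 0, 1; 1, 0, 0; 0, 1, 0] := by decide +kernel
  have e3 : ∀ (i j : Fin 3) (x : F4), wp i * x = x * wp j → i = j ∨ x = 0 := by decide +kernel
  have h3 : ∀ i j, i = j ∨ M i j = 0 := fun i j => e3 i j _ (by
    simpa [e1] using congrFun (congrFun h1 i) j)
  have h4 := congrFun (congrFun h2 1) 0
  have h5 := congrFun (congrFun h2 2) 1
  simp [e2, mul_apply, Fin.sum_univ_three] at h4 h5
  ext1 i j
  rcases h3 i j with rfl | h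
  · fin_cases i <;> simp [← h5, ← h4]
  · rw [diagonal_apply]
    split_ifs with h'
    · subst h'; fin_cases i <;> simp [← h5, ← h4]
    · exact h

theorem main : ∃ (N : Subgroup (Cfsg.PSU 3 F4 2)) (_ : N.Normal), Nat.card N = 9 ∧
    (∀ x ∈ N, x ^ 3 = 1) ∧ Nonempty (Cfsg.PSU 3 F4 2 ⧸ N ≃* QuaternionGroup 2) := by
  let φ := suMat 3 F4 2
  have hφ : Function.Injective φ := suMat_injective
  let f : QuaternionGroup 2 →* SU 3 F4 2 :=
    MonoidHom.mk' (fun q => mkSU F4_add_sq (fm q) (hF1 q).1 (hF1 q).2) fun p q =>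
      hφ (by rw [map_mul]; exact hF2 p q)
  have hf : ∀ q, φ (f q) = fm q := fun _ => rfl
  let N0 := famSub φ hm ⟨0, hL5⟩ fun s t => ⟨_, hL2 s t⟩
  have hN0 : ∀ g, g ∈ N0 ↔ ∃ t, φ g = hm t := fun _ => Iff.rfl
  have hex : ∀ t, ∃ g, φ g = hm t := fun t =>
    ⟨mkSU F4_add_sq _ (hL1 t).1 (hL1 t).2, rfl⟩
  have hc : Nat.card N0 = 27 := (card_eq_fam φ hφ N0 hm hL4 hN0 hex).trans (by simp)
  have hq8 : Nat.card (QuaternionGroup 2) = 8 := by
    rw [Nat.card_eq_fintype_card, QuaternionGroup.card]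
  have hF4' : ∀ q, f q ∈ N0 → q = 1 := fun q ⟨t, ht⟩ => hF4 q t ht
  have hinj : Function.Injective fun x : N0 × QuaternionGroup 2 => x.1.1 * f x.2 := by
    rintro ⟨a, p⟩ ⟨b, q⟩ h
    simp only at h
    have h1 : f (p * q⁻¹) = (a⁻¹ * b : N0) := by
      rw [map_mul, map_inv, mul_inv_eq_iff_eq_mul, Subgroup.coe_mul, mul_assoc, ← h]; simp
    have h2 : p * q⁻¹ = 1 := hF4' _ (by rw [h1]; exact (a⁻¹ * b).2)
    rw [mul_inv_eq_one] at h2
    subst h2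
    rw [mul_left_inj] at h
    rw [Subtype.ext h]
  have hbij := hinj.bijective_of_nat_card_le (by rw [Nat.card_prod, hc, hq8]; exact hcard)
  have hG : Nat.card (SU 3 F4 2) = 216 := by
    rw [← Nat.card_eq_of_bijective _ hbij, Nat.card_prod, hc, hq8]
  have hgen : ∀ q ∈ [QuaternionGroup.a 1, .xa 0], f q ∈ Subgroup.normalizer (N0 : Set _) :=
    fun q hq => Subgroup.mem_normalizer_fintype fun n ⟨t, ht⟩ => by
      obtain ⟨u, hu⟩ := hF3 q hq t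
      obtain ⟨v, hv⟩ := hex u
      have : f q * n = v * f q := hφ (by rw [map_mul, map_mul, ht, hv]; exact hu)
      rw [this, mul_inv_cancel_right]
      exact ⟨u, hv⟩
  have hN : N0.Normal := Subgroup.normalizer_eq_top_iff.1 ((Subgroup.eq_top_iff' _).2 fun g => by
    obtain ⟨⟨a, q⟩, rfl⟩ := hbij.2 g
    refine mul_mem (Subgroup.le_normalizer a.2) ?_
    obtain ⟨i, rfl | rfl⟩ := hF5 q
    · rw [map_pow]; exact pow_mem (hgen _ (by simp)) _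
    · rw [map_mul, map_pow]; exact mul_mem (hgen _ (by simp)) (pow_mem (hgen _ (by simp)) _))
  have hZ' : ∀ g, g ∈ Subgroup.center (SU 3 F4 2) ↔ ∃ k, φ g = hm (0, 0, k) := fun g => by
    constructor
    · intro hg
      obtain ⟨u, hu⟩ := hex (1, 0, 0)
      obtain ⟨v, hv⟩ := hex (0, 1, 0)
      rw [Subgroup.mem_center_iff] at hg
      have h1 := congrArg φ (hg u)
      have h2 := congrArg φ (hg v)
      rw [map_mul, map_mul] at h1 h2
      rw [hu] at h1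
      rw [hv] at h2
      have h3 := hZ _ h1 h2
      rw [h3]
      refine hL6 _ fun h0 => ?_
      have h4 : (φ g).det = 1 := g.1.2
      rw [h3, h0] at h4
      simp at h4
    · rintro ⟨k, hk⟩
      rw [Subgroup.mem_center_iff]
      intro h
      apply hφ
      rw [map_mul, map_mul, hk, hL7]
      exact ((scalar_commute _ (fun _ => Commute.all _ _) _)).symm
  have hZc : Nat.card (Subgroup.center (SU 3 F4 2)) = 3 :=
    (card_eq_fam φ hφ _ (fun k => hm (0, 0, k)) (fun a b h => by simpa using hL4 h) hZ'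
      fun k => hex _).trans (by simp)
  have hle : Subgroup.center (SU 3 F4 2) ≤ N0 := fun g hg => by
    obtain ⟨k, hk⟩ := (hZ' g).1 hg
    exact ⟨_, hk⟩
  have hi : Nat.card (SU 3 F4 2 ⧸ N0) = 8 := by
    have := N0.card_eq_card_quotient_mul_card_subgroup
    rw [hc, hG] at this
    omega
  let ψ : QuaternionGroup 2 →* SU 3 F4 2 ⧸ N0 := (QuotientGroup.mk' N0).comp f
  have hψ : Function.Injective ψ := (injective_iff_map_eq_one ψ).2 fun q hq =>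
    hF4' q ((QuotientGroup.eq_one_iff _).1 hq)
  obtain ⟨e⟩ := equiv_of_injective_of_card_le ψ hψ (by omega)
  let e' := QuotientGroup.quotientQuotientEquivQuotient _ N0 hle
  refine ⟨N0.map (QuotientGroup.mk' _), inferInstance, ?_, ?_, ⟨e'.trans e⟩⟩
  · have h1 := (Subgroup.center (SU 3 F4 2)).card_eq_card_quotient_mul_card_subgroup
    have h2 := (N0.map (QuotientGroup.mk' (Subgroup.center (SU 3 F4 2)))
      ).card_eq_card_quotient_mul_card_subgroup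
    rw [Nat.card_congr e'.toEquiv, hi] at h2
    rw [hG, hZc, h2] at h1
    have h3 : Nat.card (N0.map (QuotientGroup.mk' (Subgroup.center (SU 3 F4 2)))) = 9 := by omega
    exact h3
  · rintro _ ⟨g, ⟨t, ht⟩, rfl⟩
    rw [← map_pow, show g ^ 3 = 1 from hφ (by
      rw [map_pow, map_one, pow_three', ht, hL3]), map_one]


/-- U_3(2) ≅ 3².Q_8: PSU_3(2) (form over the field with 4 elements) has a normal subgroup N which is elementary abelian of order 9 such that the quotient by N is isomorphic to the quaternion group of order 8. -/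
theorem result {F : Type*} [Field F] [Fintype F] (hF : Fintype.card F = 4) : ∃ (N : Subgroup (Cfsg.PSU 3 F 2)) (_ : N.Normal), Nat.card N = 9 ∧ (∀ x ∈ N, x ^ 3 = 1) ∧ Nonempty (Cfsg.PSU 3 F 2 ⧸ N ≃* QuaternionGroup 2) := by
  obtain ⟨σ⟩ := nonempty_equiv_F4 hF
  let e := (centerQuotCongr (suCongr σ 3 2)).symm
  obtain ⟨N, hN, h1, h2, ⟨e'⟩⟩ := main
  have : (N.map e.toMonoidHom).Normal := hN.map e.toMonoidHom e.surjective
  refine ⟨N.map e.toMonoidHom, this, ?_, ?_, ⟨(QuotientGroup.congr N (N.map e.toMonoidHom) e rfl).symm.trans e'⟩⟩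
  · rw [← h1]; exact (Nat.card_congr (N.equivMapOfInjective _ e.injective).toEquiv).symm
  · rintro _ ⟨x, hx, rfl⟩
    rw [← map_pow, h2 x hx, map_one]

end Cfsg.Agent.S0827
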