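import Cfsg.Statements.S0828
import Cfsg.Agent.H2.Symp

set_option autoImplicit false
open Cfsg

namespace Cfsg.Agent.S0828

/-- The symplectic generalised quadrangle over a field with q elements: the number of 2-dimensional subspaces of F^4 on which the symplectic form vanishes is (q + 1)(q² + 1), and every non-zero vector lies in exactly q + 1 of them. -/
theorem result {F : Type*} [Field F] [Fintype F] {q : ℕ} (hF : Fintype.card F = q) : Nat.card {W : Submodule F (Fin 2 ⊕ Fin 2 → F) // Module.finrank F W = 2 ∧ ∀ u ∈ W, ∀ v ∈ W, Cfsg.sympForm 2 F u v = 0} = (q + 1) * (q ^ 2 + 1) ∧ ∀ v : Fin 2 ⊕ Fin 2 → F, v ≠ 0 → Nat.card {W : Submodule F (Fin 2 ⊕ Fin 2 → F) // Module.finrank F W = 2 ∧ v ∈ W ∧ ∀ u ∈ W, ∀ w ∈ W, Cfsg.sympForm 2 F u w = 0} = q + 1 := by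
  have hS := Cfsg.H2.sympS_nondeg 2 F
  have hq : 2 ≤ q := hF ▸ Fintype.one_lt_card
  have h1 : ∀ v : Fin 2 ⊕ Fin 2 → F, v ≠ 0 → Nat.card {W : Submodule F (Fin 2 ⊕ Fin 2 → F) //
      Module.finrank F W = 2 ∧ (F ∙ v) ≤ W ∧ (Cfsg.H2.sympS 2 F).IsTS W} = q + 1 := by
    intro v hv
    have hTS : (Cfsg.H2.sympS 2 F).IsTS (F ∙ v) := by
      simpa using Cfsg.H2.FormSp.isTS_bot.sup_span (S := Cfsg.H2.sympS 2 F) (x := v) (by simp) rfl
    have e1 := hTS.card_ext (finrank_span_singleton hv)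
    have e2 := Cfsg.H2.alt_card_perp_compl _ (Cfsg.H2.sympBilin_isAlt 2 F) hS hTS
    rw [finrank_span_singleton hv, Cfsg.H2.finrank_sp] at e2
    have e3 := e1.symm.trans e2
    rw [hF] at e3
    obtain ⟨r, rfl⟩ := Nat.exists_eq_add_of_le hq
    have e4 : (2 + r) ^ (1 + 1) - (2 + r) ^ 1 = (2 + r) * (1 + r) := by
      apply Nat.sub_eq_of_eq_add; ring
    have e5 : (2 + r) ^ (2 * 2 - 1) - (2 + r) ^ 1 = (2 + r + 1) * ((2 + r) * (1 + r)) := by
      apply Nat.sub_eq_of_eq_add; norm_num; ring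
    rw [e4, e5] at e3
    exact Nat.eq_of_mul_eq_mul_right (by positivity) e3
  constructor
  · have e1 := Cfsg.H2.FormSp.card_TS_two (S := Cfsg.H2.sympS 2 F) (q + 1) (fun v hv _ => h1 v hv)
    have e2 := Cfsg.H2.alt_card_perp_compl _ (Cfsg.H2.sympBilin_isAlt 2 F) hS Cfsg.H2.FormSp.isTS_bot
    have e3 : Nat.card {v : Fin 2 ⊕ Fin 2 → F // v ≠ 0 ∧ (Cfsg.H2.sympS 2 F).q v = 0} =
        q ^ 4 - 1 := by
      rw [finrank_bot, Cfsg.H2.finrank_sp, hF] at e2
      refine Eq.trans ?_ e2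
      exact Nat.card_congr (Equiv.subtypeEquivRight fun v => by simp [Cfsg.H2.sympS])
    rw [e3, hF] at e1
    simp only [Cfsg.H2.sympS_isTS_iff] at e1
    obtain ⟨r, rfl⟩ := Nat.exists_eq_add_of_le hq
    have e4 : (2 + r) ^ 2 - 1 = (3 + r) * (1 + r) := by
      apply Nat.sub_eq_of_eq_add; ring
    have e5 : (2 + r) ^ 4 - 1 = ((2 + r) ^ 2 + 1) * ((3 + r) * (1 + r)) := by
      apply Nat.sub_eq_of_eq_add; ring
    rw [e4, e5] at e1
    apply Nat.eq_of_mul_eq_mul_right (m := (3 + r) * (1 + r)) (by positivity)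
    rw [e1]; ring
  · intro v hv
    have := h1 v hv
    simpa only [Cfsg.H2.sympS_isTS_iff, Submodule.span_singleton_le_iff_mem] using this

end Cfsg.Agent.S0828
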