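import Cfsg.Statements.S0829
import Cfsg.Agent.H2.Unit

set_option autoImplicit false
open Cfsg

namespace Cfsg.Agent.S0829

/-- The unitary quadrangle of PSU_4(q): with |F| = q², the number of 2-dimensional subspaces of F^4 on which the Hermitian form Σ x_i y_i^q vanishes is (q + 1)(q³ + 1). -/
theorem result {F : Type*} [Field F] [Fintype F] {q : ℕ} (hF : Fintype.card F = q ^ 2) : Nat.card {W : Submodule F (Fin 4 → F) // Module.finrank F W = 2 ∧ ∀ u ∈ W, ∀ v ∈ W, Cfsg.hermForm 4 F q u v = 0} = (q + 1) * (q ^ 3 + 1) := by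
  have hq := Cfsg.H2.two_le_q hF
  have h := Cfsg.H2.herm_card_TS_two hF _ _ (Cfsg.H2.unitS_nondeg hF 4) (l := 0) (by simp)
  simp only [Cfsg.H2.unitS_isTS_iff] at h
  have hpos : 0 < ((q ^ 2) ^ 2 - 1) * (q ^ 2 - 1) := by
    have h1 : 1 < q ^ 2 := Nat.one_lt_pow (by omega) hq
    have h2 : 1 < (q ^ 2) ^ 2 := Nat.one_lt_pow (by omega) h1
    exact Nat.mul_pos (by omega) (by omega)
  apply Nat.eq_of_mul_eq_mul_right hpos
  rw [h]
  simp only [Cfsg.H2.uFac]
  norm_num [Nat.even_iff, ← pow_mul]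
  ring

end Cfsg.Agent.S0829
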