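import Cfsg.Statements.S0831
import Cfsg.Agent.H2.PlusType
import Cfsg.Agent.H2.Symp

set_option autoImplicit false
open Cfsg

namespace Cfsg.Agent.S0831

/-- The two families of maximal totally singular subspaces of the hyperbolic quadric: for the form Σ x_i y_i on F^(2m), m ≥ 1, and m-dimensional subspaces U, W, X on which it vanishes, the parities of m − dim(U ∩ W), m − dim(W ∩ X) and m − dim(U ∩ X) sum to an even number (so 'even codimension of the intersection' is an equivalence relation), and there exist two such subspaces meeting in codimension 1 (so there are exactly two classes). -/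
theorem result {F : Type*} [Field F] (m : ℕ) (hm : 1 ≤ m) : (∀ U W X : Submodule F (Fin m ⊕ Fin m → F), (Module.finrank F U = m ∧ ∀ w ∈ U, Cfsg.quadFormPlus m F w = 0) → (Module.finrank F W = m ∧ ∀ w ∈ W, Cfsg.quadFormPlus m F w = 0) → (Module.finrank F X = m ∧ ∀ w ∈ X, Cfsg.quadFormPlus m F w = 0) → Even ((m - Module.finrank F ↥(U ⊓ W)) + (m - Module.finrank F ↥(W ⊓ X)) + (m - Module.finrank F ↥(U ⊓ X)))) ∧ ∃ U W : Submodule F (Fin m ⊕ Fin m → F), (Module.finrank F U = m ∧ ∀ w ∈ U, Cfsg.quadFormPlus m F w = 0) ∧ (Module.finrank F W = m ∧ ∀ w ∈ W, Cfsg.quadFormPlus m F w = 0) ∧ Module.finrank F ↥(U ⊓ W) + 1 = m := by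
  have h := Cfsg.H2.plusQ_nondeg m F
  have hd := Cfsg.H2.finrank_sp m F
  simp only [← Cfsg.H2.plusQ_apply, ← Cfsg.H2.quad_isTS_iff]
  constructor
  · rintro U W X ⟨hUm, hU⟩ ⟨hWm, hW⟩ ⟨hXm, hX⟩
    have : Module.finrank F ↥(U ⊓ W) ≤ m := (Submodule.finrank_mono inf_le_right).trans hWm.le
    exact Cfsg.H2.even_codim_sum h hd hW hWm hX hXm (m - Module.finrank F ↥(U ⊓ W)) U hU hUm
      (by omega)
  · obtain ⟨X, hX, hXm⟩ := Cfsg.H2.exists_maximal_plusQ m F
    obtain ⟨x, hxX, hx0⟩ := Submodule.exists_mem_ne_zero_of_ne_bot (p := X) (by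
      rintro rfl; simp at hXm; omega)
    obtain ⟨y, -, hyq, hxy⟩ := h.exists_partner (Z := ⊥) (x := x) (by simpa using hx0) (by simp)
      (hX.1 x hxX)
    have hyX : y ∉ X := fun hc => by
      rw [hX.B_eq hxX hc] at hxy
      exact zero_ne_one hxy
    obtain ⟨U', h1, h2, h3, -⟩ := Cfsg.H2.exists_adjacent h hd hX hXm hyX hyq
    exact ⟨X, U', ⟨hXm, hX⟩, ⟨h2, h1⟩, h3⟩

end Cfsg.Agent.S0831
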