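import Cfsg.Statements.S0832
import Cfsg.Agent.H2.PlusType
import Cfsg.Agent.H2.Symp

set_option autoImplicit false
open Cfsg

namespace Cfsg.Agent.S0832

/-- For the form Σ x_i y_i on F^(2m) over a finite field, m ≥ 1: an (m−1)-dimensional subspace on which the form vanishes is contained in exactly two m-dimensional subspaces on which it vanishes. -/
theorem result {F : Type*} [Field F] [Finite F] (m : ℕ) (hm : 1 ≤ m) (U : Submodule F (Fin m ⊕ Fin m → F)) (hU : Module.finrank F U + 1 = m ∧ ∀ u ∈ U, Cfsg.quadFormPlus m F u = 0) : Nat.card {W : Submodule F (Fin m ⊕ Fin m → F) // Module.finrank F W = m ∧ (∀ w ∈ W, Cfsg.quadFormPlus m F w = 0) ∧ U ≤ W} = 2 := by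
  have h := Cfsg.H2.plusQ_nondeg m F
  have hd := Cfsg.H2.finrank_sp m F
  simp only [← Cfsg.H2.plusQ_apply, ← Cfsg.H2.quad_isTS_iff] at hU ⊢
  obtain ⟨X, hX, hXm⟩ := Cfsg.H2.exists_maximal_plusQ m F
  exact Cfsg.H2.card_maximal_above h hd hX hXm hU.2 hU.1

end Cfsg.Agent.S0832
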