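import Cfsg.Statements.S0835
import Cfsg.Agent.H2.Ortho

set_option autoImplicit false
open Cfsg

namespace Cfsg.Agent.S0835

/-- Over a finite field with 2 ≠ 0: if B₁ on U (dim 2k, k ≥ 1) is non-degenerate symmetric of minus type (no totally isotropic k-subspace) and B₂ on W (dim 2l + 1) is non-degenerate symmetric, then B₁ ⊗ B₂ (dimension 2k(2l+1)) admits no totally isotropic subspace of dimension k(2l+1) (minus type). -/
theorem result {F U W : Type*} [Field F] [Fintype F] [AddCommGroup U] [Module F U] [FiniteDimensional F U] [AddCommGroup W] [Module F W] [FiniteDimensional F W] (h2 : (2 : F) ≠ 0) (B₁ : LinearMap.BilinForm F U) (B₂ : LinearMap.BilinForm F W) (h₁ : B₁.Nondegenerate) (h₂ : B₂.Nondegenerate) (hS₁ : B₁.IsSymm) (hS₂ : B₂.IsSymm) (k l : ℕ) (hk : 1 ≤ k) (hU : Module.finrank F U = 2 * k) (hW : Module.finrank F W = 2 * l + 1) (hm₁ : ¬ (∃ X : Submodule F (U), Module.finrank F X = k ∧ ∀ x ∈ X, ∀ y ∈ X, (B₁) x y = 0))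 : ¬ (∃ X : Submodule F (TensorProduct F U W), Module.finrank F X = k * (2 * l + 1) ∧ ∀ x ∈ X, ∀ y ∈ X, (B₁.tmul B₂) x y = 0) := by
  let b := Module.finBasisOfFinrankEq F U hU
  let c := Module.finBasisOfFinrankEq F W hW
  have hS : LinearMap.BilinForm.IsSymm (B₁.tmul B₂) := LinearMap.BilinForm.isSymm_iff.2
    (LinearMap.IsSymm.tmul (LinearMap.BilinForm.isSymm_iff.1 hS₁)
      (LinearMap.BilinForm.isSymm_iff.1 hS₂))
  rw [Cfsg.H2.plus_iff_isSquare_disc h2 (B₁.tmul B₂) hS (Cfsg.H2.nondegenerate_tmul B₁ B₂ h₁ h₂)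
    (b.tensorProduct c) (by simp; ring), Cfsg.H2.det_toMatrix_tmul]
  rw [Cfsg.H2.plus_iff_isSquare_disc h2 B₁ hS₁ h₁ b (by simp)] at hm₁
  intro h
  apply hm₁
  have d₁ := (LinearMap.BilinForm.nondegenerate_iff_det_ne_zero b).1 h₁
  have d₂ := (LinearMap.BilinForm.nondegenerate_iff_det_ne_zero c).1 h₂
  apply Cfsg.H2.isSquare_of_sq_mul (u := (-1) ^ (k * l) * (LinearMap.BilinForm.toMatrix b B₁).det ^ l *
    (LinearMap.BilinForm.toMatrix c B₂).det ^ k) (by simp [d₁, d₂])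
  convert h using 1
  simp
  ring

end Cfsg.Agent.S0835
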