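import Cfsg.Statements.S0836


set_option autoImplicit false
open Cfsg

namespace Cfsg.Agent.S0836

/-- For i ≠ j and any scalar c, the elementary transvection 1 + c E_ij is a commutator ⁅g, h⁆ of two elements of SL_n(F) provided n ≥ 3, or n = 2 and F contains x ≠ 0 with x² ≠ 1. -/
theorem result {F : Type*} [Field F] (n : ℕ) (hn : 3 ≤ n ∨ (n = 2 ∧ ∃ x : F, x ≠ 0 ∧ x ^ 2 ≠ 1)) (i j : Fin n) (hij : i ≠ j) (c : F) (t : Matrix.SpecialLinearGroup (Fin n) F) (ht : (t : Matrix (Fin n) (Fin n) F) = Matrix.transvection i j c) : t ∈ commutatorSet (Matrix.SpecialLinearGroup (Fin n) F) := by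
  have ht' : t = Matrix.SpecialLinearGroup.transvection hij c := Subtype.ext ht
  have key : ∀ g h : Matrix.SpecialLinearGroup (Fin n) F, g * h = t * h * g →
      t ∈ commutatorSet (Matrix.SpecialLinearGroup (Fin n) F) := by
    intro g h e
    refine ⟨g, h, ?_⟩
    rw [commutatorElement_def, e]; group
  rcases hn with hn | ⟨rfl, x, hx0, hx⟩
  · obtain ⟨k, hki, hkj⟩ : ∃ k : Fin n, k ≠ i ∧ k ≠ j := by
      by_contra hc
      push Not at hc
      have : (Finset.univ : Finset (Fin n)) ⊆ {i, j} := by
        intro k _
        by_cases hk : k = i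
        · simp [hk]
        · simp [hc k hk]
      have := (Finset.card_le_card this).trans Finset.card_le_two
      simp at this
      omega
    apply key (Matrix.SpecialLinearGroup.transvection hki.symm c)
      (Matrix.SpecialLinearGroup.transvection hkj 1)
    apply Subtype.ext
    simp only [ht', Matrix.SpecialLinearGroup.coe_mul, Matrix.SpecialLinearGroup.transvection_coe,
      mul_add, add_mul, one_mul, mul_one, Matrix.single_mul_single_same,
      Matrix.single_mul_single_of_ne _ _ _ _ hkj.symm, Matrix.single_mul_single_of_ne _ _ _ _ hij.symm,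
      zero_mul]
    abel
  · have h1 : x ^ 2 - 1 ≠ 0 := sub_ne_zero.2 hx
    apply key (Matrix.SpecialLinearGroup.diag2n hij x hx0)
      (Matrix.SpecialLinearGroup.transvection hij (c / (x ^ 2 - 1)))
    rw [ht', ← Matrix.SpecialLinearGroup.transvection_add]
    apply Subtype.ext
    rw [Matrix.SpecialLinearGroup.coe_mul, Matrix.SpecialLinearGroup.coe_mul,
      Matrix.SpecialLinearGroup.transvection_coe, Matrix.SpecialLinearGroup.transvection_coe,
      Matrix.SpecialLinearGroup.diag2n_coe, mul_add, add_mul, mul_one, one_mul]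
    congr 1
    ext a b
    rw [Matrix.diagonal_mul, Matrix.mul_diagonal, Matrix.single_apply, Matrix.single_apply]
    by_cases h : i = a ∧ j = b
    · obtain ⟨rfl, rfl⟩ := h
      simp [hij.symm]
      field_simp
      ring
    · simp [h]

end Cfsg.Agent.S0836
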