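import Cfsg.Statements.S0837
import Cfsg.Agent.H2.Unit

set_option autoImplicit false
open Cfsg

namespace Cfsg.Agent.S0837

/-- If W ≤ F^n (|F| = q²) is a k-dimensional subspace on which the Hermitian form Σ x_i y_i^q is non-degenerate, then the stabiliser of W in GU_n(q) is isomorphic to GU_k(q) × GU_(n−k)(q). -/
theorem result {F : Type*} [Field F] [Fintype F] {q : ℕ} (hF : Fintype.card F = q ^ 2) (n k : ℕ) (hk : k ≤ n) (W : Submodule F (Fin n → F)) (hWk : Module.finrank F W = k) (hW : ∀ u ∈ W, (∀ v ∈ W, Cfsg.hermForm n F q u v = 0) → u = 0) : Nonempty (↥((Cfsg.stabilizing (Cfsg.glToMat (Fin n) F) (W : Set (Fin n → F))).subgroupOf (Cfsg.GU n F q)) ≃* ↥(Cfsg.GU k F q) × ↥(Cfsg.GU (n - k) F q)) := by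
  have hS := Cfsg.H2.unitS_nondeg hF n
  have hd : Disjoint W ((Cfsg.H2.unitS hF n).perp W) := by
    rw [Submodule.disjoint_def]
    intro u hu hu'
    exact hW u hu fun v hv => (Cfsg.H2.unitS_B hF v u).symm.trans (hu' v hv)
  have key : ∀ (X : Submodule F (Fin n → F)) (l : ℕ), Module.finrank F X = l →
      Disjoint X ((Cfsg.H2.unitS hF n).perp X) →
      Nonempty (((Cfsg.H2.unitS hF n).restrict X).isom ≃* Cfsg.GU l F q) := by
    intro X l hX hXd
    obtain ⟨e, he⟩ := Cfsg.H2.exists_equiv_stdSesq hF ((Cfsg.H2.unitS hF n).restrict X).B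
      ⟨fun x y => (Cfsg.H2.stdSesq_isSymm (Cfsg.H2.frobq_invol hF) n).eq x y⟩
      (Cfsg.H2.FormSp.nondegenerate_of_nondeg _
        (((Cfsg.H2.unitS hF n).restrict_nondeg_iff X).2 hXd)) hX
    exact ⟨(Cfsg.H2.FormSp.isomCongr _ (Cfsg.H2.unitS hF l) e he (fun x => he x x)).trans
      (Cfsg.H2.guEquiv hF l).symm⟩
  obtain ⟨e1⟩ := key W k hWk hd
  obtain ⟨e2⟩ := key _ (n - k) (by rw [hS.finrank_perp, hWk]; simp) (hS.disjoint_perp hd)
  exact ⟨((Cfsg.H2.comapEquiv (Cfsg.H2.toLE (Cfsg.H2.guToMat n F q))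
    (Cfsg.H2.toLE_injective (Cfsg.H2.guToMat_injective n)) _
    (Cfsg.H2.stabSub W) (Cfsg.H2.range_toLE_gu hF n)).trans
    (Cfsg.H2.FormSp.stabEquivProd (hS.isCompl_perp hd))).trans (e1.prodCongr e2)⟩

end Cfsg.Agent.S0837
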