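import Cfsg.Statements.S0838
import Cfsg.Agent.H2.Ortho

set_option autoImplicit false
open Cfsg

namespace Cfsg.Agent.S0838

/-- Over a finite field with 2 ≠ 0 and n odd: two quadratic forms Q₁, Q₂ on F^n with non-degenerate polar forms are similar — there are an invertible linear map g and a scalar c ≠ 0 with Q₂ (g v) = c · Q₁ v for all v. -/
theorem result {F : Type*} [Field F] [Fintype F] (h2 : (2 : F) ≠ 0) {n : ℕ} (hn : Odd n) (Q₁ Q₂ : QuadraticForm F (Fin n → F)) (h₁ : (QuadraticMap.polarBilin Q₁).Nondegenerate) (h₂ : (QuadraticMap.polarBilin Q₂).Nondegenerate) : ∃ (g : (Fin n → F) ≃ₗ[F] (Fin n → F)) (c : F), c ≠ 0 ∧ ∀ v, Q₂ (g v) = c * Q₁ v := by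
  let b := Pi.basisFun F (Fin n)
  let B₁ := QuadraticMap.polarBilin Q₁
  let B₂ := QuadraticMap.polarBilin Q₂
  have d₁ := (LinearMap.BilinForm.nondegenerate_iff_det_ne_zero (B := B₁) b).1 h₁
  have d₂ := (LinearMap.BilinForm.nondegenerate_iff_det_ne_zero (B := B₂) b).1 h₂
  set c := (LinearMap.BilinForm.toMatrix b B₁).det * (LinearMap.BilinForm.toMatrix b B₂).det with hc
  have hc0 : c ≠ 0 := mul_ne_zero d₁ d₂
  have hS₁ : LinearMap.BilinForm.IsSymm B₁ := ⟨fun x y => QuadraticMap.polar_comm Q₁ x y⟩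
  have hS₂ : LinearMap.BilinForm.IsSymm B₂ := ⟨fun x y => QuadraticMap.polar_comm Q₂ x y⟩
  have hd : (LinearMap.BilinForm.toMatrix b (c • B₁)).det =
      c ^ n * (LinearMap.BilinForm.toMatrix b B₁).det := by
    rw [map_smul, Matrix.det_smul]; simp
  obtain ⟨e, he⟩ := Cfsg.H2.symm_equiv_of_disc h2 (c • B₁) (hS₁.smul c)
    ((LinearMap.BilinForm.nondegenerate_iff_det_ne_zero b).2 (by
      rw [hd]; exact mul_ne_zero (pow_ne_zero _ hc0) d₁)) B₂ hS₂ h₂ b b rfl (by
      rw [hd, mul_assoc, ← hc, ← pow_succ]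
      exact hn.add_one.isSquare_pow c)
  refine ⟨e, c, hc0, fun v => ?_⟩
  have := he v v
  simp only [B₁, B₂, LinearMap.smul_apply, QuadraticMap.polarBilin_apply_apply,
    QuadraticMap.polar_self, smul_eq_mul, nsmul_eq_mul, Nat.cast_ofNat] at this
  apply mul_left_cancel₀ h2
  linear_combination this

end Cfsg.Agent.S0838
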