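import Cfsg.Statements.S0839


set_option autoImplicit false
open Cfsg

namespace Cfsg.Agent.S0839

/-- Every transvection t ∈ SL_(n+2)(F) (rank(t − 1) = 1, (t − 1)² = 0) is conjugate in SL_(n+2)(F) to 1 + v·e_0ᵀ for some column vector v with v_0 = 0 (the group A of matrices that are the identity except in the first column below the diagonal); the dimension is written n + 2 ≥ 2. -/
theorem result {F : Type*} [Field F] (n : ℕ) (t : Matrix.SpecialLinearGroup (Fin (n + 2)) F) (ht : Cfsg.IsTransvection (t : Matrix (Fin (n + 2)) (Fin (n + 2)) F)) : ∃ (g : Matrix.SpecialLinearGroup (Fin (n + 2)) F) (v : Fin (n + 2) → F), v 0 = 0 ∧ ((g⁻¹ * t * g : Matrix.SpecialLinearGroup (Fin (n + 2)) F) : Matrix (Fin (n + 2)) (Fin (n + 2)) F) = 1 + Matrix.vecMulVec v (Pi.single 0 1) := by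
  obtain ⟨h1, h2⟩ := ht
  set N := (t : Matrix (Fin (n + 2)) (Fin (n + 2)) F) - 1 with hN
  obtain ⟨⟨u, hu⟩, hu0, hu'⟩ := finrank_eq_one_iff'.1 h1
  have h3 : ∀ j, ∃ c : F, c • u = N.mulVec (Pi.single j 1) := fun j => by
    obtain ⟨c, hc⟩ := hu' ⟨_, Pi.single j 1, rfl⟩
    exact ⟨c, congrArg Subtype.val hc⟩
  choose w hw using h3
  have h4 : N = Matrix.vecMulVec u w := by
    ext i j
    have := congrFun (hw j) i
    simp at this
    rw [Matrix.vecMulVec_apply, ← this, mul_comm]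
  have hu1 : u ≠ 0 := fun hc => hu0 (Subtype.ext hc)
  have hw0 : w ≠ 0 := by
    rintro rfl
    rw [h4] at h1
    simp at h1
  have h5 : w ⬝ᵥ u = 0 := by
    rw [h4, Matrix.vecMulVec_mul_vecMulVec] at h2
    obtain ⟨i, hi⟩ := Function.ne_iff.1 hu1
    obtain ⟨j, hj⟩ := Function.ne_iff.1 hw0
    have := congrFun (congrFun h2 i) j
    simp only [Pi.zero_apply] at hi hj
    simpa [Matrix.vecMulVec_apply, hi, hj] using this
  have he : (Pi.single 0 1 : Fin (n + 2) → F) ≠ 0 := by simp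
  obtain ⟨h, hh⟩ := MulAction.exists_smul_eq (Matrix.SpecialLinearGroup (Fin (n + 2)) F)
    (Projectivization.mk F w hw0) (Projectivization.mk F (Pi.single 0 1) he)
  rw [Projectivization.smul_mk, Projectivization.mk_eq_mk_iff'] at hh
  obtain ⟨a, ha⟩ := hh
  have ha' : Matrix.vecMul w (h.transpose : Matrix (Fin (n + 2)) (Fin (n + 2)) F) = a • Pi.single 0 1 := by
    rw [ha, Matrix.SpecialLinearGroup.coe_transpose, Matrix.vecMul_transpose]; rfl
  refine ⟨h.transpose, a • ((h.transpose⁻¹ : Matrix.SpecialLinearGroup (Fin (n + 2)) F) :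
    Matrix (Fin (n + 2)) (Fin (n + 2)) F).mulVec u, ?_, ?_⟩
  · have : w ⬝ᵥ u = (a • Pi.single 0 1) ⬝ᵥ ((h.transpose⁻¹ : Matrix.SpecialLinearGroup (Fin (n + 2)) F) :
        Matrix (Fin (n + 2)) (Fin (n + 2)) F).mulVec u := by
      rw [← ha', ← Matrix.dotProduct_mulVec, Matrix.mulVec_mulVec,
        ← Matrix.SpecialLinearGroup.coe_mul, mul_inv_cancel]
      simp
    rw [h5] at this
    simpa using this.symm
  · have h6 : (t : Matrix (Fin (n + 2)) (Fin (n + 2)) F) = 1 + Matrix.vecMulVec u w := by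
      rw [← h4, hN]; simp
    rw [Matrix.SpecialLinearGroup.coe_mul, Matrix.SpecialLinearGroup.coe_mul, h6, mul_add, add_mul,
      mul_one, ← Matrix.SpecialLinearGroup.coe_mul, inv_mul_cancel, Matrix.mul_vecMulVec,
      Matrix.vecMulVec_mul, ha']
    simp

end Cfsg.Agent.S0839
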