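import Cfsg.Statements.S0841
import Mathlib


set_option autoImplicit false
open Cfsg

namespace Cfsg.Agent.S0841

/-- If the commutator subgroup of G lies in the centre, then for all x, y in G and every natural number n one has (x * y) ^ n = x ^ n * y ^ n * c ^ (n * (n - 1) / 2) with c = y⁻¹ * x⁻¹ * y * x. -/
theorem result {G : Type*} [Group G] (hG : commutator G ≤ Subgroup.center G) (x y : G) (n : ℕ) : (x * y) ^ n = x ^ n * y ^ n * (y⁻¹ * x⁻¹ * y * x) ^ (n * (n - 1) / 2) := by
  have hc : y⁻¹ * x⁻¹ * y * x ∈ Subgroup.center G := by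
    apply hG
    have := Subgroup.commutator_mem_commutator (Subgroup.mem_top y⁻¹) (Subgroup.mem_top x⁻¹)
    simpa [commutatorElement_def, commutator_def] using this
  set c := y⁻¹ * x⁻¹ * y * x with hcdef
  have hcomm : ∀ g : G, Commute c g := fun g => (Subgroup.mem_center_iff.mp hc g).symm
  have h1 : y * x = x * y * c := by rw [hcdef]; group
  have h2 : ∀ k : ℕ, y ^ k * x = x * y ^ k * c ^ k := by
    intro k
    induction k with
    | zero => simp
    | succ k ih =>
      rw [pow_succ', mul_assoc, ih, ← mul_assoc, ← mul_assoc, h1, pow_succ' c k]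
      rw [mul_assoc (x * y), (hcomm (y ^ k)).eq]
      simp only [mul_assoc]
  induction n with
  | zero => simp
  | succ n ih =>
    have h3 : (n + 1) * (n + 1 - 1) / 2 = n + n * (n - 1) / 2 := by
      rw [Nat.triangle_succ, Nat.add_comm]
    rw [pow_succ, ih, h3, pow_add c, pow_succ x, pow_succ y]
    have h4 : ∀ (k : ℕ) (g : G), c ^ k * g = g * c ^ k := fun k g => ((hcomm g).pow_left k).eq
    calc x ^ n * y ^ n * c ^ (n * (n - 1) / 2) * (x * y)
        = x ^ n * (y ^ n * x) * y * c ^ (n * (n - 1) / 2) := by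
          rw [mul_assoc, h4]; simp only [mul_assoc]
      _ = x ^ n * x * (y ^ n * y) * (c ^ n * c ^ (n * (n - 1) / 2)) := by
          rw [h2]; simp only [mul_assoc]; rw [← mul_assoc (c ^ n) y, h4 n y]; simp only [mul_assoc]

end Cfsg.Agent.S0841
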