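import Cfsg.Statements.S0842
import Cfsg.Agent.H4.Quat

set_option autoImplicit false
open Cfsg

namespace Cfsg.Agent.S0842

/-- Suppose a Sylow 2-subgroup S of the finite group G is generalized quaternion of order at least 16, and let D be the commutator subgroup of S, C its centralizer and N its normalizer in G. Then there is a subgroup K of odd order, contained in C and normalized by N, with K ⊔ S = N and K ⊔ (S ⊓ C) = C, and C has index 2 in N. -/
theorem result {G : Type*} [Group G] [Finite G] (S : Sylow 2 G) (n : ℕ) (e : (S : Subgroup G) ≃* QuaternionGroup (2 ^ (n + 2))) (D : Subgroup G) (hD : D = ⁅(S : Subgroup G), (S : Subgroup G)⁆) : ∃ K : Subgroup G, Odd (Nat.card K) ∧ K ≤ Subgroup.centralizer (D : Set G) ∧ Subgroup.normalizer (D : Set G) ≤ Subgroup.normalizer (K : Set G) ∧ K ⊔ (S : Subgroup G) = Subgroup.normalizer (D : Set G) ∧ K ⊔ ((S : Subgroup G) ⊓ Subgroup.centralizer (D : Set G)) = Subgroup.centralizer (D : Set G) ∧ ((Subgroup.centralizer (D : Set G)).subgroupOf (Subgroup.normalizer (D : Set G))).index = 2 := by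
  subst hD
  obtain ⟨a, b, h⟩ := H4.exists_quatData e
  have hS := H7.isSylowIn_top S
  have h1 := (h.isSylowIn_centralizer hS).sup_pResidualOf
  have h2 := H7.pResidualOf_le 2 (Subgroup.centralizer ((⁅(S : Subgroup G), (S : Subgroup G)⁆ : Subgroup G) : Set G))
  refine ⟨pResidualOf 2 _, h.odd_card_residual hS, h2,
    H7.le_normalizer_pResidualOf' 2 (H7.normalizer_le_normalizer_centralizer _), ?_, ?_,
    h.index_centralizer hS⟩
  · refine le_antisymm (sup_le (h2.trans (Subgroup.centralizer_le_normalizer _)) h.le_normalizer)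
      ((h.normalizer_le_sup hS).trans (sup_le le_sup_right ?_))
    rw [← h1]
    nth_rewrite 2 [h1]
    exact sup_le (h.zpowers_le.trans le_sup_right) le_sup_left
  · rw [h.inf_centralizer, sup_comm, h1]

end Cfsg.Agent.S0842
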