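import Cfsg.Statements.S0849
import Cfsg.Agent.H4.TI

set_option autoImplicit false
open Cfsg

namespace Cfsg.Agent.S0849

open Cfsg.H4

theorem inv_eq {G : Type*} [Group G] {u a : G} (hu : orderOf u = 2) (h : IsConj u a) :
    a⁻¹ = a := by
  obtain ⟨c, rfl⟩ := isConj_iff.mp h
  have : u * u = 1 := by rw [← sq, ← hu, pow_orderOf_eq_one]
  rw [inv_eq_iff_mul_eq_one]
  calc c * u * c⁻¹ * (c * u * c⁻¹) = c * (u * u) * c⁻¹ := by group
    _ = 1 := by rw [this]; group

/-- Let H be a subgroup of a finite group G and S a subset of H that is mapped to itself under conjugation by H, is disjoint from its conjugate by any element outside H, and is closed under inverses. Let φ be a class function of H vanishing on H away from S, and let u, v be involutions of G. Then the sum of the induced function of φ over all products a * b with a conjugate to u and b conjugate to v equals the index of H times the sum of φ (a * b) over such pairs with a and b in H. -/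
theorem result {G : Type*} [Group G] [Fintype G] (H : Subgroup G) (S : Set G) (hSH : S ⊆ H) (hHS : ∀ h ∈ H, ∀ s ∈ S, h * s * h⁻¹ ∈ S) (hTI : ∀ g : G, g ∉ H → ∀ s ∈ S, g * s * g⁻¹ ∉ S) (hinv : ∀ s ∈ S, s⁻¹ ∈ S) (φ : H → ℂ) (hφ : Cfsg.IsClassFunction H φ) (hφS : ∀ x : H, (x : G) ∉ S → φ x = 0) (u v : G) (hu : orderOf u = 2) (hv : orderOf v = 2) : ∑ᶠ p ∈ {p : G × G | IsConj u p.1 ∧ IsConj v p.2}, Cfsg.indFun H φ (p.1 * p.2) = (H.index : ℂ) * ∑ᶠ p ∈ {p : H × H | IsConj u (p.1 : G) ∧ IsConj v (p.2 : G)}, φ (p.1 * p.2) := by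
  classical
  have := Fintype.ofFinite H
  let N : G → ℂ := fun g => ∑ p : G × G, if IsConj u p.1 ∧ IsConj v p.2 ∧ p.1 * p.2 = g then 1 else 0
  have hN : IsClassFunction G N := by
    intro g x
    symm
    refine Fintype.sum_equiv ((MulAut.conj x).toEquiv.prodCongr (MulAut.conj x).toEquiv) _ _ ?_
    rintro ⟨a, b⟩
    have h1 : ∀ w y : G, IsConj w (x * y * x⁻¹) ↔ IsConj w y := fun w y =>
      ⟨fun h => h.trans (isConj_iff.mpr ⟨x, rfl⟩).symm, fun h => h.trans (isConj_iff.mpr ⟨x, rfl⟩)⟩
    have h2 : x * a * x⁻¹ * (x * b * x⁻¹) = x * g * x⁻¹ ↔ a * b = g := by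
      rw [show x * a * x⁻¹ * (x * b * x⁻¹) = x * (a * b) * x⁻¹ by group]
      simp
    simp only [MulEquiv.toEquiv_eq_coe, Equiv.prodCongr_apply, EquivLike.coe_coe, Prod.map_fst,
      Prod.map_snd, MulAut.conj_apply, h1, h2]
  have key : ∀ (F : G → ℂ), ∑ g, F g * N g =
      ∑ p : G × G, if IsConj u p.1 ∧ IsConj v p.2 then F (p.1 * p.2) else 0 := by
    intro F
    simp only [N, Finset.mul_sum]
    rw [Finset.sum_comm]
    refine Finset.sum_congr rfl fun p _ => ?_
    by_cases h : IsConj u p.1 ∧ IsConj v p.2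
    · simp only [h.1, h.2, true_and, if_true]
      simp
    · rw [if_neg h]
      refine Finset.sum_eq_zero fun g _ => ?_
      rw [if_neg (fun h' => h ⟨h'.1, h'.2.1⟩), mul_zero]
  rw [finsum_mem_eq_finite_toFinset_sum _ (Set.toFinite _),
    finsum_mem_eq_finite_toFinset_sum _ (Set.toFinite _)]
  simp only [Set.Finite.toFinset_ofPred, Finset.sum_filter]
  rw [← key, sum_indFun_mul φ hN]
  congr 1
  rw [← sum_extendByZero_mul, key]
  symm
  refine Finset.sum_of_injOn (fun p : H × H => ((p.1 : G), (p.2 : G))) ?_ (by simp) ?_ ?_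
  · rintro ⟨a, b⟩ _ ⟨c, d⟩ _ h
    simp only [Prod.mk.injEq] at h
    exact Prod.ext (Subtype.ext h.1) (Subtype.ext h.2)
  · rintro ⟨a, b⟩ _ hab
    split_ifs with h
    · by_cases hm : a * b ∈ H
      · rw [extendByZero_of_mem _ hm]
        apply hφS
        intro hs
        have ha : a ∈ H := by
          by_contra ha
          apply hTI a ha _ hs
          have e1 : a⁻¹ = a := inv_eq hu h.1
          have e2 : b⁻¹ = b := inv_eq hv h.2
          have e3 : a * (a * b) * a⁻¹ = (a * b)⁻¹ := by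
            rw [mul_inv_rev, e2]
            nth_rw 1 [← e1]
            group
          exact e3 ▸ hinv _ hs
        have hb : b ∈ H := by simpa using H.mul_mem (H.inv_mem ha) hm
        exact hab ⟨(⟨a, ha⟩, ⟨b, hb⟩), by simp, rfl⟩
      · exact extendByZero_of_not_mem _ hm
    · rfl
  · rintro ⟨a, b⟩ _
    simp only [← Subgroup.coe_mul, extendByZero_coe]

end Cfsg.Agent.S0849
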