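import Cfsg.Statements.S0851
import Cfsg.Agent.H4.EqDeg

set_option autoImplicit false
open Cfsg

namespace Cfsg.Agent.S0851

open Cfsg.H4

theorem aux {N : Type*} [Group N] [Finite N] {K : Subgroup N} (hK : IsFrobKer K)
    (hab : ∀ a ∈ K, ∀ b ∈ K, a * b = b * a) {χ : N → ℂ} (hχ : χ ∈ irrNonKer K) :
    χ 1 = K.index := by
  have := Fintype.ofFinite N
  obtain ⟨θ, hθ, -, rfl⟩ := hK.exists_eq_indFun hχ
  rw [indFun_apply_one, hθ.apply_one_eq_one_of_comm
    (fun a b => Subtype.ext (hab a a.2 b b.2)), mul_one]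

theorem aux2 {N : Type*} [Group N] [Finite N] {K : Subgroup N} (hK : IsFrobKer K)
    (hab : ∀ a ∈ K, ∀ b ∈ K, a * b = b * a) {χ : N → ℂ} (hχ : χ ∈ irrNonKer K)
    (huniq : ∀ ξ ∈ irrNonKer K, ξ = χ) :
    Nat.card K = K.index + 1 ∧ ∃ p : ℕ, p.Prime ∧ ∀ a ∈ K, a ^ p = 1 := by
  classical
  have h := hK.sum_irrNonKer 1
  rw [Finset.sum_eq_single ⟨χ, hχ.1⟩ (fun ξ hξ hne =>
    absurd (Subtype.ext (huniq _ (Finset.mem_filter.mp hξ).2)) hne)
    (fun h => absurd (by simpa using hχ) h), regChar_one, if_pos K.one_mem,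
    card_eq_index_mul_card_complex K, ← mul_sub_one] at h
  simp only [aux hK hab hχ] at h
  have h1 := mul_left_cancel₀ (Nat.cast_ne_zero.mpr K.index_ne_zero_of_finite) h
  have h2 : Nat.card K = K.index + 1 := by
    rw [eq_sub_iff_add_eq] at h1
    exact_mod_cast h1.symm
  refine ⟨h2, ?_⟩
  have h3 : Nat.card K ≠ 1 := by
    have := K.index_ne_zero_of_finite
    omega
  obtain ⟨p, hp, hpd⟩ := Nat.exists_prime_and_dvd h3
  have := Fact.mk hp
  obtain ⟨k, hk⟩ := exists_prime_orderOf_dvd_card' p hpd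
  have hk1 : (k : N) ≠ 1 := by
    intro h
    rw [show k = 1 from Subtype.ext h, orderOf_one] at hk
    exact hp.one_lt.ne hk
  have hc : Subgroup.centralizer ({(k : N)} : Set N) = K := by
    ext x
    rw [Subgroup.mem_centralizer_singleton_iff]
    exact ⟨fun h => hK.mem_of_comm k k.2 hk1 x h.symm, fun h => hab x h k k.2⟩
  have h4 := card_isConj_mul_card_centralizer (k : N)
  rw [hc, ← K.index_mul_card] at h4
  have h5 := Nat.eq_of_mul_eq_mul_right Nat.card_pos h4
  have h6 : {x : N | IsConj (k : N) x} = (K : Set N) \ {1} := by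
    refine Set.eq_of_subset_of_ncard_le ?_ ?_ (Set.toFinite _)
    · intro x hx
      obtain ⟨c, rfl⟩ := isConj_iff.mp hx
      exact ⟨hK.normal.conj_mem _ k.2 c, by simpa using hk1⟩
    · rw [Set.ncard_sdiff_singleton_of_mem K.one_mem, ← Nat.card_coe_set_eq, ← Nat.card_coe_set_eq]
      change Nat.card K - 1 ≤ Nat.card {x : N // IsConj (k : N) x}
      omega
  refine ⟨p, hp, fun a ha => ?_⟩
  by_cases ha1 : a = 1
  · simp [ha1]
  · have : a ∈ {x : N | IsConj (k : N) x} := by rw [h6]; exact ⟨ha, ha1⟩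
    obtain ⟨c, rfl⟩ := isConj_iff.mp this
    rw [conj_pow, ← Subgroup.coe_pow, ← hk, pow_orderOf_eq_one]
    simp

/-- Let K be a subgroup of the finite group G that meets each conjugate by an element outside its normalizer N trivially, is properly contained in N, and contains the centralizer of each of its non-identity elements (a T.I. subgroup with Frobenius normalizer). Suppose K is abelian, let e be the index of K in N, and call an irreducible character of N relevant when it takes at some element of K a value different from its degree. Then either there is exactly one relevant character and K is an elementary abelian p-group of order e + 1 for some prime p, or there are a sign ε and an injective map f from the relevant characters to the irreducible characters of G such that inducing χ - ξ to G gives ε (f χ - f ξ) for all relevant χ and ξ. -/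
theorem result {G : Type*} [Group G] [Fintype G] (K : Subgroup G) (hTI : ∀ g : G, g ∉ Subgroup.normalizer (K : Set G) → ∀ k ∈ K, g * k * g⁻¹ ∈ K → k = 1) (hlt : K < Subgroup.normalizer (K : Set G)) (hC : ∀ k ∈ K, k ≠ 1 → Subgroup.centralizer ({k} : Set G) ≤ K) (hab : ∀ a ∈ K, ∀ b ∈ K, a * b = b * a) : (Nat.card {χ : Cfsg.IrrCharacter (Subgroup.normalizer (K : Set G)) // ∃ k : Subgroup.normalizer (K : Set G), (k : G) ∈ K ∧ (χ : ↥(Subgroup.normalizer (K : Set G)) → ℂ) k ≠ (χ : ↥(Subgroup.normalizer (K : Set G)) → ℂ) 1} = 1 ∧ ∃ p : ℕ, p.Prime ∧ Cfsg.IsElementaryAbelian p K ∧ Nat.card K = (K.subgroupOf (Subgroup.normalizer (K : Set G))).index + 1) ∨ ∃ (ε : ℂ) (f : {χ : Cfsg.IrrCharacter (Subgroup.normalizer (K : Set G)) // ∃ k : Subgroup.normalizer (K : Set G), (k : G) ∈ K ∧ (χ : ↥(Subgroup.normalizer (K : Set G)) → ℂ) k ≠ (χ : ↥(Subgroup.normalizer (K : Set G)) → ℂ) 1} → Cfsg.IrrCharacter G), (ε = 1 ∨ ε = -1) ∧ Function.Injective f ∧ ∀ χ ξ, Cfsg.indFun (Subgroup.normalizer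 (K : Set G)) ((χ.1 : ↥(Subgroup.normalizer (K : Set G)) → ℂ) - (ξ.1 : ↥(Subgroup.normalizer (K : Set G)) → ℂ)) = ε • ((f χ : G → ℂ) - (f ξ : G → ℂ)) := by
  have h := isTIFN_normalizer hTI hC
  have hab' : ∀ a ∈ K.subgroupOf (Subgroup.normalizer (K : Set G)),
      ∀ b ∈ K.subgroupOf (Subgroup.normalizer (K : Set G)), a * b = b * a :=
    fun a ha b hb => Subtype.ext (hab a ha b hb)
  set T := {χ : Cfsg.IrrCharacter (Subgroup.normalizer (K : Set G)) // ∃ k : Subgroup.normalizer (K : Set G), (k : G) ∈ K ∧ (χ : ↥(Subgroup.normalizer (K : Set G)) → ℂ) k ≠ (χ : ↥(Subgroup.normalizer (K : Set G)) → ℂ) 1} with hT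
  have hmem : ∀ χ : T, χ.1.1 ∈ irrNonKer (K.subgroupOf (Subgroup.normalizer (K : Set G))) :=
    fun χ => ⟨χ.1.2, χ.2⟩
  rcases subsingleton_or_nontrivial T with hs | hs
  · rcases isEmpty_or_nonempty T with he | ⟨⟨χ⟩⟩
    · exact Or.inr ⟨1, isEmptyElim, Or.inl rfl, fun a => isEmptyElim a, fun a => isEmptyElim a⟩
    · left
      obtain ⟨h1, p, hp, h2⟩ := aux2 h.frob hab' (hmem χ) (fun ξ hξ =>
        congrArg (fun t : T => t.1.1) (Subsingleton.elim (⟨⟨ξ, hξ.1⟩, hξ.2⟩ : T) χ))
      refine ⟨Nat.card_eq_one_iff_unique.mpr ⟨hs, ⟨χ⟩⟩, p, hp,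
        ⟨⟨⟨fun a b => Subtype.ext (hab a a.2 b b.2)⟩⟩, fun a ha => ?_⟩, ?_⟩
      · exact congrArg Subtype.val (h2 ⟨a, h.le ha⟩ ha)
      · rw [← h1, h.card_subgroupOf]
  · right
    exact h.exists_sign_injective (fun χ : T => χ.1.1) hmem
      (fun a b hab => Subtype.ext (Subtype.ext hab))
      (fun a b => by rw [aux h.frob hab' (hmem a), aux h.frob hab' (hmem b)])

end Cfsg.Agent.S0851
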