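import Cfsg.Statements.S0855
import Cfsg.Agent.H5.Ito
import Cfsg.Agent.H5.Solomon

set_option autoImplicit false
open Cfsg

namespace Cfsg.Agent.S0855

theorem aux (p : ℕ) (hp : p.Prime) (n : ℕ) : ∀ (G : Type*) [Group G] [Finite G], Nat.card G = n →
    (∀ χ : G → ℂ, IsIrrCharacter G χ → ∃ k : ℕ, χ 1 = (p : ℂ) ^ k) →
    ∃ A : Subgroup G, A.Normal ∧ (∀ a ∈ A, ∀ b ∈ A, a * b = b * a) ∧
      Nat.Coprime (Nat.card A) p ∧ ∃ k : ℕ, A.index = p ^ k := by
  induction n using Nat.strong_induction_on with
  | _ n ih =>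
  intro G _ _ hn h
  classical
  have := Fact.mk hp
  by_cases hpG : p ∣ Nat.card G
  · have := Fintype.ofFinite G
    have hdvd : p ∣ Nat.card (Abelianization G) := by
      have h1 := H4.sum_irr_one_sq (G := G)
      choose k hk using fun χ : IrrCharacter G => h χ χ.2
      simp only [hk] at h1
      have h2 : ∑ χ : IrrCharacter G, (p ^ k χ) ^ 2 = Nat.card G := by exact_mod_cast h1
      rw [← Finset.sum_filter_add_sum_filter_not Finset.univ (fun χ => k χ = 0)] at h2
      have h3 : p ∣ ∑ χ ∈ Finset.univ.filter (fun χ => ¬ k χ = 0), (p ^ k χ) ^ 2 :=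
        Finset.dvd_sum fun χ hχ =>
          dvd_pow (dvd_pow_self p (Finset.mem_filter.mp hχ).2) two_ne_zero
      have h4 : ∑ χ ∈ Finset.univ.filter (fun χ => k χ = 0), (p ^ k χ) ^ 2 =
          (commutator G).index := by
        rw [← H4.card_linear_irr, Nat.card_eq_fintype_card, Fintype.card_subtype,
          Finset.sum_congr rfl (g := fun _ => 1)
            (fun χ hχ => by rw [(Finset.mem_filter.mp hχ).2]; simp)]
        simp only [Finset.sum_const, smul_eq_mul, mul_one]
        congr 1
        ext χ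
        simp only [Finset.mem_filter, Finset.mem_univ, true_and, hk]
        constructor
        · intro e; rw [e, pow_zero]
        · intro e
          have : p ^ k χ = 1 := by exact_mod_cast e
          exact (Nat.pow_eq_one.mp this).resolve_left hp.one_lt.ne'
      rw [← h2, h4] at hpG
      exact (Nat.dvd_add_left h3).mp hpG
    obtain ⟨a, m, hm, hcard⟩ := Nat.exists_eq_pow_mul_and_not_dvd
      (Nat.card_pos (α := Abelianization G)).ne' p hp.one_lt.ne'
    let f : G →* Abelianization G := (powMonoidHom m).comp Abelianization.of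
    let K := f.ker
    have hKne : K ≠ ⊤ := by
      intro htop
      obtain ⟨x, hx⟩ := exists_prime_orderOf_dvd_card' p hdvd
      obtain ⟨y, rfl⟩ := QuotientGroup.mk_surjective x
      have : y ∈ K := htop ▸ Subgroup.mem_top y
      have h5 : (Abelianization.of y) ^ m = 1 := this
      exact hm (hx ▸ orderOf_dvd_of_pow_eq_one h5)
    have hKidx : ∃ j, K.index = p ^ j := by
      rw [Subgroup.index_ker]
      refine IsPGroup.iff_card.mp ?_
      rintro ⟨_, y, rfl⟩
      refine ⟨a, Subtype.ext ?_⟩
      change ((Abelianization.of y) ^ m) ^ p ^ a = 1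
      rw [← pow_mul, mul_comm, ← hcard, pow_card_eq_one']
    have hlt : Nat.card K < n := by
      rw [← hn, ← K.card_mul_index]
      exact lt_mul_of_one_lt_right Nat.card_pos (Subgroup.one_lt_index_of_ne_top hKne)
    obtain ⟨A, hAn, hab, hcop, j, hj⟩ := ih _ hlt K rfl fun θ hθ => by
      have := Fintype.ofFinite K
      obtain ⟨χ, hχ, h1⟩ := hθ.exists_irr_over
      obtain ⟨k, hk⟩ := h χ hχ
      obtain ⟨d, -, hd⟩ := hθ.exists_apply_one
      have := H5.degree_dvd_of_constituent hχ hθ h1 (c := p ^ k) (by rw [hk]; simp) hd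
      obtain ⟨i, -, rfl⟩ := (Nat.dvd_prime_pow hp).mp this
      exact ⟨i, by rw [hd]; simp⟩
    have hcardA : Nat.card (A.map K.subtype) = Nat.card A :=
      Subgroup.card_map_of_injective K.subtype_injective
    have hsub : (A.map K.subtype).subgroupOf K = A :=
      Subgroup.comap_map_eq_self_of_injective K.subtype_injective A
    refine ⟨A.map K.subtype, ⟨fun x hx g => ?_⟩, ?_, by rwa [hcardA], ?_⟩
    · refine H5.mem_of_coprime_of_relIndex (H := K) ?_
        ((inferInstance : K.Normal).conj_mem x (Subgroup.map_subtype_le A hx) g) ?_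
      · rw [← Subgroup.normal_subgroupOf_iff_le_normalizer (Subgroup.map_subtype_le A), hsub]
        exact hAn
      · have h1 : orderOf (g * x * g⁻¹) = orderOf x := (MulAut.conj g).orderOf_eq x
        rw [h1, Subgroup.relIndex, hsub, hj]
        refine Nat.Coprime.pow_right _ (Nat.Coprime.coprime_dvd_left ?_ hcop)
        rw [← hcardA]
        exact Subgroup.orderOf_dvd_natCard _ hx
    · rintro _ ⟨x, hx, rfl⟩ _ ⟨y, hy, rfl⟩
      rw [← map_mul, hab x hx y hy, map_mul]
    · obtain ⟨i, hi⟩ := hKidx
      exact ⟨j + i, by rw [Subgroup.index_map_subtype, hj, hi, pow_add]⟩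
  · refine ⟨⊤, inferInstance, fun a _ b _ => H4.comm_of_forall_irr_apply_one (fun χ hχ => ?_) a b,
      ?_, 0, by simp⟩
    · obtain ⟨k, hk⟩ := h χ hχ
      have := H5.degree_dvd_card hχ (n := p ^ k) (by rw [hk]; simp)
      rcases k with _ | k
      · simpa using hk
      · exact absurd ((dvd_pow_self p (Nat.succ_ne_zero k)).trans this) hpG
    · rw [Subgroup.card_top]
      exact ((Nat.Prime.coprime_iff_not_dvd hp).mpr hpG).symm

/-- For a finite group G and a prime p: every irreducible character of G has degree a power of p if and only if G has an abelian normal subgroup whose order is prime to p and whose index is a power of p. -/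
theorem result {G : Type*} [Group G] [Finite G] (p : ℕ) (hp : p.Prime) : (∀ χ : Cfsg.IrrCharacter G, ∃ k : ℕ, (χ : G → ℂ) 1 = (p : ℂ) ^ k) ↔ ∃ A : Subgroup G, A.Normal ∧ (∀ a ∈ A, ∀ b ∈ A, a * b = b * a) ∧ Nat.Coprime (Nat.card A) p ∧ ∃ k : ℕ, A.index = p ^ k := by
  constructor
  · intro h
    exact aux p hp _ G rfl fun χ hχ => h ⟨χ, hχ⟩
  · rintro ⟨A, hA, hab, -, k, hk⟩ χ
    obtain ⟨d, -, hd⟩ := χ.2.exists_apply_one
    have := H5.degree_dvd_index_of_abelian hab χ.2 hd
    rw [hk] at this
    obtain ⟨i, -, rfl⟩ := (Nat.dvd_prime_pow hp).mp this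
    exact ⟨i, by rw [hd]; simp⟩

end Cfsg.Agent.S0855
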