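import Cfsg.Statements.S0858
import Cfsg.Agent.H5.GoingDown

set_option autoImplicit false
open Cfsg

namespace Cfsg.Agent.S0858

/-- Let N be a normal subgroup of the finite group G with G / N solvable, and suppose that for every subgroup H containing N and all subgroups L < K between N and H that are normal in H with no subgroup normal in H strictly between them, the index of L in K is not a perfect square. Then every irreducible character χ of G is induced from an irreducible character ψ of some subgroup H containing N such that the restriction of ψ to N is irreducible. -/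
theorem result {G : Type*} [Group G] [Fintype G] (N : Subgroup G) [N.Normal] (hsolv : Group.IsSolvable (G ⧸ N)) (hchief : ∀ (H K L : Subgroup G), N ≤ L → L < K → K ≤ H → (∀ h ∈ H, ∀ k ∈ K, h * k * h⁻¹ ∈ K) → (∀ h ∈ H, ∀ l ∈ L, h * l * h⁻¹ ∈ L) → (∀ M : Subgroup G, L ≤ M → M ≤ K → (∀ h ∈ H, ∀ m ∈ M, h * m * h⁻¹ ∈ M) → M = L ∨ M = K) → ¬ IsSquare (L.relIndex K)) (χ : G → ℂ) (hχ : Cfsg.IsIrrCharacter G χ) : ∃ (H : Subgroup G) (hNH : N ≤ H) (ψ : H → ℂ), Cfsg.IsIrrCharacter H ψ ∧ Cfsg.indFun H ψ = χ ∧ Cfsg.IsIrrCharacter N (fun n : N => ψ ⟨(n : G), hNH n.2⟩) := by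
  obtain ⟨U, _, lam, hNU, hlam, hind, hprim⟩ := H5.exists_rel_primitive N hχ
  refine ⟨U, hNU, lam, hlam, hind, ?_⟩
  refine H5.isIrr_of_subgroupOf hNU (φ := fun n : N.subgroupOf U => lam n) ?_
  refine H5.isIrr_restrict_of_nonsquare (N.subgroupOf U)
    (H5.isSolvable_quotient_comap U.subtype N hsolv) (fun K L hK hL hNL hLK hch => ?_) hlam hprim
  have hconj : ∀ M : Subgroup U, M.Normal → ∀ h ∈ U, ∀ k ∈ M.map U.subtype,
      h * k * h⁻¹ ∈ M.map U.subtype := by
    rintro M hM h hh _ ⟨k, hk, rfl⟩
    exact ⟨_, hM.conj_mem k hk ⟨h, hh⟩, rfl⟩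
  have := hchief U (K.map U.subtype) (L.map U.subtype)
    (fun n hn => ⟨⟨n, hNU hn⟩, hNL hn, rfl⟩)
    ((Subgroup.map_lt_map_iff_of_injective U.subtype_injective).mpr hLK)
    (Subgroup.map_subtype_le K) (hconj K hK) (hconj L hL) (fun M h1 h2 h3 => by
      have hMU : M ≤ U := h2.trans (Subgroup.map_subtype_le K)
      have hM : (M.subgroupOf U).map U.subtype = M := Subgroup.map_subgroupOf_eq_of_le hMU
      rcases hch (M.subgroupOf U) ⟨fun m hm g => h3 g g.2 m hm⟩
        (Subgroup.map_le_iff_le_comap.mp h1)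
        (by rw [← hM] at h2; exact (Subgroup.map_le_map_iff_of_injective U.subtype_injective).mp h2)
        with h | h
      · left; rw [← hM, h]
      · right; rw [← hM, h])
  rwa [Subgroup.relIndex_map_map_of_injective _ _ U.subtype_injective] at this

end Cfsg.Agent.S0858
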