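import Cfsg.Statements.S0859
import Cfsg.Agent.H5.GoingDown

set_option autoImplicit false
open Cfsg

namespace Cfsg.Agent.S0859

/-- Let G be a finite solvable group and N a normal subgroup such that for every prime p every Sylow p-subgroup of N is abelian. Suppose every irreducible character of G is induced from an irreducible character of some subgroup containing N whose restriction to N is irreducible. Then every irreducible character of G is induced from a character of degree 1 of some subgroup. -/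
theorem result {G : Type*} [Group G] [Fintype G] [Group.IsSolvable G] (N : Subgroup G) [N.Normal] (hab : ∀ (p : ℕ) [Fact p.Prime] (P : Sylow p N), ∀ a ∈ P, ∀ b ∈ P, a * b = b * a) (hrel : ∀ χ : G → ℂ, Cfsg.IsIrrCharacter G χ → ∃ (H : Subgroup G) (hNH : N ≤ H) (ψ : H → ℂ), Cfsg.IsIrrCharacter H ψ ∧ Cfsg.indFun H ψ = χ ∧ Cfsg.IsIrrCharacter N (fun n : N => ψ ⟨(n : G), hNH n.2⟩)) (χ : G → ℂ) (hχ : Cfsg.IsIrrCharacter G χ) : ∃ (U : Subgroup G) (lam : U → ℂ), Cfsg.IsCharacter U lam ∧ lam 1 = 1 ∧ Cfsg.indFun U lam = χ := by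
  obtain ⟨H, hNH, ψ, hψ, hind, hψN⟩ := hrel χ hχ
  have := Fintype.ofFinite H
  obtain ⟨U, lam, h1, h2, h3⟩ := H5.exists_monomial_of_restrict_irr (N := N.subgroupOf H)
    (fun p hp Q hQ hle a ha b hb => by
      have := Fact.mk hp
      obtain ⟨P, hP⟩ := (((hQ.map H.subtype).comap_of_injective N.subtype
        N.subtype_injective)).exists_le_sylow
      have := hab p P ⟨a, hle ha⟩ (hP ⟨a, ha, rfl⟩) ⟨b, hle hb⟩ (hP ⟨b, hb, rfl⟩)
      exact Subtype.ext (congrArg (fun x : N => (x : G)) this)) hψ
    (H5.isIrr_subgroupOf hNH hψN)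
  refine ⟨U.map H.subtype, fun x => lam ((U.equivMapOfInjective _ H.subtype_injective).symm x),
    h1.comp (U.equivMapOfInjective _ H.subtype_injective).symm.toMonoidHom,
    by simp only [map_one]; exact h2, ?_⟩
  rw [← H4.indFun_indFun_map, h3, hind]

end Cfsg.Agent.S0859
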