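import Cfsg.Statements.S0861
import Cfsg.Agent.H5.Ito
import Cfsg.Agent.H5.ModP

set_option autoImplicit false
open Cfsg

namespace Cfsg.Agent.S0861

/-- Let P be a normal abelian Sylow p-subgroup of the finite group G and suppose some element g of P has centralizer exactly P. Then the number of irreducible characters of G is at most the order of P, and if equality holds then G / P is abelian (the commutator subgroup lies in P). -/
theorem result {G : Type*} [Group G] [Finite G] (p : ℕ) [Fact p.Prime] (P : Sylow p G) [(P : Subgroup G).Normal] (hab : ∀ a ∈ P, ∀ b ∈ P, a * b = b * a) (g : G) (hg : g ∈ P) (hC : Subgroup.centralizer ({g} : Set G) = P) : Nat.card (Cfsg.IrrCharacter G) ≤ Nat.card P ∧ (Nat.card (Cfsg.IrrCharacter G) = Nat.card P → commutator G ≤ P) := by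
  classical
  have hp : p.Prime := Fact.out
  obtain ⟨K, hK, k, hk, hval⟩ := H5.exists_numberField_galois g
  have hD : (0 : ℝ) < Fintype.card (K →ₐ[ℚ] ℂ) := by
    have : Nonempty (K →ₐ[ℚ] ℂ) := ⟨K.val⟩
    exact_mod_cast Fintype.card_pos
  have hcent : ∀ σ, Subgroup.centralizer ({g ^ k σ} : Set G) = P := by
    intro σ
    rw [← hC]
    ext x
    simp only [Subgroup.mem_centralizer_singleton_iff]
    constructor
    · intro h
      obtain ⟨j, hj⟩ := (mem_zpowers_pow_iff (g := g) (k := k σ)).mpr (hk σ)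
      rw [← hj]
      exact (show Commute x (g ^ k σ) from h).zpow_right j
    · intro h
      exact (show Commute x g from h).pow_right _
  obtain ⟨j, hj⟩ := P.isPGroup' ⟨g, hg⟩
  have hj' : g ^ p ^ j = 1 := congrArg Subtype.val hj
  have hle : ∀ χ : IrrCharacter G, (Fintype.card (K →ₐ[ℚ] ℂ) : ℝ) ≤
      ∑ σ : K →ₐ[ℚ] ℂ, ‖(χ : G → ℂ) (g ^ k σ)‖ ^ 2 := by
    intro χ
    obtain ⟨d, -, hd⟩ := χ.2.exists_apply_one
    have hdvd := H5.degree_dvd_index_of_abelian hab χ.2 hd
    have h0 := H5.char_ne_zero_of_not_dvd hp χ.2.isCharacter hd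
      (fun h => P.not_dvd_index (h.trans hdvd)) hj'
    obtain ⟨x, hx, hσ⟩ := hval χ χ.2.isCharacter
    have hx0 : x ≠ 0 := by
      rintro rfl
      exact h0 hx.symm
    have h1 := H5.one_le_prod_norm_embeddings (hx ▸ H5.isIntegral_char χ.2.isCharacter g) hx0
    refine H5.card_le_sum_of_one_le_prod _ (fun σ => ?_) ?_
    · rw [← hσ]
      exact pow_pos (norm_pos_iff.mpr ((map_ne_zero σ).mpr hx0)) 2
    · simp only [← hσ]
      rw [Finset.prod_pow]
      exact one_le_pow₀ h1
  have hsum : ∑ χ : IrrCharacter G, ∑ σ : K →ₐ[ℚ] ℂ, ‖(χ : G → ℂ) (g ^ k σ)‖ ^ 2 =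
      Fintype.card (K →ₐ[ℚ] ℂ) * Nat.card P := by
    rw [Finset.sum_comm]
    simp only [H4.sum_irr_norm_sq, hcent, Finset.sum_const, Finset.card_univ, nsmul_eq_mul]
  have hsum2 : ∑ χ : IrrCharacter G, (Fintype.card (K →ₐ[ℚ] ℂ) : ℝ) =
      Fintype.card (K →ₐ[ℚ] ℂ) * Nat.card (IrrCharacter G) := by
    simp only [Finset.sum_const, Finset.card_univ, nsmul_eq_mul, Fintype.card_eq_nat_card, mul_comm]
  constructor
  · have := Finset.sum_le_sum fun χ (_ : χ ∈ Finset.univ) => hle χ
    rw [hsum, hsum2] at this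
    exact_mod_cast le_of_mul_le_mul_left this hD
  · intro heq x hx
    have h1 := (Finset.sum_eq_sum_iff_of_le fun χ (_ : χ ∈ Finset.univ) => hle χ).mp
      (by rw [hsum, hsum2, heq])
    refine H4.mem_of_forall_irr (P : Subgroup G) fun χ hχ hP => ?_
    have h2 := h1 ⟨χ, hχ⟩ (Finset.mem_univ _)
    simp only [fun σ => hP _ ((P : Subgroup G).pow_mem hg (k σ)), Finset.sum_const,
      Finset.card_univ, nsmul_eq_mul] at h2
    obtain ⟨d, -, hd⟩ := hχ.exists_apply_one
    rw [hd, Complex.norm_natCast] at h2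
    have h3 : (d : ℝ) ^ 2 = 1 := by
      apply mul_left_cancel₀ hD.ne'
      rw [← h2, mul_one]
    have h4 : d = 1 := by
      have : d ^ 2 = 1 := by exact_mod_cast h3
      exact (Nat.pow_eq_one.mp this).resolve_right two_ne_zero
    have h5 : χ 1 = 1 := by rw [hd, h4, Nat.cast_one]
    rw [hχ.isCharacter.apply_eq_one_of_mem_commutator h5 hx, h5]

end Cfsg.Agent.S0861
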