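import Cfsg.Statements.S0869
import Cfsg.Agent.H5.Perm

set_option autoImplicit false
open Cfsg

namespace Cfsg.Agent.S0869

/-- Let S be a nonempty finite type and R an additive subgroup of the integer-valued functions on S that is closed under pointwise multiplication. If the constant function 1 is not in R, then there exist a point x of S and a prime p such that p divides f x for every f in R. -/
theorem result {S : Type*} [Finite S] [Nonempty S] (R : AddSubgroup (S → ℤ)) (hmul : ∀ f ∈ R, ∀ g ∈ R, f * g ∈ R) (h1 : (1 : S → ℤ) ∉ R) : ∃ (x : S) (p : ℕ), p.Prime ∧ ∀ f ∈ R, (p : ℤ) ∣ f x := by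
  classical
  have := Fintype.ofFinite S
  by_contra hcon
  push Not at hcon
  have key : ∀ x : S, ∃ f ∈ R, f x = 1 := by
    intro x
    let I : AddSubgroup ℤ := R.map (Pi.evalAddMonoidHom (fun _ => ℤ) x)
    obtain ⟨a, ha⟩ := Int.subgroup_cyclic I
    have hdvd : ∀ f ∈ R, a ∣ f x := by
      intro f hf
      have : f x ∈ I := ⟨f, hf, rfl⟩
      rw [ha, AddSubgroup.mem_closure_singleton] at this
      obtain ⟨n, hn⟩ := this
      exact ⟨n, by rw [← hn, smul_eq_mul, mul_comm]⟩
    have haI : a ∈ I := by rw [ha]; exact AddSubgroup.subset_closure rfl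
    obtain ⟨f, hf, hfa⟩ := haI
    have hfa' : f x = a := hfa
    by_cases h : a.natAbs = 1
    · rcases Int.natAbs_eq_iff.mp h with h | h
      · exact ⟨f, hf, by rw [hfa', h]; rfl⟩
      · exact ⟨-f, R.neg_mem hf, by simp [hfa', h]⟩
    · obtain ⟨p, hp, hpa⟩ := Nat.exists_prime_and_dvd h
      obtain ⟨g, hg, hg'⟩ := hcon x p hp
      exact absurd ((Int.natCast_dvd.mpr hpa).trans (hdvd g hg)) hg'
  choose f hf hf1 using key
  have := H5.const_prod_mem_of_values R hmul (fun _ => 1) f hf (by simpa using hf1)
  apply h1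
  simp only [Finset.prod_const_one, Int.cast_one] at this
  exact this

end Cfsg.Agent.S0869
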