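import Cfsg.Statements.S0874
import Cfsg.Agent.H5.Brauer

set_option autoImplicit false
open Cfsg

namespace Cfsg.Agent.S0874

/-- For a finite group G and a prime p there are an integer m not divisible by p and a list of triples (E, φ, c), with E a p-elementary subgroup, φ a character of E and c an integer, such that the constant function m on G equals the sum of the c • (function induced from φ). -/
theorem result {G : Type*} [Group G] [Fintype G] (p : ℕ) (hp : p.Prime) : ∃ (m : ℤ) (l : List ((E : Subgroup G) × ((E → ℂ) × ℤ))), ¬ (p : ℤ) ∣ m ∧ (∀ t ∈ l, Cfsg.IsElementary p t.1 ∧ Cfsg.IsCharacter t.1 t.2.1) ∧ (fun _ : G => (m : ℂ)) = (l.map fun t => (t.2.2 : ℂ) • Cfsg.indFun t.1 t.2.1).sum := by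
  obtain ⟨m, hm, h⟩ := H5.brauer_local (G := G) hp
  suffices h' : ∀ f ∈ H5.elemSpan p G, ∃ l : List ((E : Subgroup G) × ((E → ℂ) × ℤ)),
      (∀ t ∈ l, Cfsg.IsElementary p t.1 ∧ Cfsg.IsCharacter t.1 t.2.1) ∧
      f = (l.map fun t => (t.2.2 : ℂ) • Cfsg.indFun t.1 t.2.1).sum by
    obtain ⟨l, h1, h2⟩ := h' _ h
    exact ⟨m, l, hm, h1, h2⟩
  intro f hf
  induction hf using AddSubgroup.closure_induction with
  | mem f hf =>
    obtain ⟨E, φ, hE, hφ, rfl⟩ := hf
    exact ⟨[⟨E, φ, 1⟩], by simpa using ⟨hE, hφ⟩, by simp⟩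
  | zero => exact ⟨[], by simp, by simp⟩
  | add f g _ _ h1 h2 =>
    obtain ⟨l1, h1, rfl⟩ := h1
    obtain ⟨l2, h2, rfl⟩ := h2
    exact ⟨l1 ++ l2, fun t ht => (List.mem_append.mp ht).elim (h1 t) (h2 t), by simp⟩
  | neg f _ h =>
    obtain ⟨l, h1, rfl⟩ := h
    refine ⟨l.map fun t => ⟨t.1, t.2.1, -t.2.2⟩, fun t ht => ?_, ?_⟩
    · obtain ⟨t', ht', rfl⟩ := List.mem_map.mp ht
      exact h1 t' ht'
    · rw [List.map_map, List.sum_neg, List.map_map]
      congr 1
      refine List.map_congr_left fun t _ => ?_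
      simp

end Cfsg.Agent.S0874
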