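import Cfsg.Statements.S0875
import Cfsg.Agent.H5.Brauer2

set_option autoImplicit false
open Cfsg

namespace Cfsg.Agent.S0875

/-- Let G be a finite group of order m * n with m and n coprime, and g an element whose order is coprime to m. Every x in G factors uniquely as x = u * v with u, v commuting, the order of u coprime to n and the order of v coprime to m; let ϑ be the function on G equal to n at those x whose factor v is conjugate to g and equal to 0 elsewhere. Then ϑ is a linear combination of the irreducible characters of G with algebraic-integer coefficients. -/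
theorem result {G : Type*} [Group G] [Fintype G] (m n : ℕ) (hmn : Nat.card G = m * n) (hcop : Nat.Coprime m n) (g : G) (hg : Nat.Coprime (orderOf g) m) (ϑ : G → ℂ) (hϑ1 : ∀ x : G, (∃ v : G, IsConj v g ∧ (∃ u : G, x = u * v ∧ Commute u v ∧ Nat.Coprime (orderOf u) n ∧ Nat.Coprime (orderOf v) m)) → ϑ x = n) (hϑ0 : ∀ x : G, (¬ ∃ v : G, IsConj v g ∧ (∃ u : G, x = u * v ∧ Commute u v ∧ Nat.Coprime (orderOf u) n ∧ Nat.Coprime (orderOf v) m)) → ϑ x = 0) : ∃ c : Cfsg.IrrCharacter G → ℂ, (∀ χ, c χ ∈ Cfsg.AlgInt) ∧ ϑ = ∑ᶠ χ : Cfsg.IrrCharacter G, c χ • (χ : G → ℂ) := by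
  classical
  obtain ⟨k, hk0, hk1⟩ := H5.exists_piExp hcop
  have hG : ∀ x : G, x ^ (m * n) = 1 := fun x => by rw [← hmn, pow_card_eq_one']
  have hf : IsClassFunction G fun y => if IsConj y g then (1 : ℂ) else 0 := fun a b =>
    if_congr ⟨fun h => (isConj_iff.mpr ⟨b, rfl⟩ : IsConj a _).trans h,
      fun h => (isConj_iff.mpr ⟨b, rfl⟩ : IsConj a _).symm.trans h⟩ rfl rfl
  have hϑ : ϑ = fun x => (n : ℂ) * if IsConj (x ^ k) g then (1 : ℂ) else 0 := by
    ext x
    split_ifs with h
    · rw [hϑ1 x ((H5.exists_decomp_iff hcop hk0 hk1 hG x g).mpr h), mul_one]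
    · rw [hϑ0 x (mt (H5.exists_decomp_iff hcop hk0 hk1 hG x g).mp h), mul_zero]
  have hcl : IsClassFunction G ϑ := fun a b => by
    simp only [hϑ]
    rw [conj_pow]
    exact congrArg _ (hf _ _)
  refine ⟨fun χ => classInner ϑ χ, fun χ => ?_, ?_⟩
  · rw [hϑ]
    exact H5.isIntegral_classInner_piSection hmn hcop hk0 hk1 hf
      (fun x => by split_ifs; exacts [isIntegral_one, isIntegral_zero]) χ.2.isCharacter
  · rw [finsum_eq_sum_of_fintype]
    exact hcl.eq_sum_irr

end Cfsg.Agent.S0875
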