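import Cfsg.Statements.S0876
import Cfsg.Agent.H5.Brauer2

set_option autoImplicit false
open Cfsg

namespace Cfsg.Agent.S0876

/-- Let G be a finite group, p a prime and M a maximal ideal of the ring of algebraic integers containing p. Let x, y be elements with p-parts a and b (so a⁻¹ * x and b⁻¹ * y are their p-regular parts). Then a⁻¹ * x and b⁻¹ * y are conjugate in G if and only if, for every irreducible character χ, the difference χ x - χ y lies in the local ideal at M. -/
theorem result {G : Type*} [Group G] [Finite G] (p : ℕ) (M : Ideal Cfsg.AlgInt) (hM : Cfsg.IsPModular p M) (x y a b : G) (ha : Cfsg.IsPPart p x a) (hb : Cfsg.IsPPart p y b) : IsConj (a⁻¹ * x) (b⁻¹ * y) ↔ ∀ χ : Cfsg.IrrCharacter G, Cfsg.MemLocalIdeal M ((χ : G → ℂ) x - (χ : G → ℂ) y) := by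
  classical
  have := Fintype.ofFinite G
  have hp := hM.1
  have := Fact.mk hp
  obtain ⟨x', rfl, hax, ⟨i, hi⟩, hx'⟩ := ha
  obtain ⟨y', rfl, hby, ⟨j, hj⟩, hy'⟩ := hb
  rw [inv_mul_cancel_left, inv_mul_cancel_left]
  constructor
  · intro h χ
    refine H5.memLocalIdeal_of_mem_idealC hM.2.1.isPrime ?_
    have h1 := H5.char_mul_sub_mem_idealC hM χ.2.isCharacter hax (hi ▸ pow_orderOf_eq_one a)
    have h2 := H5.char_mul_sub_mem_idealC hM χ.2.isCharacter hby (hj ▸ pow_orderOf_eq_one b)
    rw [χ.2.isClassFunction.eq_of_isConj h] at h1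
    simpa using sub_mem h1 h2
  · intro h
    by_contra hcon
    obtain ⟨e, n, hn, hmn⟩ := Nat.exists_eq_pow_mul_and_not_dvd (Nat.card_pos (α := G)).ne' p
      hp.one_lt.ne'
    have hpn : p.Coprime n := (Nat.Prime.coprime_iff_not_dvd hp).mpr hn
    have hcop : (p ^ e).Coprime n := hpn.pow_left e
    obtain ⟨k, hk0, hk1⟩ := H5.exists_piExp hcop
    have hG : ∀ x : G, x ^ (p ^ e * n) = 1 := fun x => by rw [← hmn, pow_card_eq_one']
    have hf : IsClassFunction G fun y => if IsConj x' y then (1 : ℂ) else 0 := fun a b =>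
      if_congr ⟨fun h => h.trans (isConj_iff.mpr ⟨b, rfl⟩ : IsConj a _).symm,
        fun h => h.trans (isConj_iff.mpr ⟨b, rfl⟩ : IsConj a _)⟩ rfl rfl
    have hcl : IsClassFunction G fun x => (n : ℂ) * if IsConj x' (x ^ k) then (1 : ℂ) else 0 :=
      fun a b => by
        simp only []
        rw [conj_pow]
        exact congrArg _ (hf _ _)
    have h1 := hcl.apply_eq_sum_irr (a * x')
    have h2 := hcl.apply_eq_sum_irr (b * y')
    rw [H5.pow_piExp_of_decomp hk0 hk1 hG hax (hi ▸ hpn.pow_left i)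
      (((Nat.Prime.coprime_iff_not_dvd hp).mpr hx').symm.pow_right e), if_pos (IsConj.refl _),
      mul_one] at h1
    rw [H5.pow_piExp_of_decomp hk0 hk1 hG hby (hj ▸ hpn.pow_left j)
      (((Nat.Prime.coprime_iff_not_dvd hp).mpr hy').symm.pow_right e), if_neg hcon, mul_zero] at h2
    refine hn (H5.dvd_of_natCast_mem_idealC hM ?_)
    rw [(sub_zero (n : ℂ)).symm.trans (congrArg₂ (· - ·) h1 h2), ← Finset.sum_sub_distrib]
    refine sum_mem fun χ _ => ?_
    rw [← mul_sub]
    exact H5.mul_mem_idealC (H5.isIntegral_classInner_piSection hmn hcop hk0 hk1 hf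
      (fun x => by split_ifs; exacts [isIntegral_one, isIntegral_zero]) χ.2.isCharacter)
      (H5.mem_idealC_of_memLocalIdeal hM.2.1.isPrime
        ((H5.isIntegral_char χ.2.isCharacter _).sub (H5.isIntegral_char χ.2.isCharacter _)) (h χ))

end Cfsg.Agent.S0876
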