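import Cfsg.Statements.S0893
import Cfsg.Agent.H4.Extraspecial

set_option autoImplicit false
open Cfsg

namespace Cfsg.Agent.S0893

open Cfsg.H4

/-- Let P be an extraspecial p-group of order p ^ (2 * n + 1), A an abelian subgroup of order p ^ (n + 1), and λ a character of A of degree 1 that is not identically 1 on the elements of A lying in the centre of P. Then the function induced from λ to P is an irreducible character of P and vanishes at every element outside the centre. -/
theorem result {P : Type*} [Group P] [Fintype P] (p n : ℕ) [Fact p.Prime] (hP : Cfsg.IsExtraspecial p P) (hcard : Nat.card P = p ^ (2 * n + 1)) (A : Subgroup P) (hab : ∀ a ∈ A, ∀ b ∈ A, a * b = b * a) (hA : Nat.card A = p ^ (n + 1)) (lam : A → ℂ) (hlam : Cfsg.IsCharacter A lam ∧ lam 1 = 1) (hZ : ∃ a : A, (a : P) ∈ Subgroup.center P ∧ lam a ≠ 1) : Cfsg.IsIrrCharacter P (Cfsg.indFun A lam) ∧ ∀ x : P, x ∉ Subgroup.center P → Cfsg.indFun A lam x = 0 := by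
  classical
  have hp : p.Prime := Fact.out
  obtain ⟨l, hl⟩ := hlam.1.exists_monoidHom hlam.2
  obtain ⟨a, ha, ha1⟩ := hZ
  have ha1' : (a : P) ≠ 1 := fun h => ha1 (by rw [show a = 1 from Subtype.ext h, hlam.2])
  have hZA : Subgroup.center P ≤ A := fun z hz => by
    obtain ⟨k, rfl⟩ := mem_zpowers_of_card_prime hp hP.2 ha ha1' hz
    exact A.zpow_mem a.2 k
  have hmul : ∀ z (hz : z ∈ Subgroup.center P) (x : P),
      indFun A lam (z * x) = lam ⟨z, hZA hz⟩ * indFun A lam x := by
    intro z hz x
    simp only [indFun, Finset.mul_sum]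
    refine Finset.sum_congr rfl fun y _ => ?_
    have e : y⁻¹ * (z * x) * y = z * (y⁻¹ * x * y) := by
      rw [← mul_assoc, Subgroup.mem_center_iff.mp hz y⁻¹]; group
    rw [e]
    by_cases hm : y⁻¹ * x * y ∈ A
    · rw [extendByZero_of_mem _ hm, extendByZero_of_mem _ (A.mul_mem (hZA hz) hm), hl, hl, hl,
        mul_left_comm, ← map_mul]
      rfl
    · rw [extendByZero_of_not_mem _ hm, extendByZero_of_not_mem _ (fun h => hm (by
        simpa using A.mul_mem (A.inv_mem (hZA hz)) h))]
      simp
  have hv : ∀ x : P, x ∉ Subgroup.center P → Cfsg.indFun A lam x = 0 := by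
    intro x hx
    refine apply_eq_zero_of_center (isClassFunction_indFun lam) hP.1.2.2.le
      (fun z hz hz1 => ⟨_, fun h => ha1 ?_, hmul z hz⟩) hx
    obtain ⟨k, hk⟩ := mem_zpowers_of_card_prime hp hP.2 hz hz1 ha
    have : a = ⟨z, hZA hz⟩ ^ k := Subtype.ext hk
    rw [this, hl, map_zpow, ← hl, h, one_zpow]
  refine ⟨hlam.1.indFun.isIrr_of_classInner_self ?_, hv⟩
  have hidx : A.index = p ^ n := by
    have := A.index_mul_card
    rw [hA, hcard, show 2 * n + 1 = n + (n + 1) by ring, pow_add p n (n + 1)] at this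
    exact Nat.eq_of_mul_eq_mul_right (pow_pos hp.pos _) this
  have := Fintype.ofFinite (Subgroup.center P)
  have h1 := classInner_restrict_of_vanish (Subgroup.center P) hv (indFun A lam)
  have h2 : ∀ z : Subgroup.center P, indFun A lam z * (starRingEnd ℂ) (indFun A lam z) =
      (p : ℂ) ^ (2 * n) := by
    intro z
    have := hmul z z.2 1
    rw [mul_one, indFun_apply_one, hlam.2, hidx, mul_one] at this
    rw [this, map_mul, hlam.1.conj_apply, mul_mul_mul_comm, ← hlam.1.map_mul_of_apply_one hlam.2,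
      mul_inv_cancel, hlam.2, map_natCast]
    push_cast
    ring
  rw [classInner_def, extraspecial_index hP hcard] at h1
  simp only [h2, Finset.sum_const, Finset.card_univ, nsmul_eq_mul, Fintype.card_eq_nat_card] at h1
  rw [inv_mul_cancel_left₀ (card_ne_zero_complex _)] at h1
  have h3 : (p : ℂ) ^ (2 * n) ≠ 0 := pow_ne_zero _ (Nat.cast_ne_zero.mpr hp.ne_zero)
  push_cast at h1
  exact (mul_eq_left₀ h3).mp h1.symm

end Cfsg.Agent.S0893
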