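import Cfsg.Statements.S0894
import Cfsg.Agent.H4.Extraspecial

set_option autoImplicit false
open Cfsg

namespace Cfsg.Agent.S0894

open Cfsg.H4

/-- Let P be an extraspecial p-group of order p ^ (2 * n + 1). Then every irreducible character of P has degree 1 or p ^ n, and exactly p - 1 of them have degree p ^ n. -/
theorem result {P : Type*} [Group P] [Finite P] (p n : ℕ) [Fact p.Prime] (hP : Cfsg.IsExtraspecial p P) (hcard : Nat.card P = p ^ (2 * n + 1)) : (∀ χ : Cfsg.IrrCharacter P, (χ : P → ℂ) 1 = 1 ∨ (χ : P → ℂ) 1 = (p : ℂ) ^ n) ∧ Nat.card {χ : Cfsg.IrrCharacter P // (χ : P → ℂ) 1 = (p : ℂ) ^ n} = p - 1 := by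
  classical
  have hp : p.Prime := Fact.out
  have h1 : ∀ χ : Cfsg.IrrCharacter P, (χ : P → ℂ) 1 = 1 ∨ (χ : P → ℂ) 1 = (p : ℂ) ^ n := by
    intro χ
    by_cases h : (χ : P → ℂ) 1 = 1
    · exact Or.inl h
    · exact Or.inr (extraspecial_irr hP hcard χ.2 h).2
  refine ⟨h1, ?_⟩
  have hn := extraspecial_pos hP hcard
  have hne : (p : ℂ) ^ n ≠ 1 := by
    have := Nat.one_lt_pow hn hp.one_lt
    exact_mod_cast this.ne'
  have h2 := sum_irr_one_sq (G := P)
  rw [← Finset.sum_filter_add_sum_filter_not Finset.univ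
    (fun χ : Cfsg.IrrCharacter P => χ.1 1 = 1),
    Finset.sum_congr rfl (g := fun _ => 1) (fun χ hχ => by
      rw [(Finset.mem_filter.mp hχ).2, one_pow]),
    Finset.sum_const, Finset.sum_congr (s₂ := Finset.univ.filter
      (fun χ : Cfsg.IrrCharacter P => χ.1 1 = (p : ℂ) ^ n)) (g := fun _ => ((p : ℂ) ^ n) ^ 2)
      (by
        ext χ
        simp only [Finset.mem_filter, Finset.mem_univ, true_and]
        exact ⟨fun h => (h1 χ).resolve_left h, fun h h' => hne (h ▸ h')⟩)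
      (fun χ hχ => by rw [(Finset.mem_filter.mp hχ).2]),
    Finset.sum_const, ← Fintype.card_subtype, ← Fintype.card_subtype,
    ← Nat.card_eq_fintype_card, ← Nat.card_eq_fintype_card, card_linear_irr, hP.1.2.2,
    extraspecial_index hP hcard, hcard, nsmul_eq_mul, nsmul_eq_mul, mul_one] at h2
  set m := Nat.card {χ : Cfsg.IrrCharacter P // (χ : P → ℂ) 1 = (p : ℂ) ^ n}
  have h3 : p ^ (2 * n) + m * (p ^ n) ^ 2 = p ^ (2 * n + 1) := by exact_mod_cast h2
  rw [← pow_mul, mul_comm n 2, pow_succ] at h3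
  have h4 : p ^ (2 * n) * (m + 1) = p ^ (2 * n) * p := by linarith
  have := Nat.eq_of_mul_eq_mul_left (pow_pos hp.pos _) h4
  omega

end Cfsg.Agent.S0894
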