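import Cfsg.Statements.S0899
import Cfsg.Agent.H4.Blich

set_option autoImplicit false
open Cfsg

namespace Cfsg.Agent.S0899

/-- Let G be a finite group with a faithful complex representation of degree n (on Fin n → ℂ) and p a prime. Suppose either that (n + 1) ^ 2 ≤ p, or that n + 1 < p and every subgroup of G whose order is not divisible by p ^ 2 has a normal Sylow p-subgroup. Then every Sylow p-subgroup of G is normal. -/
theorem result {G : Type*} [Group G] [Finite G] (n : ℕ) (ρ : Representation ℂ G (Fin n → ℂ)) (hρ : Function.Injective ρ) (p : ℕ) [Fact p.Prime] (h : (n + 1) ^ 2 ≤ p ∨ (n + 1 < p ∧ ∀ K : Subgroup G, ¬ p ^ 2 ∣ Nat.card K → ∀ Q : Sylow p K, (Q : Subgroup K).Normal)) (P : Sylow p G) : (P : Subgroup G).Normal := by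
  refine H4.normal_sylow_of_degree n p ?_ _ G rfl ρ.character (H4.isCharacter_of_rep ρ)
    (by rw [Representation.char_one]; simp) (fun g hg => hρ ?_) (h.imp id fun h K T hK hT => ?_) _
    (H7.isSylowIn_top P)
  · rcases h with h | h
    · have := (Fact.out : p.Prime).two_le
      rcases n with _ | n
      · omega
      · nlinarith
    · exact h.1
  · rw [map_one]
    exact (H4.character_eq_iff_rep_eq_one ρ).mp hg
  · exact (Subgroup.normal_subgroupOf_iff_le_normalizer hT.le).mp (h.2 K hK hT.toSylow)

end Cfsg.Agent.S0899
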