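import Cfsg.Statements.S0900
import Cfsg.Agent.H5.Gallagher

set_option autoImplicit false
open Cfsg

namespace Cfsg.Agent.S0900

/-- Let N be a normal subgroup of the finite group G, χ an irreducible character of G and ϑ an irreducible character of N having nonzero inner product with the restriction of χ. Consider: (a) the restriction of χ to N is e • ϑ for a natural number e with e ^ 2 equal to the index of N; (b) χ vanishes outside N and ϑ is invariant under conjugation by G; (c) ϑ is invariant and every irreducible character of G having nonzero inner product with the function induced from ϑ equals χ. Then (a) ↔ (b) and (a) ↔ (c). -/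
theorem result {G : Type*} [Group G] [Fintype G] (N : Subgroup G) [hN : N.Normal] [Fintype N] (χ : G → ℂ) (hχ : Cfsg.IsIrrCharacter G χ) (ϑ : N → ℂ) (hϑ : Cfsg.IsIrrCharacter N ϑ) (hcon : Cfsg.classInner (fun n : N => χ n) ϑ ≠ 0) : ((∃ e : ℕ, (fun n : N => χ n) = (e : ℂ) • ϑ ∧ e ^ 2 = N.index) ↔ ((∀ g : G, g ∉ N → χ g = 0) ∧ ∀ (g : G) (n : N), ϑ ⟨g * n * g⁻¹, hN.conj_mem (n : G) n.2 g⟩ = ϑ n)) ∧ ((∃ e : ℕ, (fun n : N => χ n) = (e : ℂ) • ϑ ∧ e ^ 2 = N.index) ↔ (∀ (g : G) (n : N), ϑ ⟨g * n * g⁻¹, hN.conj_mem (n : G) n.2 g⟩ = ϑ n ∧ ∀ ψ : G → ℂ, Cfsg.IsIrrCharacter G ψ → Cfsg.classInner (Cfsg.indFun N ϑ) ψ ≠ 0 → ψ = χ)) := by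
  have hinv : (∃ e : ℕ, (fun n : N => χ n) = (e : ℂ) • ϑ ∧ e ^ 2 = N.index) → H5.IsInvt N ϑ := by
    rintro ⟨e, he, he2⟩
    refine H5.isInvt_of_restrict_eq_smul hχ.isClassFunction ?_ he
    intro h0
    rw [h0, zero_smul] at he
    exact hχ.apply_one_ne_zero (congrFun he 1)
  refine ⟨⟨fun h => ⟨?_, hinv h⟩, fun h => ?_⟩, ⟨fun h g n => ⟨hinv h g n, ?_⟩, fun h => ?_⟩⟩
  · obtain ⟨e, he, he2⟩ := h
    exact (H5.sq_eq_index_iff_vanish hχ hϑ he).mp he2
  · obtain ⟨e, -, -, he⟩ := H5.exists_restrict_eq_smul_of_invt hχ hϑ h.2 hcon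
    exact ⟨e, he, (H5.sq_eq_index_iff_vanish hχ hϑ he).mpr h.1⟩
  · obtain ⟨e, he, he2⟩ := h
    intro ψ hψ h1
    rw [(H5.sq_eq_index_iff_indFun hχ hϑ he).mp he2, H4.classInner_smul_left] at h1
    exact (hχ.eq_of_classInner_ne_zero hψ (right_ne_zero_of_mul h1)).symm
  · obtain ⟨e, -, he1, he⟩ := H5.exists_restrict_eq_smul_of_invt hχ hϑ (fun g n => (h g n).1) hcon
    refine ⟨e, he, (H5.sq_eq_index_iff_indFun hχ hϑ he).mpr ?_⟩
    refine (H4.isClassFunction_indFun ϑ).ext_classInner (hχ.isClassFunction.smul _) fun ψ hψ => ?_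
    rw [H4.classInner_smul_left]
    by_cases hψχ : ψ = χ
    · rw [hψχ, hχ.classInner_self, mul_one, H4.classInner_indFun_left _ hχ.isClassFunction,
        hϑ.isCharacter.classInner_comm (hχ.isCharacter.restrict N), he1]
    · rw [hχ.classInner_eq_zero_of_ne hψ (Ne.symm hψχ), mul_zero]
      by_contra h2
      exact hψχ ((h 1 1).2 ψ hψ h2)

end Cfsg.Agent.S0900
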