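import Cfsg.Statements.S1644
import Cfsg.Agent.H4.J1Id

set_option autoImplicit false
open Cfsg

namespace Cfsg.Agent.S1644

/-- The first Janko group recognised by an involution centraliser, at the level of isomorphism: a finite simple group with abelian Sylow 2-subgroups of order 8 and an involution whose centraliser is isomorphic to Z/2 × A₅ is isomorphic to the subgroup of GL(7, 11) generated by the two explicit Janko matrices. -/
theorem result {G : Type*} [Group G] [Finite G] [IsSimpleGroup G] (S : Sylow 2 G) (hS : IsMulCommutative (S : Subgroup G)) (h8 : Nat.card S = 8) (t : G) (ht : orderOf t = 2) (e : (Subgroup.centralizer ({t} : Set G)) ≃* Multiplicative (ZMod 2) × alternatingGroup (Fin 5)) : Cfsg.Spor.IsoJ1 G := by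
  have h16 : ¬ 16 ∣ Nat.card G := fun h => by
    have h1 : 2 ^ 4 ∣ Nat.card S := S.pow_dvd_card_of_pow_dvd_card h
    rw [h8] at h1
    omega
  have h2 : Nat.card G ≠ 2 := fun h => by
    have h1 := (S : Subgroup G).card_subgroup_dvd_card
    rw [h, h8] at h1
    omega
  obtain ⟨f, hf⟩ := H4.exists_jc (H4.JC.index_ne_two h2) h16 ht e
  exact hf.isoJ1

end Cfsg.Agent.S1644
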