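import Cfsg.Statements.S1650
import Cfsg.Agent.H6.HNR.T3

set_option autoImplicit false
open Cfsg

namespace Cfsg.Agent.S1650

/-- The Harada–Norton group from an involution centraliser: if a finite simple group has an involution t whose centraliser has a normal subgroup M of index 2, containing its own centraliser in the involution centraliser, which is a non-split double cover of the Higman–Sims group, then the group has exactly two conjugacy classes of involutions and order 2^14·3^6·5^6·7·11·19. -/
theorem result {G : Type*} [Group G] [Finite G] [IsSimpleGroup G] (t : G) (ht : orderOf t = 2) (M : Subgroup (Subgroup.centralizer ({t} : Set G))) [M.Normal] (hM : M.index = 2) (hout : Subgroup.centralizer (M : Set (Subgroup.centralizer ({t} : Set G))) ≤ M) (hcov : Cfsg.IsNonsplitDoubleCover M Cfsg.Spor.HS) : Cfsg.IsHN G ∧ ∃ x y : G, orderOf x = 2 ∧ orderOf y = 2 ∧ ¬ IsConj x y ∧ ∀ z : G, orderOf z = 2 → IsConj z x ∨ IsConj z y := by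
  obtain ⟨Φ, h⟩ := H6.HNR.exists_iso t ht M hM hout hcov
  have o : ∀ x : Spor.HN, x * x = 1 → Φ x ≠ 1 → orderOf (Φ x) = 2 := fun x a b =>
    orderOf_eq_prime (by rw [pow_two, ← map_mul, a, map_one]) b
  have z : Φ H6.HNR.zH ≠ 1 := fun e => H6.HNR.zH_ne (Φ.injective (e.trans (map_one Φ).symm))
  refine ⟨⟨inferInstance, ?_⟩, _, _, o _ H6.HNR.tH_sq fun e => ?_, o _ H6.HNR.zH_sq z, h,
    fun y hy => ?_⟩
  · rw [← Nat.card_congr Φ.toEquiv, H6.HN.main.1]
  · exact H6.HNR.G.τ_ne (H6.HN.θ_inj ((Φ.injective (e.trans (map_one Φ).symm)).trans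
      (map_one _).symm))
  · obtain ⟨x, rfl⟩ := Φ.surjective y
    rcases H6.HNR.two (x := x) (Φ.injective (by
      rw [map_mul, map_one, ← pow_two, ← hy, pow_orderOf_eq_one])) with e | e | e
    · rw [e, map_one, orderOf_one] at hy
      exact absurd hy (by norm_num)
    exacts [Or.inl (Φ.toMonoidHom.map_isConj e).symm, Or.inr (Φ.toMonoidHom.map_isConj e).symm]

end Cfsg.Agent.S1650
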