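import Cfsg.Statements.S1651
import Cfsg.Agent.H5.J2E
import Cfsg.Agent.H5.U33

set_option autoImplicit false
open Cfsg

namespace Cfsg.Agent.S1651

/-- A group of Hall–Janko type contains U₃(3): let a finite simple group have exactly two conjugacy classes of involutions and an involution t whose centraliser C has a normal extraspecial subgroup Q of order 32 with no elementary abelian subgroup of order 8, whose centraliser in C lies in Q, with C / Q isomorphic to the alternating group of degree 5. Then the group has a subgroup isomorphic to PSU(3, 3), realised over a field with 9 elements. -/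
theorem result {G : Type*} [Group G] [Finite G] [IsSimpleGroup G] (t : G) (ht : orderOf t = 2) (Q : Subgroup (Subgroup.centralizer ({t} : Set G))) [Q.Normal] (hQ : Cfsg.IsExtraspecial 2 Q) (hcard : Nat.card Q = 32) (hminus : ∀ E : Subgroup Q, Cfsg.IsElementaryAbelian 2 E → Nat.card E ≤ 2 ^ 2) (h2c : Subgroup.centralizer (Q : Set (Subgroup.centralizer ({t} : Set G))) ≤ Q) (e : (Subgroup.centralizer ({t} : Set G)) ⧸ Q ≃* alternatingGroup (Fin 5)) (htwo : ∃ x y : G, orderOf x = 2 ∧ orderOf y = 2 ∧ ¬ IsConj x y ∧ ∀ z : G, orderOf z = 2 → IsConj z x ∨ IsConj z y) : ∃ (H : Subgroup G) (K : Type) (_ : Field K) (_ : Fintype K), Fintype.card K = 9 ∧ Nonempty (H ≃* Cfsg.PSU 3 K 3) := by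
  obtain ⟨x, y, hx, hy, hxy, -⟩ := htwo
  obtain ⟨φ, ψ, α, F⟩ := H5.exists_JT_simple ht Q hQ hcard h2c e ⟨x, y, hx, hy, hxy⟩
  let σ : List (List ℕ) := [[], [2, 4, 5, 11, 8, 8], [7, 7, 11, 6, 4, 2], [9, 1, 11], [11, 1, 10],
    [2, 5, 7, 10, 2, 7, 2]]
  obtain ⟨π, hπ⟩ := H5.pg_lift (F.main.2.2.good_evS (σ := σ) (inv := 5510510215680)
    (by decide +kernel)) (F.main.2.2.rels_evS (R := H5.PU.R) (by decide +kernel))
  have h1 : π (H5.UG.ev 3) ≠ 1 := by
    rw [H5.UG.ev, hπ]
    exact F.act.ne_one (w := [9, 1, 11]) (p := 1) (by decide +kernel)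
  obtain ⟨e'⟩ := H5.UG.iso_psu
  exact ⟨π.range, H5.UG.F9, inferInstance, inferInstance, H5.UG.card_F9,
    ⟨(MonoidHom.ofInjective (H6.injective_of_simple π h1)).symm.trans e'⟩⟩

end Cfsg.Agent.S1651
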