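import Cfsg.Statements.S1653
import Cfsg.Agent.H5.HeF
import Cfsg.Agent.S1682

set_option autoImplicit false
open Cfsg

namespace Cfsg.Agent.S1653

theorem transport {A G M : Type*} [Group A] [Group G] [Group M] (π : A ≃* G) {H : Subgroup A}
    {N : Subgroup H} (h1 : N.Normal) (h2 : N.index = 2) (f : N ≃* M) :
    ∃ (H : Subgroup G) (N : Subgroup H), N.Normal ∧ N.index = 2 ∧ Nonempty (N ≃* M) :=
  let g := π.subgroupMap H
  ⟨_, N.map g.toMonoidHom, h1.map _ g.surjective,
    by rw [Subgroup.index_map_of_bijective g.bijective, h2], ⟨(g.subgroupMap N).symm.trans f⟩⟩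

/-- A group of Held type contains Sp₄(4):2: let a finite simple group of order 4030387200 have exactly two conjugacy classes of involutions and an involution t whose centraliser C has a normal subgroup Q, extraspecial of order 2 ^ 7 with an elementary abelian subgroup of order 16, whose centraliser in C lies in Q, such that C / Q is isomorphic to SL(3, 2). Then some subgroup H has a normal subgroup of index 2 isomorphic to the symplectic group of dimension 4 over a field with 4 elements. -/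
theorem result {G : Type*} [Group G] [Finite G] [IsSimpleGroup G] (t : G) (ht : orderOf t = 2) (Q : Subgroup (Subgroup.centralizer ({t} : Set G))) [Q.Normal] (hQ : Cfsg.IsExtraspecial 2 Q) (hcard : Nat.card Q = 2 ^ 7) (hplus : ∃ E : Subgroup Q, Cfsg.IsElementaryAbelian 2 E ∧ Nat.card E = 2 ^ 4) (h2c : Subgroup.centralizer (Q : Set (Subgroup.centralizer ({t} : Set G))) ≤ Q) (e : (Subgroup.centralizer ({t} : Set G)) ⧸ Q ≃* Matrix.SpecialLinearGroup (Fin 3) (ZMod 2)) (hG : Nat.card G = 4030387200) (htwo : ∃ x y : G, orderOf x = 2 ∧ orderOf y = 2 ∧ ¬ IsConj x y ∧ ∀ z : G, orderOf z = 2 → IsConj z x ∨ IsConj z y) : ∃ (H : Subgroup G) (N : Subgroup H) (K : Type) (_ : Field K) (_ : Fintype K), N.Normal ∧ N.index = 2 ∧ Fintype.card K = 4 ∧ Nonempty (N ≃* Matrix.symplecticGroup (Fin 2) K) := by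
  obtain ⟨x, y, -, -, -, h⟩ := htwo
  obtain ⟨π⟩ := Cfsg.H5.He.he_equiv ht Q hQ hcard h2c e hG ⟨x, y, h⟩
  obtain ⟨N, K, i1, i2, h1, h2, h3, ⟨f⟩⟩ := Cfsg.Agent.S1682.result
  obtain ⟨H, N', h4, h5, h6⟩ := transport π h1 h2 f
  exact ⟨H, N', K, i1, i2, h4, h5, h3, h6⟩

end Cfsg.Agent.S1653
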