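import Cfsg.Statements.S1656
import Cfsg.Agent.H6.HNR.T3

set_option autoImplicit false
open Cfsg

namespace Cfsg.Agent.S1656

/-- A group of Harada–Norton type contains A₁₂: if a finite simple group has an involution whose centraliser has a normal subgroup M of index 2, containing its own centraliser in the involution centraliser, which is a non-split double cover of the Higman–Sims group, then it has a subgroup isomorphic to the alternating group of degree 12. -/
theorem result {G : Type*} [Group G] [Finite G] [IsSimpleGroup G] (t : G) (ht : orderOf t = 2) (M : Subgroup (Subgroup.centralizer ({t} : Set G))) [M.Normal] (hM : M.index = 2) (hout : Subgroup.centralizer (M : Set (Subgroup.centralizer ({t} : Set G))) ≤ M) (hcov : Cfsg.IsNonsplitDoubleCover M Cfsg.Spor.HS) : ∃ H : Subgroup G, Nonempty (H ≃* alternatingGroup (Fin 12)) := by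
  obtain ⟨Φ, _⟩ := H6.HNR.exists_iso t ht M hM hout hcov
  exact H6.HNR.exists_alt Φ

end Cfsg.Agent.S1656
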