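import Cfsg.Statements.S1658
import Cfsg.Agent.H5.J3D
import Cfsg.Agent.H5.J3.Iso

set_option autoImplicit false
open Cfsg

namespace Cfsg.Agent.S1658

/-- Uniqueness of the third Janko group at the level of isomorphism: a finite simple group with one conjugacy class of involutions, having an involution t whose centraliser C has a normal extraspecial subgroup Q of order 32 with no elementary abelian subgroup of order 8 whose centraliser in C lies in Q, and with C / Q isomorphic to the alternating group of degree 5, is isomorphic to the third Janko group J₃ (the explicit matrix group over the field with four elements modulo its centre). -/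
theorem result {G : Type*} [Group G] [Finite G] [IsSimpleGroup G] (t : G) (ht : orderOf t = 2) (Q : Subgroup (Subgroup.centralizer ({t} : Set G))) [Q.Normal] (hQ : Cfsg.IsExtraspecial 2 Q) (hcard : Nat.card Q = 32) (hminus : ∀ E : Subgroup Q, Cfsg.IsElementaryAbelian 2 E → Nat.card E ≤ 2 ^ 2) (h2c : Subgroup.centralizer (Q : Set (Subgroup.centralizer ({t} : Set G))) ≤ Q) (e : (Subgroup.centralizer ({t} : Set G)) ⧸ Q ≃* alternatingGroup (Fin 5)) (hone : ∀ x y : G, orderOf x = 2 → orderOf y = 2 → IsConj x y) : Cfsg.Spor.IsoJ3 G := by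
  obtain ⟨π⟩ := Cfsg.H5.j3_equiv ht Q hQ hcard h2c e hone
  obtain ⟨f⟩ := Cfsg.H6.J3.iso
  exact ⟨Cfsg.H6.F4, inferInstance, inferInstance, Cfsg.H6.F4.mk 2, Cfsg.H6.F4.card,
    by decide +kernel, ⟨π.symm.trans f⟩⟩

end Cfsg.Agent.S1658
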