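import Cfsg.Statements.S1677
import Cfsg.Agent.Co.W5

set_option autoImplicit false
open Cfsg

namespace Cfsg.Agent.S1677

/-- The first Conway group from an involution centraliser: let G be a finite group with no non-trivial normal subgroup of odd order and trivial centre, and let t be an involution whose centraliser C is 2-constrained with O₂(C) extraspecial of order 2 ^ 9 and C / O₂(C) isomorphic to Ω⁺(8, 2), the commutator subgroup of the isometry group of the hyperbolic quadratic form in dimension 8 over the field with 2 elements. Then G is isomorphic to the first Conway group (the Leech lattice automorphism group modulo its centre). -/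
theorem result {G : Type*} [Group G] [Finite G] (hO : Cfsg.oddCore G = ⊥) (hZ : Subgroup.center G = ⊥) (t : G) (ht : orderOf t = 2) (hcon : Cfsg.IsPConstrained 2 (Subgroup.centralizer ({t} : Set G))) (hQ : Cfsg.IsExtraspecial 2 (Cfsg.pCore 2 (Subgroup.centralizer ({t} : Set G)))) (hcard : Nat.card (Cfsg.pCore 2 (Subgroup.centralizer ({t} : Set G))) = 2 ^ 9) (e : (Subgroup.centralizer ({t} : Set G)) ⧸ Cfsg.pCore 2 (Subgroup.centralizer ({t} : Set G)) ≃* Cfsg.Omega (ZMod 2) (Cfsg.quadFormPlus 4 (ZMod 2))) : Cfsg.Spor.IsoCo1 G := by
  exact (Cfsg.Co.Rc.es_of ht _ (Cfsg.Co.Rc.cen_le hcon e) hQ hcard e).iso_of hO hZ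

end Cfsg.Agent.S1677
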