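import Cfsg.Statements.S1678
import Cfsg.Agent.Co3.E
import Cfsg.Agent.Co3.F3
import Cfsg.Agent.Co.F2

set_option autoImplicit false
open Cfsg

namespace Cfsg.Agent.S1678

/-- The third Conway group from an involution centraliser: let G be a finite group with no non-trivial normal subgroup of odd order and trivial centre, having an involution t whose centraliser is a non-split double cover of the symplectic group Sp(6, 2). Then G is isomorphic to the third Conway group (the stabiliser in the Leech lattice automorphism group of a vector of the second shortest length). -/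
theorem result {G : Type*} [Group G] [Finite G] (hO : Cfsg.oddCore G = ⊥) (hZ : Subgroup.center G = ⊥) (t : G) (ht : orderOf t = 2) (hC : Cfsg.IsNonsplitDoubleCover (Subgroup.centralizer ({t} : Set G)) (Matrix.symplecticGroup (Fin 3) (ZMod 2))) : Cfsg.Spor.IsoCo3 G := by
  obtain ⟨h1, h2, ⟨e⟩⟩ := Co3U.exists_equiv
  obtain ⟨Φ, hi, a1, a2, a3, a4, a5⟩ := Co3G.gside h1 hO hZ ht hC
  let Ψ : Spor.Co3 →* G := Φ.comp e.symm.toMonoidHom
  have k : ∀ x, Ψ (e x) = Φ x := fun x => congrArg Φ (e.symm_apply_apply x)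
  have hΨ : Function.Injective Ψ := hi.comp e.symm.injective
  have hs := Co.surj3' h2 Ψ hΨ (e (H6.Co3.G.ev 15)) (e (H6.Co3.G.ev 16))
    (e (H6.Co3.G.θ Co3G.vI))
    (by rw [← orderOf_injective Ψ hΨ, k, a1, ht])
    (by
      rw [k, a1]
      intro x hx
      obtain ⟨y, rfl⟩ := a2 hx
      exact ⟨e y, k y⟩)
    (by rw [k, a1, a3]) (by rw [k, k, k, a1]; exact a4) (by rw [k, k, a1]; exact a5)
    (e.toMonoidHom.map_isConj Co3G.conj_ty.1)
    (by rw [← map_mul]; exact e.toMonoidHom.map_isConj Co3G.conj_ty.2)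
  exact ⟨(MulEquiv.ofBijective Ψ ⟨hΨ, hs⟩).symm⟩

end Cfsg.Agent.S1678
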