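import Cfsg.Statements.S1685
import Cfsg.Agent.H6.Fi22.Main

set_option autoImplicit false
open Cfsg

namespace Cfsg.Agent.S1685

/-- In the presented Fischer group Fi₂₂ (generators a, …, i), the subgroup generated by the images of b, c, d, e, f, g, h, i has index 14080. -/
theorem result : (((Subgroup.closure ({Cfsg.Spor.Fi22.b, Cfsg.Spor.Fi22.c, Cfsg.Spor.Fi22.d, Cfsg.Spor.Fi22.e, Cfsg.Spor.Fi22.f, Cfsg.Spor.Fi22.g, Cfsg.Spor.Fi22.h, Cfsg.Spor.Fi22.i} : Set (FreeGroup Cfsg.Spor.Fi22.Gen))).map (PresentedGroup.mk (Cfsg.Spor.coxRelators Cfsg.Spor.Fi22.edges ∪ {r | r ∈ Cfsg.Spor.Fi22.extra})))).index = 14080 := by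
  rw [H6.map_closure_eq_gen H6.Fi22.hP H6.Fi22.hidx [Spor.Fi22.b, Spor.Fi22.c, Spor.Fi22.d, Spor.Fi22.e, Spor.Fi22.f, Spor.Fi22.g, Spor.Fi22.h, Spor.Fi22.i] (by ext; simp) (Ws := H6.Y332.C2.X) (by decide +kernel)]
  have := H6.Fi22.finite
  exact (H6.exact_of_cover (H6.Fi22.hX ▸ H6.Y332.C1.cover H6.Fi22.hev (H6.Y332.rels_R H6.Fi22.hR2))
    (H6.Y332.ubB' H6.Fi22.hev H6.Fi22.hR2) H6.Fi22.main.1).1

end Cfsg.Agent.S1685
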