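import Cfsg.Statements.S1717
import Cfsg.Agent.H8.Essential

set_option autoImplicit false
set_option linter.style.haveILetI false
set_option linter.unusedVariables false
open Cfsg

namespace Cfsg.Agent.S1717

open Subgroup

/-- The elements of the extraspecial group `2^(1+6)` in `SL₅(2)`. -/
def mat (a b : Fin 3 → ZMod 2) (c : ZMod 2) : Matrix (Fin 5) (Fin 5) (ZMod 2) :=
  !![1, c, a 0, a 1, a 2; 0, 1, 0, 0, 0; 0, b 0, 1, 0, 0; 0, b 1, 0, 1, 0; 0, b 2, 0, 0, 1]

theorem mat_mul (a b a' b' : Fin 3 → ZMod 2) (c c' : ZMod 2) :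
    mat a b c * mat a' b' c' =
      mat (a + a') (b + b') (c + c' + (a 0 * b' 0 + a 1 * b' 1 + a 2 * b' 2)) := by
  ext i j
  fin_cases i <;> fin_cases j <;> simp [mat, Matrix.mul_apply, Fin.sum_univ_five] <;> ring

theorem mat_zero : mat 0 0 0 = 1 := by
  ext i j
  fin_cases i <;> fin_cases j <;> simp [mat]

theorem mat_s : mat 0 0 1 = Matrix.transvection 0 1 1 := by
  ext i j
  fin_cases i <;> fin_cases j <;> simp [mat, Matrix.transvection]

theorem add_self' (a : Fin 3 → ZMod 2) : a + a = 0 := by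
  funext i; exact CharTwo.add_self_eq_zero (a i)

theorem mat_pow (a b : Fin 3 → ZMod 2) (c : ZMod 2) : mat a b c ^ 4 = 1 := by
  rw [show 4 = 2 * 2 from rfl, pow_mul, pow_two, pow_two, mat_mul, add_self', add_self', mat_mul,
    ← mat_zero]
  simp [CharTwo.add_self_eq_zero]

theorem mat_det (a b : Fin 3 → ZMod 2) (c : ZMod 2) : (mat a b c).det = 1 := by
  have h := congrArg Matrix.det (mat_pow a b c)
  rw [Matrix.det_pow, Matrix.det_one] at h
  revert h
  generalize (mat a b c).det = d
  revert d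
  decide

/-- The extraspecial subgroup. -/
def Q : Subgroup (Matrix.SpecialLinearGroup (Fin 5) (ZMod 2)) :=
  H8.mkSub {g | ∃ a b c, (g : Matrix (Fin 5) (Fin 5) (ZMod 2)) = mat a b c} ⟨0, 0, 0, mat_zero.symm⟩
    (by
      rintro g ⟨a, b, c, h⟩ g' ⟨a', b', c', h'⟩
      exact ⟨_, _, _, by rw [Matrix.SpecialLinearGroup.coe_mul, h, h', mat_mul]⟩)

theorem isPGroup_Q : IsPGroup 2 Q := H8.isPGroup_iff_forall.2 (by
  rintro g ⟨a, b, c, h⟩
  refine ⟨2, Subtype.ext ?_⟩
  rw [Matrix.SpecialLinearGroup.coe_pow, h]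
  exact mat_pow a b c)

theorem eq_of_comm (g : Matrix (Fin 5) (Fin 5) (ZMod 2)) (hd : g.det = 1)
    (h : ∀ a b c, mat a b c * g = g * mat a b c) : g = 1 ∨ g = mat 0 0 1 := by
  have h0 := h 0 0 1
  have h1 := h ![1, 0, 0] 0 0
  have h2 := h ![0, 1, 0] 0 0
  have h3 := h ![0, 0, 1] 0 0
  have h4 := h 0 ![1, 0, 0] 0
  have h5 := h 0 ![0, 1, 0] 0
  have h6 := h 0 ![0, 0, 1] 0
  simp only [← Matrix.ext_iff, Fin.forall_fin_succ, mat, Matrix.mul_apply, Fin.sum_univ_five]
    at h0 h1 h2 h3 h4 h5 h6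
  simp at h0 h1 h2 h3 h4 h5 h6
  have e : g = g 0 0 • mat 0 0 0 + Matrix.single 0 1 (g 0 1) := by
    ext i j
    fin_cases i <;> fin_cases j <;> simp [mat] <;>
      first
        | simp only [h0, h1, h2, h3, h4, h5, h6]
        | linear_combination h0.1.2.1
        | linear_combination h1.1.2.2.1
        | linear_combination h2.1.2.2.2.1
        | linear_combination h3.1.2.2.2.2
  have e0 : g 0 0 = 1 := by
    have : ∀ x : ZMod 2, x = 0 ∨ x = 1 := by decide
    rcases this (g 0 0) with h7 | h7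
    · rw [h7, zero_smul, zero_add] at e
      rw [e, Matrix.det_eq_zero_of_column_eq_zero 0 (by simp)] at hd
      exact absurd hd (by decide)
    · exact h7
  rw [e0, one_smul, mat_zero] at e
  have : ∀ x : ZMod 2, x = 0 ∨ x = 1 := by decide
  rcases this (g 0 1) with h7 | h7
  · left; rw [e, h7]; simp
  · right; rw [e, h7, mat_s]; rfl

/-- Let G be a finite group with an involution z whose centraliser C is isomorphic to the centraliser of a transvection of SL(5, 2). Then a Sylow 2-subgroup of C, viewed in G, is a Sylow 2-subgroup of G (its index in G is odd). -/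
theorem result {G : Type*} [Group G] [Finite G] (s : Matrix.SpecialLinearGroup (Fin 5) (ZMod 2)) (hs : (s : Matrix (Fin 5) (Fin 5) (ZMod 2)) = Matrix.transvection 0 1 1) (z : G) (hz : orderOf z = 2) (e : (Subgroup.centralizer ({z} : Set G)) ≃* Subgroup.centralizer ({s} : Set (Matrix.SpecialLinearGroup (Fin 5) (ZMod 2)))) (T : Sylow 2 (Subgroup.centralizer ({z} : Set G))) : ¬ 2 ∣ ((T : Subgroup (Subgroup.centralizer ({z} : Set G))).map (Subgroup.subtype (Subgroup.centralizer ({z} : Set G)))).index := by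
  haveI : Fact (Nat.Prime 2) := ⟨Nat.prime_two⟩
  let C := centralizer ({z} : Set G)
  let z' : C := ⟨z, mem_centralizer_singleton_iff.2 rfl⟩
  have hz1 : z ≠ 1 := by rintro rfl; simp at hz
  have hzc : ∀ x : C, x * z' = z' * x := fun x => Subtype.ext (mem_centralizer_singleton_iff.1 x.2)
  let P : Subgroup C := (Q.subgroupOf _).comap e.toMonoidHom
  have hP : IsPGroup 2 P := isPGroup_Q.comap_subtype.comap_of_injective _ e.injective
  have h1 : ∀ x : C, x ∈ centralizer (P : Set C) → e x = 1 ∨ (e x : _) = s := by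
    intro x hx
    have := eq_of_comm ((e x : _) : Matrix.SpecialLinearGroup (Fin 5) (ZMod 2))
      (Matrix.SpecialLinearGroup.det_coe _) fun a b c => by
        let q : Matrix.SpecialLinearGroup (Fin 5) (ZMod 2) := ⟨mat a b c, mat_det a b c⟩
        have hq : q ∈ centralizer ({s} : Set _) := by
          rw [mem_centralizer_singleton_iff]
          apply Subtype.ext
          rw [Matrix.SpecialLinearGroup.coe_mul, Matrix.SpecialLinearGroup.coe_mul, hs, ← mat_s]
          change mat a b c * _ = _ * mat a b c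
          rw [mat_mul, mat_mul]; simp [add_comm]
        have h2 : e.symm ⟨q, hq⟩ ∈ P := by
          change ((e (e.symm ⟨q, hq⟩) : _) : Matrix.SpecialLinearGroup (Fin 5) (ZMod 2)) ∈ Q
          rw [e.apply_symm_apply]; exact ⟨a, b, c, rfl⟩
        have h3 := congrArg e (mem_centralizer_iff.1 hx _ h2)
        rw [map_mul, map_mul, e.apply_symm_apply] at h3
        exact congrArg (fun u : centralizer ({s} : Set _) =>
          ((u : Matrix.SpecialLinearGroup (Fin 5) (ZMod 2)) : Matrix (Fin 5) (Fin 5) (ZMod 2))) h3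
    rcases this with h | h
    · exact Or.inl (Subtype.ext (Subtype.ext h))
    · exact Or.inr (Subtype.ext (by rw [h, hs, mat_s]))
  have h2 : (e z' : _) = s := by
    refine (h1 z' (mem_centralizer_iff.2 fun y _ => hzc y)).resolve_left fun h => hz1 ?_
    rw [map_eq_one_iff e e.injective] at h
    exact congrArg Subtype.val h
  have hT := H8.isSyl_sylow T
  have h3 : ∀ x : C, x ∈ centralizer ((T : Subgroup C) : Set C) → x = 1 ∨ x = z' := by
    intro x hx
    obtain ⟨g, -, hg⟩ := hT.exists_cj_le hP le_top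
    have h4 : g⁻¹ * x * g ∈ centralizer (P : Set C) := by
      rw [mem_centralizer_iff]
      intro y hy
      have := mem_centralizer_iff.1 hx _ (hg (L0.conj_mem_cj hy))
      calc y * (g⁻¹ * x * g) = g⁻¹ * (g * y * g⁻¹ * x) * g := by group
        _ = _ := by rw [this]; group
    rcases h1 _ h4 with h | h
    · left
      rw [map_eq_one_iff e e.injective] at h
      calc x = g * (g⁻¹ * x * g) * g⁻¹ := by group
        _ = 1 := by rw [h]; group
    · right
      have h5 : g⁻¹ * x * g = z' := e.injective (Subtype.ext (h.trans h2.symm))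
      calc x = g * (g⁻¹ * x * g) * g⁻¹ := by group
        _ = z' := by rw [h5, hzc]; group
  have hS := H8.isSyl_map_subtype T
  let S := (T : Subgroup C).map C.subtype
  change H8.IsSyl 2 S C at hS
  change ¬ 2 ∣ S.index
  have hzS : z ∈ S := hS.mem_of_mem_normalizer z'.2 ⟨1, by rw [pow_one, ← hz, pow_orderOf_eq_one]⟩
    (centralizer_le_normalizer _ (mem_centralizer_iff.2 fun y hy =>
      mem_centralizer_singleton_iff.1 (hS.le hy)))
  obtain ⟨R, hR, hSR⟩ := H8.exists_isSyl_ge hS.isPGroup (le_top (a := S))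
  by_cases hne : S = R
  · have := hR.not_dvd
    rwa [relIndex_top_right, ← hne] at this
  exfalso
  obtain ⟨x, hxR, hxN, hxS⟩ := H8.exists_mem_normalizer_not_mem hR.isPGroup hSR hne
  have h5 : x * z * x⁻¹ ∈ S := (mem_normalizer_iff.1 hxN z).1 hzS
  have h6 := h3 ⟨_, hS.le h5⟩ (mem_centralizer_iff.2 fun y hy => Subtype.ext (by
    have h7 : x⁻¹ * y * x ∈ S := (mem_normalizer_iff''.1 hxN y).1 ⟨y, hy, rfl⟩
    have h8 := mem_centralizer_singleton_iff.1 (hS.le h7)
    change (y : G) * (x * z * x⁻¹) = x * z * x⁻¹ * y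
    calc (y : G) * (x * z * x⁻¹) = x * (x⁻¹ * y * x * z) * x⁻¹ := by group
      _ = _ := by rw [h8]; group))
  have hxC : x ∈ C := by
    rcases h6 with h | h
    · exact absurd (by simpa using congrArg Subtype.val h) hz1
    · have h7 : x * z * x⁻¹ = z := congrArg Subtype.val h
      rw [mem_centralizer_singleton_iff, ← mul_inv_eq_iff_eq_mul, h7]
  exact hxS (hS.mem_of_mem_normalizer hxC (H8.isPGroup_iff_forall.1 hR.isPGroup x hxR) hxN)

end Cfsg.Agent.S1717
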