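import Cfsg.Statements.S1718
import Cfsg.Agent.Co.B2
import Cfsg.Agent.Co.B3
import Cfsg.Agent.Co.C5
import Cfsg.Agent.L0.Components

set_option autoImplicit false
open Cfsg

namespace Cfsg.Agent.S1718

/-- Uniqueness of the first Conway group under the large-extraspecial hypothesis: let G be a finite group with an involution z whose centraliser C has generalised Fitting subgroup Q extraspecial of order 2 ^ 9, with C / Q isomorphic to Ω⁺(8, 2) (the commutator subgroup of the isometry group of the hyperbolic quadratic form in dimension 8 over the field with 2 elements), and suppose some conjugate of z different from z lies in Q. Then G is isomorphic to the first Conway group. -/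
theorem result {G : Type*} [Group G] [Finite G] (z : G) (hz : orderOf z = 2) (Q : Subgroup (Subgroup.centralizer ({z} : Set G))) [Q.Normal] (hF : Cfsg.generalizedFittingSubgroup (Subgroup.centralizer ({z} : Set G)) = Q) (hQ : Cfsg.IsExtraspecial 2 Q) (hcard : Nat.card Q = 2 ^ 9) (e : (Subgroup.centralizer ({z} : Set G)) ⧸ Q ≃* Cfsg.Omega (ZMod 2) (Cfsg.quadFormPlus 4 (ZMod 2))) (hnwc : ∃ g : G, (∃ hq : g * z * g⁻¹ ∈ Subgroup.centralizer ({z} : Set G), (⟨g * z * g⁻¹, hq⟩ : Subgroup.centralizer ({z} : Set G)) ∈ Q) ∧ g * z * g⁻¹ ≠ z) : Cfsg.Spor.IsoCo1 G := by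
  have E := Cfsg.Co.Rc.es_of hz Q (hF ▸ L0.centralizer_fstar_le _) hQ hcard e
  obtain ⟨c, ⟨hq, h1⟩, h2⟩ := hnwc
  obtain ⟨g, rfl, h⟩ := E.amal (c := c) ⟨_, h1, rfl⟩ h2
  exact h.iso E

end Cfsg.Agent.S1718
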