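import Cfsg.Statements.S1824
import Cfsg.Agent.QR.A3

set_option autoImplicit false
open Cfsg

namespace Cfsg.Agent.S1824

/-- The qrc-lemma in the form used for simple QTKE-groups. Let G be a non-abelian finite simple QTKE-group, T a Sylow 2-subgroup of G and M a maximal 2-local subgroup of G containing T. Let T ≤ M₀ ≤ M, let H be a minimal member of the set of subgroups of G with nontrivial 2-core that contain T and are not contained in M, and let V be a 2-reduced elementary abelian normal 2-subgroup of M₀ with O₂(M₀) = C_T(V). Suppose H ∩ M normalizes O²(M₀) or normalizes V. Then one of the following holds: (1) some nontrivial subgroup of O₂(M₀) is normalized by both M₀ and H; (2) V ≰ O₂(H) and q̂(M₀/C_{M₀}(V), V) ≤ 2; (3) q(M₀/C_{M₀}(V), V) ≤ 2. Here q (resp. q̂) ≤ 2 means that some subgroup of M₀ inducing a nontrivial elementary abelian 2-group A on V acts quadratically (resp. cubically) on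 V with |V : C_V(A)| ≤ |A|². -/
theorem result {G : Type*} [Group G] [Finite G] [IsSimpleGroup G]
    (hG : ¬ IsMulCommutative G) (hQ : Cfsg.IsQTKE G) (T : Sylow 2 G) (M M₀ H V : Subgroup G)
    (hM : M ∈ Cfsg.maxTwoLocalsContaining (T : Subgroup G))
    (hTM₀ : (T : Subgroup G) ≤ M₀) (hM₀M : M₀ ≤ M) (hH : H ∈ Cfsg.calHMin (T : Subgroup G) M)
    (hV : V ∈ Cfsg.calR2 M₀)
    (hR : (Cfsg.pCore 2 ↥M₀).map M₀.subtype = (T : Subgroup G) ⊓ Subgroup.centralizer (V : Set G))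
    (hI : H ⊓ M ≤ Subgroup.normalizer (Cfsg.oddGenerated M₀ : Set G) ∨
      H ⊓ M ≤ Subgroup.normalizer (V : Set G)) :
    (∃ R₀ : Subgroup G, R₀ ≠ ⊥ ∧ R₀ ≤ (Cfsg.pCore 2 ↥M₀).map M₀.subtype ∧
        M₀ ⊔ H ≤ Subgroup.normalizer (R₀ : Set G)) ∨
      (¬ V ≤ (Cfsg.pCore 2 ↥H).map H.subtype ∧ Cfsg.CubicParamLE M₀ V 2) ∨
      Cfsg.QuadParamLE M₀ V 2 := by
  have h := H7.ec_of hQ.2.2 T
  obtain ⟨⟨⟨h1, h2⟩, h3⟩, h4⟩ := hH
  have h5 : pCoreOf 2 H ≠ ⊥ := fun e => h1 (H7.pCoreOf_eq_bot_iff.mp e)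
  obtain ⟨⟨⟨P, p1, p2, p3⟩, -⟩, p4⟩ := hM
  rw [H7.oddGenerated_eq] at hI
  simp only [H7.pCoreOf_def] at hR ⊢
  refine QR.qrc h (h.char p4 p1 p2 p3.le) hTM₀ hM₀M
    (h.char h2 (H7.isPGroup_pCoreOf 2 H) h5 (H7.le_normalizer_pCoreOf 2 H))
    ⟨le_inf h2 p4, lt_of_le_not_ge inf_le_left fun k => h3 (k.trans inf_le_right),
      fun X x1 x2 => le_inf x2.le (by_contra fun k => x2.ne (h4 X ⟨⟨fun e => h5 ?_, x1⟩, k⟩ x2.le))⟩
    hV.1 hV.2.1 hV.2.2.1 hR hI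
  exact eq_bot_iff.mpr ((H7.pCoreOf_le_pCoreOf_of_le x2.le
    ((H7.pCoreOf_le_sylow T h2).trans x1)).trans (H7.pCoreOf_eq_bot_iff.mpr e).le)

end Cfsg.Agent.S1824
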