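import Cfsg.Statements.S1829
import Cfsg.Agent.H8.QW5

set_option autoImplicit false
open Cfsg

namespace Cfsg.Agent.S1829

open Subgroup Cfsg.L0 Cfsg.H8
open scoped commutatorElement


/-- There is no non-abelian finite simple QTKE-group G with a Sylow 2-subgroup T and a maximal 2-local subgroup M containing T such that M is isomorphic to the wreath product S₄ ≀ Z₂ (the subgroup of the symmetric group of degree 8 preserving a partition into two blocks of size 4; order 1152). -/
theorem result {G : Type*} [Group G] [Finite G] [IsSimpleGroup G]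
    (hG : ¬ IsMulCommutative G) (hQ : Cfsg.IsQTKE G) (T : Sylow 2 G) (M : Subgroup G)
    (hM : M ∈ Cfsg.maxTwoLocalsContaining (T : Subgroup G))
    (hW : Nonempty (↥M ≃* ↥Cfsg.blockStabilizerS4wr2)) : False := by
  obtain ⟨e⟩ := hW
  refine QW.main (H4.index_ne_two_of_perfect ?_) (hQ.1 3 (by norm_num) (by norm_num)) hQ.2.2 T
    (M.subtype.comp e.symm.toMonoidHom) (Subtype.val_injective.comp e.symm.injective)
    fun x hx => ⟨e ⟨x, hM.2 hx⟩, by simp⟩
  refine (IsSimpleGroup.eq_bot_or_eq_top_of_normal (commutator G) inferInstance).resolve_left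
    fun h => hG ⟨⟨fun a b => ?_⟩⟩
  have : ⁅a, b⁆ ∈ commutator G := commutator_mem_commutator (mem_top a) (mem_top b)
  rw [h, mem_bot] at this
  exact commutatorElement_eq_one_iff_mul_comm.mp this

end Cfsg.Agent.S1829
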