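import Cfsg.Statements.S1850
import Cfsg.Agent.H7.CharP
-- import your own Cfsg.Agent.* helpers here

set_option autoImplicit false
open Cfsg

namespace Cfsg.Agent.S1850

open Subgroup L0 H7 in
theorem key {G : Type*} [Group G] [Finite G] {Z U : Subgroup G} (h : SN Z U) (hU : IsPGroup 2 U)
    (hZ : IsCharP 2 (normalizer (Z : Set G))) : IsCharP 2 (normalizer (U : Set G)) := by
  haveI : Fact (Nat.Prime 2) := ⟨Nat.prime_two⟩
  induction h with
  | refl => exact hZ
  | @step K L _ hKL hn ih =>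
    exact (ih (hU.to_le hKL)).normalizer_of_le hU (hn.trans le_normalizer)
      ((centralizer_le (by exact hKL)).trans (centralizer_le_normalizer _))

/-- Let G be a non-abelian finite simple QTKE-group and T a Sylow 2-subgroup of G. If U is a nontrivial 2-subgroup of G with U ∩ Z(T) ≠ 1, then F*(N_G(U)) = O₂(N_G(U)). -/
theorem result {G : Type*} [Group G] [Finite G] [IsSimpleGroup G]
    (hG : ¬ IsMulCommutative G) (hQ : Cfsg.IsQTKE G) (T : Sylow 2 G) (U : Subgroup G)
    (hU : IsPGroup 2 ↥U) (hZ : U ⊓ ((T : Subgroup G) ⊓ Subgroup.centralizer ((T : Subgroup G) : Set G)) ≠ ⊥) :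
    Subgroup.normalizer (U : Set G) ∈ Cfsg.calHe G := by
  haveI : Fact (Nat.Prime 2) := ⟨Nat.prime_two⟩
  set Z := U ⊓ ((T : Subgroup G) ⊓ Subgroup.centralizer ((T : Subgroup G) : Set G)) with hZd
  have hZp : IsPGroup 2 Z := hU.to_le inf_le_left
  have h1 : H7.IsCharP 2 (Subgroup.normalizer (Z : Set G)) := by
    rw [H7.isCharP_iff]
    refine hQ.2.2 _ ⟨Z, hZp, hZ, rfl⟩ ⟨T, ?_⟩
    refine le_trans ?_ (Subgroup.centralizer_le_normalizer _)
    rw [Subgroup.le_centralizer_iff]
    exact inf_le_right.trans inf_le_right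
  exact H7.isCharP_iff_fstar.mp (key (L0.sn_of_isPGroup hU inf_le_left) hU h1)

end Cfsg.Agent.S1850
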