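import Cfsg.Statements.S1851
import Cfsg.Agent.H7.Norm
-- import your own Cfsg.Agent.* helpers here

set_option autoImplicit false
open Cfsg

namespace Cfsg.Agent.S1851

section
open Subgroup L0 H7

variable {G : Type*} [Group G] [Finite G] {p : ℕ} [Fact p.Prime]

theorem keyA {L H : Subgroup G} (h : SN L H) (hL : pResidualOf p L = L)
    (hc : L ≤ centralizer (omegaOneCenter p (pCoreOf p H) : Set G)) :
    L ≤ centralizer (omegaOneCenter p (pCoreOf p L) : Set G) := by
  have hRL : pCoreOf p H ≤ normalizer (L : Set G) := by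
    have := pCoreOf_le_normalizer_pResidualOf (p := p) h; rwa [hL] at this
  have hLR : L ≤ normalizer (pCoreOf p H : Set G) := h.le.trans (le_normalizer_pCoreOf p H)
  have hn : normalizer (L : Set G) ≤ normalizer (omegaOneCenter p (pCoreOf p L) : Set G) :=
    (normalizer_le_normalizer_pCoreOf p L).trans (normalizer_le_normalizer_omegaOneCenter p _)
  have := AxB (p := p) (V := omegaOneCenter p (pCoreOf p L)) (D := pCoreOf p H) (R := L)
    ((isPGroup_pCoreOf p L).to_le (omegaOneCenter_le p _)) (hRL.trans hn)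
    (by rw [pResidualOf_eq_bot_of_isPGroup (isPGroup_pCoreOf p H)]; exact bot_le)
    (le_normalizer.trans hn)
    (((commutator_le_inf' hRL hLR).trans (by rw [pCoreOf_eq_inf_of_sn h, inf_comm])).trans
      (le_centralizer_omegaOneCenter p _))
    (by
      rw [le_centralizer_iff] at hc
      refine le_trans ?_ hc
      exact le_omegaOneCenter (inf_le_left.trans ((omegaOneCenter_le p _).trans (pCoreOf_le_of_sn h)))
        inf_le_right (fun x hx => (ea_omegaOneCenter p _).2 x hx.1))
  rwa [hL] at this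

theorem keyB {L H : Subgroup G} (h : SN L H) (hL : pResidualOf p L = L)
    (hc : L ≤ centralizer (omegaOneCenter p (pCoreOf p L) : Set G)) :
    L ≤ centralizer (omegaOneCenter p (pCoreOf p H) : Set G) := by
  have hRL : pCoreOf p H ≤ normalizer (L : Set G) := by
    have := pCoreOf_le_normalizer_pResidualOf (p := p) h; rwa [hL] at this
  have hLW : L ≤ normalizer (omegaOneCenter p (pCoreOf p H) : Set G) :=
    (h.le.trans (le_normalizer_pCoreOf p H)).trans (normalizer_le_normalizer_omegaOneCenter p _)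
  have h1 : ⁅omegaOneCenter p (pCoreOf p H), L⁆ ≤ omegaOneCenter p (pCoreOf p H) ⊓ L :=
    commutator_le_inf' hLW ((omegaOneCenter_le p _).trans hRL)
  have h2 : omegaOneCenter p (pCoreOf p H) ⊓ L ≤ omegaOneCenter p (pCoreOf p L) :=
    le_omegaOneCenter (by rw [pCoreOf_eq_inf_of_sn h]; exact inf_le_inf_right _ (omegaOneCenter_le p _))
      (inf_le_left.trans ((omegaOneCenter_le_centralizer p _).trans
        (centralizer_anti (pCoreOf_le_of_sn h)))) (fun x hx => (ea_omegaOneCenter p _).2 x hx.1)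
  have := pResidualOf_le_centralizer (p := p) (h1.trans h2) (commutator_eq_bot_iff'.mpr hc)
    ((isPGroup_pCoreOf p L).to_le (omegaOneCenter_le p _))
  rwa [hL] at this

theorem oddGenerated_eq (L : Subgroup G) : Cfsg.oddGenerated L = pResidualOf 2 L := by
  rw [pResidualOf_eq_closure, Cfsg.oddGenerated]
  congr 1; ext x; simp [Nat.coprime_two_right]

theorem pResidualOf_eq_of_perfect {L : Subgroup G} (h : ⁅L, L⁆ = L) : pResidualOf p L = L := by
  have h1 : _root_.commutator L = ⊤ := by
    apply Subgroup.map_injective L.subtype_injective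
    rw [_root_.commutator, Subgroup.map_commutator, ← MonoidHom.range_eq_map, range_subtype, h]
  have h2 : pResidual p L = ⊤ := by
    have hp := isPGroup_quotient_pResidual p L
    have hs : Group.IsSolvable (L ⧸ pResidual p L) := by have := hp.isNilpotent; infer_instance
    by_contra hne
    have : Nontrivial (L ⧸ pResidual p L) := QuotientGroup.nontrivial_iff.mpr hne
    have h3 := Group.IsSolvable.commutator_lt_top_of_nontrivial (L ⧸ pResidual p L)
    have h4 : (_root_.commutator L).map (QuotientGroup.mk' (pResidual p L)) =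
        _root_.commutator (L ⧸ pResidual p L) := by
      rw [_root_.commutator, Subgroup.map_commutator,
        map_top_of_surjective _ (QuotientGroup.mk'_surjective _)]; rfl
    rw [h1, map_top_of_surjective _ (QuotientGroup.mk'_surjective _)] at h4
    exact h3.ne h4.symm
  rw [← pResidualOf_def, h2, ← MonoidHom.range_eq_map, range_subtype]

theorem calL_facts {T L : Subgroup G} (h : L ∈ Cfsg.calL T) :
    L ≠ ⊥ ∧ ⁅L, L⁆ = L ∧ SN L (L ⊔ T) ∧ pCoreOf 2 (L ⊔ T) ≠ ⊥ := by
  obtain ⟨⟨h1, h2, h3, -⟩, -, h4⟩ := h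
  refine ⟨fun h0 => h1 (by rw [h0, bot_subgroupOf]), ?_, sn_iff.mpr ⟨le_sup_left, h3⟩, ?_⟩
  · have := congrArg (Subgroup.map (L ⊔ T).subtype) h2
    rwa [Subgroup.map_commutator, map_subgroupOf_eq_of_le le_sup_left] at this
  · exact fun h0 => h4 ((Subgroup.map_eq_bot_iff_of_injective _ (L ⊔ T).subtype_injective).mp h0)

theorem main (hQ : Cfsg.IsOfEvenCharacteristic G) (T : Sylow 2 G) {L K : Subgroup G}
    (hL : L ∈ Cfsg.calLf (T : Subgroup G)) (hK : K ∈ Cfsg.calL (T : Subgroup G)) (hLK : L ≤ K) :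
    K ∈ Cfsg.calLf (T : Subgroup G) := by
  haveI : Fact (Nat.Prime 2) := ⟨Nat.prime_two⟩
  obtain ⟨hL1, hL2, hL3, hL4⟩ := calL_facts hL.1
  obtain ⟨hK1, hK2, hK3, hK4⟩ := calL_facts hK
  have hN : IsCharP 2 (normalizer (pCoreOf 2 (K ⊔ T) : Set G)) := by
    rw [isCharP_iff]
    exact hQ _ ⟨_, isPGroup_pCoreOf 2 _, hK4, rfl⟩ ⟨T, le_sup_right.trans (le_normalizer_pCoreOf 2 _)⟩
  have hT : IsSylowIn 2 (T : Subgroup G) ⊤ := isSylowIn_top T
  have hM : IsCharP 2 (K ⊔ T) := hN.of_pCoreOf_le (le_normalizer_pCoreOf 2 _)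
    (((hT.mono (le_sup_right.trans (le_normalizer_pCoreOf 2 _)) le_top).pCoreOf_le).trans le_sup_right)
  refine ⟨hK, ⟨hK1, ?_, isCharP_iff_fstar.mp (hM.of_sn hK3)⟩, fun h0 => hL.2.2 ?_⟩
  · rw [oddGenerated_eq, pResidualOf_eq_of_perfect hK2]
  · have h1 := keyB hK3 (pResidualOf_eq_of_perfect hK2) (commutator_eq_bot_iff'.mp h0)
    refine commutator_eq_bot_iff'.mpr (keyA hL3 (pResidualOf_eq_of_perfect hL2) ?_)
    refine hLK.trans (h1.trans (centralizer_anti ?_))
    have hHM : L ⊔ T ≤ K ⊔ T := sup_le_sup_right hLK _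
    refine hM.omegaOneCenter_le ((pCoreOf_le 2 _).trans hHM) ?_
    exact (le_inf le_rfl ((hT.mono le_sup_right le_top).pCoreOf_le.trans le_sup_right)).trans
      (pCoreOf_inf_le hHM)
end

/-- Let G be a non-abelian finite simple QTKE-group and T a Sylow 2-subgroup of G, and let L be a member of ℒ_f(G, T) (a member of ℒ(G, T) that lies in 𝒳 — L ≠ 1, L = O²(L), F*(L) = O₂(L) — and acts nontrivially on Ω₁(Z(O₂(L)))). Then (1) every member K of ℒ(G, T) containing L is again in ℒ_f(G, T) (a sharper form of (1) also compares the modules [Ω₁(Z(R)), L] and [Ω₁(Z(R')), K] for suitable 2-subgroups R, R'; that comparison is not included); and (2) if L is maximal under inclusion among the members of ℒ_f(G, T), then L is a maximal member of ℒ(G, T), hence a member of ℒ_f*(G, T). -/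
theorem result {G : Type*} [Group G] [Finite G] [IsSimpleGroup G]
    (hG : ¬ IsMulCommutative G) (hQ : Cfsg.IsQTKE G) (T : Sylow 2 G) (L : Subgroup G)
    (hL : L ∈ Cfsg.calLf (T : Subgroup G)) :
    (∀ K ∈ Cfsg.calL (T : Subgroup G), L ≤ K → K ∈ Cfsg.calLf (T : Subgroup G)) ∧
    ((∀ K ∈ Cfsg.calLf (T : Subgroup G), L ≤ K → K = L) → L ∈ Cfsg.calLfMax (T : Subgroup G)) := by
  refine ⟨fun K hK hLK => main hQ.2.2 T hL hK hLK, fun h => ⟨⟨hL.1, fun K hK hLK => ?_⟩, hL.2⟩⟩
  exact h K (main hQ.2.2 T hL hK hLK) hLK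

end Cfsg.Agent.S1851
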