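import Cfsg.Statements.S2751
import Cfsg.Agent.H9.S3Bound

set_option autoImplicit false
open Cfsg

namespace Cfsg.Agent.S2751

theorem aux {G X : Type*} [Group G] [Group X] {P T : Subgroup G} [Finite P] {T' : Subgroup X}
    (i : P →* X) (hi : Function.Injective i) (hT' : T' = (T.subgroupOf P).map i)
    (h₂ : ∃ S : Sylow 2 ↥P, (S : Subgroup ↥P) = T.subgroupOf P)
    (h₄ : Nonempty (↥P ⧸ Cfsg.pCore 2 ↥P ≃* Equiv.Perm (Fin 3))) :
    H7.IsSylowIn 2 T' i.range ∧ H9.S3L i.range := by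
  have e : (⊤ : Subgroup P).map P.subtype = P := by
    rw [← MonoidHom.range_eq_map, Subgroup.range_subtype]
  rw [MonoidHom.range_eq_map, hT']
  refine ⟨(H7.isSylowIn_top_iff.mpr h₂).map_of_injective hi, H9.S3L.map hi ?_⟩
  refine H9.S3L.of_map P.subtype_injective ?_
  rw [e]
  exact H9.s3L_of_equiv h₄.some


/-- Goldschmidt's bound for amalgams of index (3, 3): let M₁ and M₂ be finite subgroups of a group G such that M₁ ⊓ M₂ is a Sylow 2-subgroup of both M₁ and M₂, each quotient Mᵢ / O₂(Mᵢ) is isomorphic to the symmetric group of degree 3, and no nontrivial subgroup of M₁ ⊓ M₂ is normal in both M₁ and M₂. Then M₁ ⊓ M₂ has order at most 2^7. -/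
theorem result {G : Type*} [Group G] (M₁ M₂ : Subgroup G) [Finite M₁] [Finite M₂] (ha₁ : ∃ P : Sylow 2 M₁, (P : Subgroup M₁) = (M₁ ⊓ M₂).subgroupOf M₁) (ha₂ : ∃ P : Sylow 2 M₂, (P : Subgroup M₂) = (M₁ ⊓ M₂).subgroupOf M₂) (hb₁ : Nonempty (M₁ ⧸ Cfsg.pCore 2 M₁ ≃* Equiv.Perm (Fin 3))) (hb₂ : Nonempty (M₂ ⧸ Cfsg.pCore 2 M₂ ≃* Equiv.Perm (Fin 3))) (hc : ∀ N : Subgroup G, N ≤ M₁ ⊓ M₂ → (N.subgroupOf M₁).Normal → (N.subgroupOf M₂).Normal → N = ⊥) : Nat.card ↥(M₁ ⊓ M₂) ≤ 2 ^ 7 := by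
  obtain ⟨X, _, _, i, j, hi, hj, g1, g2, g3, g4⟩ := H9.exists_finite_model M₁ M₂
  obtain ⟨a1, a2⟩ := aux i hi g2 ha₁ hb₁
  obtain ⟨b1, b2⟩ := aux j hj g3 ha₂ hb₂
  have hA : H9.S3Am i.range j.range := ⟨g1, a1, b1, a2, b2, fun N hN hn => by
    obtain ⟨N₀, k1, k2, k3, k4⟩ := g4 N hN hn
    exact k4 (hc N₀ k1
      ((Subgroup.normal_subgroupOf_iff_le_normalizer (k1.trans inf_le_left)).mpr k2)
      ((Subgroup.normal_subgroupOf_iff_le_normalizer (k1.trans inf_le_right)).mpr k3))⟩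
  have h := hA.card_le
  rw [g2, Subgroup.card_map_of_injective hi,
    Nat.card_congr (Subgroup.subgroupOfEquivOfLe inf_le_left).toEquiv] at h
  exact h

end Cfsg.Agent.S2751
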