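import Cfsg.Statements.S2756
import Cfsg.Agent.H8.Inv

set_option autoImplicit false
open Cfsg

namespace Cfsg.Agent.S2756

open Subgroup Cfsg.L0 Cfsg.H8
open scoped commutatorElement

theorem aux1 {G : Type*} [Group G] [Finite G] (h : ∀ P : Sylow 2 G, (P : Subgroup G).Normal)
    (K : Subgroup G) (P : Sylow 2 K) : (P : Subgroup K).Normal := by
  have : Fact (Nat.Prime 2) := ⟨Nat.prime_two⟩
  refine two_closed_of_not_inv (fun q hq hq2 hI => ?_) P
  have : Fact q.Prime := ⟨hq⟩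
  obtain ⟨T⟩ : Nonempty (Sylow 2 G) := inferInstance
  have := h T
  exact not_inv_of_two_closed hq2 (isSyl_sylow T) (by rw [normalizer_eq_top])
    (inv_of_involves hq2 (involves_top_iff.2 (involves_subgroup K)) hI)

theorem aux2 {G : Type*} [Group G] [Finite G] {K : Subgroup G} (h : ∀ P : Sylow 2 K, (P : Subgroup K).Normal)
    {q : ℕ} [Fact q.Prime] (hq : q ≠ 2) : ¬ H8.Inv q K := by
  have : Fact (Nat.Prime 2) := ⟨Nat.prime_two⟩
  obtain ⟨T⟩ : Nonempty (Sylow 2 K) := inferInstance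
  have := h T
  rintro ⟨x, h1, h2, ⟨k, h3⟩, g, h4, h5⟩
  exact not_inv_of_two_closed hq (isSyl_sylow T) (by rw [normalizer_eq_top])
    ⟨⟨x, h1⟩, trivial, fun e => h2 (congrArg Subtype.val e), ⟨k, Subtype.ext h3⟩, ⟨g, h4⟩, trivial,
      Subtype.ext h5⟩

theorem aux3 {G : Type*} [Group G] [Finite G]
    (h : ∀ (q : ℕ) [Fact q.Prime], q ≠ 2 → ∀ T : Sylow q G, ∀ x ∈ (T : Subgroup G), x ≠ 1 →
      ∀ g ∈ normalizer (centerThompsonAOf (T : Subgroup G) : Set G), g * x * g⁻¹ ≠ x⁻¹)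
    (P : Sylow 2 G) : (P : Subgroup G).Normal := by
  refine two_closed_of_not_inv (fun q hq hq2 hI => ?_) P
  have : Fact q.Prime := ⟨hq⟩
  obtain ⟨T⟩ : Nonempty (Sylow q G) := inferInstance
  have h1 := h q hq2 T
  rw [centerThompsonAOf_eq] at h1
  have hT := isSyl_sylow T
  have h2 := ctrl_ZJ_of_fOver_free hq2 (dvd_zero q) hT (sc_self _)
    (not_involves_fOver_of_not_inv hq2 fun hI => by
      obtain ⟨x, h2, h3, g, h4, h5⟩ := hI.exists_mem (hT.mono (le_inf le_top
        (le_normalizer.trans (normalizer_le_normalizer_ZJ 0 _))) le_top)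
      exact h1 x h2 h3 g h4.2 h5)
  obtain ⟨x, h3, h4, g, h5, h6⟩ := h2.inv hT hI
  exact h1 x h3 h4 g h5.2 h6

/-- For a finite group G the following are equivalent: (a) G has a normal Sylow 2-subgroup; (b) for every odd prime q dividing the order of G and every Sylow q-subgroup T, the normalizer of Z(J(T)) has a normal Sylow 2-subgroup; (c) for every odd prime q and every Sylow q-subgroup T, no nonidentity element of T is inverted by an element of the normalizer of Z(J(T)). Here J(T) is the Thompson subgroup generated by the abelian subgroups of T of largest order. Stated as the two equivalences (a) ⇔ (b) and (a) ⇔ (c). -/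
theorem result {G : Type*} [Group G] [Finite G] : ((∀ P : Sylow 2 G, (P : Subgroup G).Normal) ↔ ∀ (q : ℕ) [Fact q.Prime], q ≠ 2 → q ∣ Nat.card G → ∀ T : Sylow q G, ∀ P : Sylow 2 ↥(Subgroup.normalizer (Cfsg.centerThompsonAOf (T : Subgroup G) : Set G)), (P : Subgroup ↥(Subgroup.normalizer (Cfsg.centerThompsonAOf (T : Subgroup G) : Set G))).Normal) ∧ ((∀ P : Sylow 2 G, (P : Subgroup G).Normal) ↔ ∀ (q : ℕ) [Fact q.Prime], q ≠ 2 → ∀ T : Sylow q G, ∀ x ∈ (T : Subgroup G), x ≠ 1 → ∀ g ∈ Subgroup.normalizer (Cfsg.centerThompsonAOf (T : Subgroup G) : Set G), g * x * g⁻¹ ≠ x⁻¹) := by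
  refine ⟨⟨fun h q _ _ _ T P => aux1 h _ P, fun h => aux3 fun q _ hq T x hx hx1 g hg e => ?_⟩,
    ⟨fun h q _ hq T x hx hx1 g hg e => ?_, aux3⟩⟩
  · have hd : q ∣ Nat.card G :=
      (dvd_card_of_ne_bot T.isPGroup' fun e => hx1 (mem_bot.1 (e ▸ hx))).trans (card_subgroup_dvd_card _)
    refine aux2 (h q hq hd T) hq ⟨x, ?_, hx1, isPGroup_iff_forall.1 T.isPGroup' x hx, g, hg, e⟩
    rw [centerThompsonAOf_eq]
    exact normalizer_le_normalizer_ZJ 0 _ (le_normalizer hx)
  · exact aux2 (aux1 h ⊤) hq ⟨x, trivial, hx1, isPGroup_iff_forall.1 T.isPGroup' x hx, g, trivial, e⟩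

end Cfsg.Agent.S2756
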