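import Cfsg.Statements.S2758
import Cfsg.Agent.H1.Inv

set_option autoImplicit false
set_option linter.style.haveILetI false
set_option linter.unusedVariables false
open Cfsg

namespace Cfsg.Agent.S2758

/-- For an odd prime p and a finite group G the following are equivalent: the dihedral group of order 2p is involved in G; some element of 2-power order normalizes but does not centralize some p-subgroup of G; some element of 2-power order inverts some nonidentity element of p-power order. -/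
theorem result {G : Type*} [Group G] [Finite G] {p : ℕ} [Fact p.Prime] (hp : p ≠ 2) : (Cfsg.Involves (DihedralGroup p) G ↔ ∃ (x : G) (P : Subgroup G), (∃ k : ℕ, orderOf x = 2 ^ k) ∧ IsPGroup p ↥P ∧ x ∈ Subgroup.normalizer (P : Set G) ∧ x ∉ Subgroup.centralizer (P : Set G)) ∧ (Cfsg.Involves (DihedralGroup p) G ↔ ∃ x y : G, (∃ k : ℕ, orderOf x = 2 ^ k) ∧ (∃ k : ℕ, orderOf y = p ^ k) ∧ y ≠ 1 ∧ x * y * x⁻¹ = y⁻¹) := by
  have hord : ∀ {q : ℕ} [Fact q.Prime] {x : G}, (∃ k, orderOf x = q ^ k) ↔ ∃ k, x ^ q ^ k = 1 :=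
    fun {q} _ {x} => ⟨fun ⟨k, hk⟩ => ⟨k, by rw [← hk, pow_orderOf_eq_one]⟩, fun ⟨k, hk⟩ => by
      obtain ⟨j, -, hj⟩ := (Nat.dvd_prime_pow Fact.out).1 (orderOf_dvd_of_pow_eq_one hk)
      exact ⟨j, hj⟩⟩
  haveI : Fact (Nat.Prime 2) := ⟨Nat.prime_two⟩
  have h1 : (∃ (x : G) (P : Subgroup G), (∃ k : ℕ, orderOf x = 2 ^ k) ∧ IsPGroup p ↥P ∧
      x ∈ Subgroup.normalizer (P : Set G) ∧ x ∉ Subgroup.centralizer (P : Set G)) →
      ∃ x y : G, (∃ k : ℕ, orderOf x = 2 ^ k) ∧ (∃ k : ℕ, orderOf y = p ^ k) ∧ y ≠ 1 ∧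
        x * y * x⁻¹ = y⁻¹ := by
    rintro ⟨x, P, hx, hP, hn, hc⟩
    obtain ⟨k, hk⟩ := hord.1 hx
    obtain ⟨t, ht, y, hy, h1, h2⟩ := H1.exists_inverted_of_not_centralize hk hn hc
    exact ⟨t, y, hord.2 (H8.isPGroup_iff_forall.1 (H8.isPGroup_zpowers hk) t ht),
      hord.2 (H8.isPGroup_iff_forall.1 hP y hy), h1, h2⟩
  have h2 : (∃ x y : G, (∃ k : ℕ, orderOf x = 2 ^ k) ∧ (∃ k : ℕ, orderOf y = p ^ k) ∧ y ≠ 1 ∧
        x * y * x⁻¹ = y⁻¹) → Cfsg.Involves (DihedralGroup p) G := by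
    rintro ⟨x, y, hx, hy, h1, h2⟩
    obtain ⟨k, hk⟩ := hord.1 hx
    obtain ⟨j, hj⟩ := hord.1 hy
    obtain ⟨z, -, hz1, hz, hinv⟩ := H1.exists_inverted_prime hj h1 h2
    exact H1.involves_dihedral_of_inverts hp hk hz hz1 hinv
  have h3 : Cfsg.Involves (DihedralGroup p) G → ∃ (x : G) (P : Subgroup G),
      (∃ k : ℕ, orderOf x = 2 ^ k) ∧ IsPGroup p ↥P ∧
      x ∈ Subgroup.normalizer (P : Set G) ∧ x ∉ Subgroup.centralizer (P : Set G) := by
    intro h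
    obtain ⟨x, P, hx, h'⟩ := H1.exists_normalizes_of_involves_dihedral hp h
    exact ⟨x, P, hord.2 hx, h'⟩
  exact ⟨⟨h3, fun h => h2 (h1 h)⟩, ⟨fun h => h1 (h3 h), h2⟩⟩

end Cfsg.Agent.S2758
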