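import Cfsg.Statements.S2759
import Cfsg.Agent.H1.Inv

set_option autoImplicit false
set_option linter.style.haveILetI false
set_option linter.unusedVariables false
open Cfsg

namespace Cfsg.Agent.S2759

open Subgroup
open scoped commutatorElement

/-- The three double transpositions. -/
def dv : Fin 3 → Equiv.Perm (Fin 4) :=
  ![Equiv.swap 0 1 * Equiv.swap 2 3, Equiv.swap 0 2 * Equiv.swap 1 3,
    Equiv.swap 0 3 * Equiv.swap 1 2]

/-- The action of `S₄` on the double transpositions. -/
def actF (σ : Equiv.Perm (Fin 4)) (i : Fin 3) : Fin 3 :=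
  if σ * dv i * σ⁻¹ = dv 0 then 0 else if σ * dv i * σ⁻¹ = dv 1 then 1 else 2

theorem actF_mul : ∀ (σ τ : Equiv.Perm (Fin 4)) (i : Fin 3),
    actF (σ * τ) i = actF σ (actF τ i) := by decide +kernel

/-- The homomorphism `S₄ → S₃`. -/
def theta : Equiv.Perm (Fin 4) →* Equiv.Perm (Fin 3) :=
  MonoidHom.toHomPerm
    { toFun := actF
      map_one' := by funext i; revert i; decide +kernel
      map_mul' := fun σ τ => by funext i; exact actF_mul σ τ i }

theorem theta_eq_one {σ : Equiv.Perm (Fin 4)} : theta σ = 1 ↔ ∀ i, actF σ i = i :=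
  Equiv.ext_iff

theorem theta_surj : Function.Surjective theta := by
  have : ∀ τ : Equiv.Perm (Fin 3), ∃ σ, ∀ i, actF σ i = τ i := by decide +kernel
  intro τ
  obtain ⟨σ, h⟩ := this τ
  exact ⟨σ, Equiv.ext h⟩

theorem theta_sq : ∀ σ : Equiv.Perm (Fin 4), (∀ i, actF σ i = i) → σ ^ 2 ^ 1 = 1 := by
  decide +kernel

theorem theta_cent : ∀ σ : Equiv.Perm (Fin 4),
    (∀ τ : Equiv.Perm (Fin 4), (∀ i, actF τ i = i) → τ * σ = σ * τ) → ∀ i, actF σ i = i := by
  decide +kernel

/-- For a finite group G, the symmetric group of degree 4 is involved in G if and only if there is a 2-subgroup T of G such that the symmetric group of degree 3 is involved in N(T)/C(T). -/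
theorem result {G : Type*} [Group G] [Finite G] : Cfsg.Involves (Equiv.Perm (Fin 4)) G ↔ ∃ T : Subgroup G, IsPGroup 2 ↥T ∧ Cfsg.Involves (Equiv.Perm (Fin 3)) (↥(Subgroup.normalizer (T : Set G)) ⧸ (Subgroup.centralizer (T : Set G)).subgroupOf (Subgroup.normalizer (T : Set G))) := by
  haveI : Fact (Nat.Prime 2) := ⟨Nat.prime_two⟩
  haveI : Fact (Nat.Prime 3) := ⟨Nat.prime_three⟩
  constructor
  · intro h
    obtain ⟨K, f, hf⟩ := H8.involves_iff.1 h
    have hL : IsPGroup 2 theta.ker :=
      H8.isPGroup_iff_forall.2 fun x hx => ⟨1, theta_sq x (theta_eq_one.1 hx)⟩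
    obtain ⟨P, hP, hPL, hN⟩ := H1.exists_lift_normal_pgroup hf hL
    refine ⟨P.map K.subtype, hP.map _, ?_⟩
    let ι : normalizer (P : Set K) →* normalizer ((P.map K.subtype : Subgroup G) : Set G) :=
      (K.subtype.comp (normalizer (P : Set K)).subtype).codRestrict _
        fun x => H1.mem_normalizer_map_subtype x.2
    refine H1.involves_of_ker_le ((QuotientGroup.mk' _).comp ι)
      (theta.comp (f.comp (normalizer (P : Set K)).subtype)) (fun x => ?_) fun x hx => ?_
    · obtain ⟨σ, rfl⟩ := theta_surj x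
      obtain ⟨g, hg, e⟩ := hN σ
      exact ⟨⟨g, hg⟩, congrArg theta e⟩
    · have h1 : ((x : K) : G) ∈ centralizer ((P.map K.subtype : Subgroup G) : Set G) :=
        (QuotientGroup.eq_one_iff (ι x)).1 hx
      refine theta_eq_one.2 (theta_cent (f x) fun τ hτ => ?_)
      have h2 : τ ∈ P.map f := hPL ▸ theta_eq_one.2 hτ
      obtain ⟨y, hy, rfl⟩ := h2
      rw [← map_mul, ← map_mul]
      congr 1
      exact Subtype.ext (mem_centralizer_iff.1 h1 y ⟨y, hy, rfl⟩)
  · rintro ⟨T, hT, h⟩
    obtain ⟨K, f, hf⟩ := H8.involves_iff.1 h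
    set N := normalizer (T : Set G) with hN
    let π := QuotientGroup.mk' ((centralizer (T : Set G)).subgroupOf N)
    let f' : K.comap π →* Equiv.Perm (Fin 3) := f.comp (π.subgroupComap K)
    have hf' : Function.Surjective f' :=
      hf.comp (π.subgroupComap_surjective_of_surjective K (QuotientGroup.mk'_surjective _))
    have hL : IsPGroup 3 (alternatingGroup (Fin 3)) := IsPGroup.of_card (n := 1) (by
      rw [nat_card_alternatingGroup]; simp [Nat.factorial])
    obtain ⟨P, hP, hPL, hNP⟩ := H1.exists_lift_normal_pgroup hf' hL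
    obtain ⟨g, hg, e⟩ := hNP (Equiv.swap 0 1)
    obtain ⟨t, ht, ⟨k, hk⟩, e2⟩ := H1.exists_two_elt_lift (f := f') hg (by rw [e]; decide)
    have h3 : (finRotate 3) ∈ P.map f' := by rw [hPL, Equiv.Perm.mem_alternatingGroup]; decide
    obtain ⟨y, hy, e3⟩ := h3
    refine H1.involves_S4_of_action (P := (P.map (K.comap π).subtype).map N.subtype)
      (t := ((t : N) : G)) hT ((hP.map _).map _)
      ⟨k, by exact_mod_cast congrArg (fun x : K.comap π => ((x : N) : G)) hk⟩
      (map_subtype_le _) (t : N).2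
      (H1.mem_normalizer_map_subtype (H1.mem_normalizer_map_subtype ht)) fun hc => ?_
    have h4 := hc (commutator_mem_commutator (g₁ := ((y : N) : G)) ⟨_, ⟨y, hy, rfl⟩, rfl⟩
      (mem_zpowers _))
    have h5 : π.subgroupComap K ⁅y, t⁆ = 1 :=
      Subtype.ext ((QuotientGroup.eq_one_iff ((⁅y, t⁆ : K.comap π) : N)).2 h4)
    have h6 : f' ⁅y, t⁆ = 1 := by
      change f (π.subgroupComap K ⁅y, t⁆) = 1
      rw [h5, map_one]
    rw [map_commutatorElement, e3, e2, e] at h6
    revert h6
    decide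

end Cfsg.Agent.S2759
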