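import Cfsg.Statements.S2760
import Cfsg.Agent.H8.Stab

set_option autoImplicit false
open Cfsg

namespace Cfsg.Agent.S2760

open Subgroup Cfsg.L0 Cfsg.H8
open scoped commutatorElement


/-- Let G be a finite group with C_G(O₂(G)) ≤ O₂(G) and H a subgroup of G such that H is normal in G, or the subgroup O²(H) generated by the elements of H of odd order is normal in G. Then C_H(O₂(H)) ≤ O₂(H). -/
theorem result {G : Type*} [Group G] [Finite G] (hchar : Subgroup.centralizer (Cfsg.pCore 2 G : Set G) ≤ Cfsg.pCore 2 G) (H : Subgroup G) (hH : H.Normal ∨ ((Cfsg.pResidual 2 ↥H).map H.subtype).Normal) : Subgroup.centralizer (Cfsg.pCore 2 ↥H : Set ↥H) ≤ Cfsg.pCore 2 ↥H := by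
  obtain ⟨N, hN, hNH, hodd⟩ : ∃ N : Subgroup G, N.Normal ∧ N ≤ H ∧
      ∀ x ∈ H, (orderOf x).Coprime 2 → x ∈ N := by
    rcases hH with h | h
    · exact ⟨H, h, le_rfl, fun x hx _ => hx⟩
    · exact ⟨_, h, H7.pResidualOf_le 2 H, fun x hx hc => H7.mem_pResidualOf hx hc⟩
  rw [H7.charP_iff]
  refine H7.le_pCoreOf ?_ inf_le_left (le_normalizer_inf le_normalizer
    (le_normalizer_centralizer (H7.le_normalizer_pCoreOf 2 H)))
  rw [isPGroup_iff_forall]
  rintro x ⟨hx, hxc⟩
  obtain ⟨k, hk⟩ := exists_pow_coprime 2 x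
  refine ⟨k, eq_one_of_pElt_of_coprime (p := 2) ?_ hk⟩
  refine isPGroup_iff_forall.1 (H7.isPGroup_pCore 2 G) _ (hchar ?_)
  refine mem_centralizer_of_commutator_commute (H7.isPGroup_pCore 2 G)
    (le_normalizer_of_normal (mem_top _)) hk fun u hu => ?_
  refine mem_centralizer_iff.1 (pow_mem hxc (2 ^ k)) _ (H7.pCore_inf_le H ⟨?_, hNH ?_⟩)
  · exact commutatorElement_mem_of_normalizer (le_normalizer_of_normal (mem_top _)) hu
  · exact commutatorElement_mem_of_normalizer' (le_normalizer_of_normal (mem_top _))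
      (hodd _ (pow_mem hx _) hk)

end Cfsg.Agent.S2760
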