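import Cfsg.Statements.S2761
import Cfsg.Agent.H8.Qd

set_option autoImplicit false
open Cfsg

namespace Cfsg.Agent.S2761

open Subgroup Cfsg.L0 Cfsg.H8
open scoped commutatorElement

open Matrix in
/-- The affine action of `Qd(2)`. -/
noncomputable def act : qdOver (ZMod 2) →* Equiv.Perm (Fin 2 → ZMod 2) :=
  MonoidHom.toHomPerm (G := qdOver (ZMod 2))
    { toFun := fun X x => vec X + (lin X).1 *ᵥ x
      map_one' := by
        funext x
        rw [← mkQ_one, vec_mkQ, lin_mkQ, Matrix.SpecialLinearGroup.coe_one, one_mulVec, zero_add]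
        rfl
      map_mul' := fun X Y => by
        obtain ⟨M, v, rfl⟩ := exists_mkQ X
        obtain ⟨N, w, rfl⟩ := exists_mkQ Y
        funext x
        change _ = vec (mkQ M v) + (lin (mkQ M v)).1 *ᵥ (vec (mkQ N w) + (lin (mkQ N w)).1 *ᵥ x)
        simp only [mkQ_mul, vec_mkQ, lin_mkQ, mulVec_add, mulVec_mulVec, add_assoc]
        rfl }

open Matrix in
theorem act_injective : Function.Injective act := by
  rw [injective_iff_map_eq_one]
  intro X h
  obtain ⟨M, v, rfl⟩ := exists_mkQ X
  have h1 : ∀ x, v + M.1 *ᵥ x = x := fun x => by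
    have : vec (mkQ M v) + (lin (mkQ M v)).1 *ᵥ x = x := congrArg (fun f : Equiv.Perm _ => f x) h
    rwa [vec_mkQ, lin_mkQ] at this
  have hv : v = 0 := by simpa using h1 0
  refine mkQ_eq_one.2 ⟨Subtype.ext ?_, hv⟩
  rw [hv] at h1
  exact Matrix.toLin'.injective (LinearMap.ext fun x => by simpa using h1 x)

/-- The group Qd(2), the natural semidirect product of an elementary abelian group of order 4 by SL₂(2) (realised as the affine subgroup of SL₃(2)), is isomorphic to the symmetric group of degree 4. -/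
theorem result : Nonempty (↥(Cfsg.qd 2) ≃* Equiv.Perm (Fin 4)) := by
  have e : (Fin 2 → ZMod 2) ≃ Fin 4 := Fintype.equivFinOfCardEq (by simp)
  refine ⟨(MulEquiv.ofBijective act ?_).trans (Equiv.permCongrHom e)⟩
  refine (Nat.bijective_iff_injective_and_card _).2 ⟨act_injective, ?_⟩
  rw [card_qdOver, Nat.card_perm]
  simp [Nat.factorial]

end Cfsg.Agent.S2761
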