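import Cfsg.Statements.S2762
import Cfsg.Agent.H8.Qd

set_option autoImplicit false
open Cfsg

namespace Cfsg.Agent.S2762

open Subgroup Cfsg.L0 Cfsg.H8
open scoped commutatorElement


/-- Structure of Qd over a finite field F of characteristic p (the affine subgroup of SL₃(F)): its largest normal p-subgroup is the group of translations (matrices with upper-left block the identity), the block-diagonal matrices form a complement isomorphic to SL₂(F), and the translation subgroup is a natural SL₂(F)-module for that complement. -/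
theorem result {F : Type*} [Field F] [Fintype F] {p : ℕ} [Fact p.Prime] [CharP F p] : (∀ M : ↥(Cfsg.qdOver F), M ∈ Cfsg.pCore p ↥(Cfsg.qdOver F) ↔ ((M : Matrix.SpecialLinearGroup (Fin 3) F) : Matrix (Fin 3) (Fin 3) F) 0 0 = 1 ∧ ((M : Matrix.SpecialLinearGroup (Fin 3) F) : Matrix (Fin 3) (Fin 3) F) 0 1 = 0 ∧ ((M : Matrix.SpecialLinearGroup (Fin 3) F) : Matrix (Fin 3) (Fin 3) F) 1 0 = 0 ∧ ((M : Matrix.SpecialLinearGroup (Fin 3) F) : Matrix (Fin 3) (Fin 3) F) 1 1 = 1) ∧ ∃ K : Subgroup ↥(Cfsg.qdOver F), (∀ M : ↥(Cfsg.qdOver F), M ∈ K ↔ ((M : Matrix.SpecialLinearGroup (Fin 3) F) : Matrix (Fin 3) (Fin 3) F) 0 2 = 0 ∧ ((M : Matrix.SpecialLinearGroup (Fin 3) F) : Matrix (Fin 3) (Fin 3) F) 1 2 = 0) ∧ K ⊓ Cfsg.pCore p ↥(Cfsg.qdOver F) = ⊥ ∧ K ⊔ Cfsg.pCore p ↥(Cfsg.qdOver F) = ⊤ ∧ Nonempty (↥K ≃* Matrix.SpecialLinearGroup (Fin 2) F) ∧ Cfsg.IsNaturalSL2Module F (Cfsg.pCore p ↥(Cfsg.qdOver F)) K := by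
  refine ⟨fun X => ?_, linIncl.range, fun X => ?_, ?_, ?_, ⟨(MonoidHom.ofInjective
    fun M N h => (mkQ_inj.1 h).1).symm⟩, ?_⟩
  · obtain ⟨M, v, rfl⟩ := exists_mkQ X
    rw [pCore_qdOver, MonoidHom.mem_ker, lin_mkQ]
    refine ⟨by rintro rfl; simp [coe_mkQ, aff_coe], fun ⟨h1, h2, h3, h4⟩ => ?_⟩
    ext i j
    fin_cases i <;> fin_cases j
    exacts [h1, h2, h3, h4]
  · obtain ⟨M, v, rfl⟩ := exists_mkQ X
    refine ⟨fun ⟨N, h⟩ => by rw [← h]; exact ⟨rfl, rfl⟩, fun ⟨h1, h2⟩ => ⟨M, mkQ_inj.2 ⟨rfl, ?_⟩⟩⟩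
    ext i
    fin_cases i
    exacts [h1.symm, h2.symm]
  · rw [pCore_qdOver, eq_bot_iff]
    rintro _ ⟨⟨M, rfl⟩, h⟩
    obtain rfl : M = 1 := by simpa [linIncl_apply] using h
    exact mkQ_one
  · rw [pCore_qdOver, eq_top_iff]
    intro X _
    obtain ⟨M, v, rfl⟩ := exists_mkQ X
    have := mul_mem (mem_sup_right (S := (linIncl (F := F)).range) (T := lin.ker) (x := mkQ 1 v) (by simp))
      (mem_sup_left ⟨M, rfl⟩)
    simpa [linIncl_apply, mkQ_mul] using this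
  · rw [pCore_qdOver]
    refine ⟨le_normalizer_of_normal, lin.comp (Subgroup.subtype _), MulEquiv.toAdditiveLeft
      ((MonoidHom.ofInjective trn_injective).trans (MulEquiv.subgroupCongr range_trn)).symm, ?_, ?_, ?_⟩
    · exact fun M => ⟨⟨_, M, rfl⟩, lin_mkQ M 0⟩
    · ext ⟨_, M, rfl⟩
      rw [MonoidHom.mem_ker, mem_subgroupOf, mem_centralizer_iff]
      change lin (mkQ M 0) = 1 ↔ ∀ h ∈ _, h * mkQ M 0 = mkQ M 0 * h
      rw [lin_mkQ]
      refine ⟨by rintro rfl; simp [mkQ_one], fun h => Subtype.ext ?_⟩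
      refine Matrix.toLin'.injective (LinearMap.ext fun x => ?_)
      have := h (mkQ 1 x) (by simp)
      rw [mkQ_mul, mkQ_mul, mkQ_inj] at this
      simpa using this.2.symm
    · rintro ⟨_, M, rfl⟩ ⟨X, hX⟩
      obtain ⟨v, rfl⟩ := range_trn.ge hX
      have key : ∀ (v : Multiplicative (Fin 2 → F)) h, MulEquiv.toAdditiveLeft
          ((MonoidHom.ofInjective trn_injective).trans (MulEquiv.subgroupCongr range_trn)).symm
          (Additive.ofMul ⟨trn v, h⟩) = v.toAdd := fun v h =>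
        congrArg Multiplicative.toAdd (MulEquiv.symm_apply_apply
          ((MonoidHom.ofInjective trn_injective).trans (MulEquiv.subgroupCongr range_trn)) v)
      refine ⟨⟨trn (Multiplicative.ofAdd (M.1.mulVec v.toAdd)), range_trn.le ⟨_, rfl⟩⟩,
        (mkQ_conj_one _ _ _).symm, ?_⟩
      rw [key, key]
      change _ = (lin (mkQ M 0)).1.mulVec _
      rw [lin_mkQ]; rfl

end Cfsg.Agent.S2762
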