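import Cfsg.Statements.S2765
import Cfsg.Agent.H9.PUOut

set_option autoImplicit false
open Cfsg

namespace Cfsg.Agent.S2765

/-- In the same pushing-up situation (G finite, C_G(O_p(G)) ≤ O_p(G), G/K ≅ PSL₂(p^n) with n ≥ 1, a Sylow p-subgroup S in exactly one maximal subgroup, no nontrivial characteristic subgroup of S normal in G), one of the following holds: (I) S has nilpotency class 2, exponent 4 if p = 2 and exponent p otherwise, and G has exactly one noncentral chief factor inside O_p(G); or (II) p = 3, S has class 3 and exponent 9, and G has exactly two noncentral chief factors inside O_p(G). 'Exactly one' is phrased as: some noncentral chief factor U/W inside O_p(G) with G acting hypercentrally on W and on O_p(G)/U; 'exactly two' analogously with a chain. -/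
theorem result {G : Type*} [Group G] [Finite G] {p : ℕ} [Fact p.Prime] (S : Sylow p G) (hE₁ : Subgroup.centralizer (Cfsg.pCore p G : Set G) ≤ Cfsg.pCore p G) (hE₂ : ∃! M : Subgroup G, IsCoatom M ∧ (S : Subgroup G) ≤ M) (K : Subgroup G) [K.Normal] (F : Type) [Field F] [Fintype F] (n : ℕ) (hn : 1 ≤ n) (hF : Fintype.card F = p ^ n) (hE₃ : Nonempty (G ⧸ K ≃* Matrix.ProjectiveSpecialLinearGroup (Fin 2) F)) (hd : ∀ T : Subgroup ↥(S : Subgroup G), T ≠ ⊥ → T.Characteristic → ¬ (T.map (S : Subgroup G).subtype).Normal) : ((S : Subgroup G).lowerCentralSeries 2 = ⊥ ∧ (S : Subgroup G).lowerCentralSeries 1 ≠ ⊥ ∧ (p = 2 → Monoid.exponent ↥(S : Subgroup G) = 4) ∧ (p ≠ 2 → Monoid.exponent ↥(S : Subgroup G) = p) ∧ (∃ U W : Subgroup G, W ≤ U ∧ U ≤ (Cfsg.pCore p G) ∧ Cfsg.IsChiefFactor U W ∧ ¬ ⁅U, (⊤ : Subgroup G)⁆ ≤ W ∧ (∃ k : ℕ, Cfsg.iterCommutator W ⊤ k = ⊥) ∧ (∃ k : ℕ, Cfsg.iterCommutator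 (Cfsg.pCore p G) ⊤ k ≤ U))) ∨ (p = 3 ∧ (S : Subgroup G).lowerCentralSeries 3 = ⊥ ∧ (S : Subgroup G).lowerCentralSeries 2 ≠ ⊥ ∧ Monoid.exponent ↥(S : Subgroup G) = 9 ∧ (∃ U₁ W₁ U₂ W₂ : Subgroup G, W₁ ≤ U₁ ∧ U₁ ≤ W₂ ∧ W₂ ≤ U₂ ∧ U₂ ≤ (Cfsg.pCore p G) ∧ Cfsg.IsChiefFactor U₁ W₁ ∧ Cfsg.IsChiefFactor U₂ W₂ ∧ ¬ ⁅U₁, (⊤ : Subgroup G)⁆ ≤ W₁ ∧ ¬ ⁅U₂, (⊤ : Subgroup G)⁆ ≤ W₂ ∧ (∃ k : ℕ, Cfsg.iterCommutator W₁ ⊤ k = ⊥) ∧ (∃ k : ℕ, Cfsg.iterCommutator W₂ ⊤ k ≤ U₁) ∧ (∃ k : ℕ, Cfsg.iterCommutator (Cfsg.pCore p G) ⊤ k ≤ U₂))) := by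
  haveI := H9.charP_of_card hF
  obtain ⟨e⟩ := hE₃
  obtain ⟨Z, Z₀, D, C, b, h⟩ := H9.puOut_top S (H7.isCharP_top_iff.mpr hE₁)
    (H9.exists_lift S hE₂ K e) hd
  have hp := (Fact.out : p.Prime)
  haveI := b.nat.isChief.2.1
  haveI := H7.normal_of_le_normalizer_top b.nD
  have k1 : ∀ m : ℕ, Monoid.exponent (S : Subgroup G) ∣ m ↔ ∀ t ∈ (S : Subgroup G), t ^ m = 1 :=
    fun m => Monoid.exponent_dvd_iff_forall_pow_eq_one.trans
      ⟨fun h t ht => congrArg Subtype.val (h ⟨t, ht⟩), fun h t => Subtype.ext (h t t.2)⟩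
  have k2 : ∀ q : ℕ, q.Prime → (∀ t ∈ (S : Subgroup G), t ^ q ^ 2 = 1) →
      (¬ ∀ t ∈ (S : Subgroup G), t ^ q = 1) → Monoid.exponent (S : Subgroup G) = q ^ 2 :=
    fun q hq h1 h2 => by
      obtain ⟨i, h3, h4⟩ := (Nat.dvd_prime_pow hq).mp ((k1 _).mpr h1)
      by_contra h5
      refine h2 ((k1 q).mp (h4 ▸ (pow_dvd_pow q (show i ≤ 1 from ?_)).trans (pow_one q).dvd))
      have : i ≠ 2 := fun e => h5 (e ▸ h4)
      omega
  have k3 : ∃ k, iterCommutator Z₀ ⊤ k = ⊥ :=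
    ⟨1, H7.commutator_eq_bot_iff'.mpr (Subgroup.le_centralizer_iff.mp b.cen)⟩
  have k4 := H9.exists_iterCommutator_le ((H7.isPGroup_pCoreOf p ⊤).to_le b.le₂) b.res
  have k5 := b.le₁.trans b.le₂
  rw [← H7.pCoreOf_top]
  refine h.imp (fun ⟨h1, h2, h3, h4, h5⟩ => ⟨h2, h3, ?_, fun h6 => ?_, Z, Z₀, b.nat.le, k5,
    b.nat.isChief, b.nat.not_comm_le, k3, h1 ▸ k4⟩) fun ⟨h1, ⟨C', n⟩, h3, h4, h5, t, ht, h6⟩ =>
      ⟨h1, h3, h4, k2 3 Nat.prime_three h5 fun h => h6 (h t ht), Z, Z₀, _, D, b.nat.le, b.le₁,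
        b.le₂, le_rfl, b.nat.isChief, n.isChief, b.nat.not_comm_le, n.not_comm_le, k3, k4, 0, le_rfl⟩
  · intro h6
    refine k2 2 Nat.prime_two (h4 h6) fun h => h3 (eq_bot_iff.mpr
      (Subgroup.commutator_le.mpr fun x hx y hy => ?_))
    have k : ∀ t ∈ (S : Subgroup G), t⁻¹ = t := fun t ht =>
      inv_eq_of_mul_eq_one_right (sq t ▸ h t ht)
    rw [commutatorElement_def, k x hx, k y hy, mul_assoc, ← sq, h _ (mul_mem hx hy)]
    exact one_mem _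
  · refine ((Nat.dvd_prime hp).mp ((k1 p).mpr (h5 h6))).resolve_left fun h7 => h3 (eq_bot_iff.mpr
      (Subgroup.commutator_le.mpr fun x hx y hy => ?_))
    have := (k1 1).mp h7.dvd x hx
    rw [pow_one] at this
    simp [this]

end Cfsg.Agent.S2765
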