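import Cfsg.Statements.S2766
import Cfsg.Agent.H9.PUOut
import Cfsg.Agent.H7.Frat

set_option autoImplicit false
open Cfsg

namespace Cfsg.Agent.S2766

open Subgroup Matrix
open scoped commutatorElement MatrixGroups

theorem pow_index_mem {K : Type*} [Group K] [Finite K] (T : Subgroup K) {c : K}
    (h1 : c ∈ ⁅(⊤ : Subgroup K), (⊤ : Subgroup K)⁆) (h2 : c ∈ center K) : c ^ T.index ∈ ⁅T, T⁆ := by
  have h3 := MonoidHom.transfer_eq_pow (Abelianization.of : T →* _) c fun k g _ => by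
    rw [mul_assoc, ← mem_center_iff.mp (pow_mem h2 k) g, inv_mul_cancel_left]
  rw [show MonoidHom.transfer (Abelianization.of : T →* _) c = 1 from
    Abelianization.commutator_subset_ker _ h1] at h3
  have h4 := mem_map_of_mem T.subtype (Abelianization.ker_of T ▸ MonoidHom.mem_ker.mpr h3.symm)
  rwa [map_subtype_commutator] at h4

theorem split {K : Type*} [Group K] [Finite K] {p : ℕ} [Fact p.Prime] (hp : 5 ≤ p) {F : Type*}
    [Field F] [Fintype F] [CharP F p] {Q Z₀ A : Subgroup K} (S : Sylow p K)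
    {C : H8.SecMap (Fin 2 → F) Q Z₀} (n : H9.NatAct ⊤ C) (hk : ∀ g, C.Rel g 1 → g ∈ Q)
    (hZ : Z₀ ≤ center K) (hQ : IsElementaryAbelian p Q) (hA : A ≤ centralizer (A : Set K))
    (hS : A ⊔ Q = S) :
    ⁅(⊤ : Subgroup K), ⊤⁆ ⊓ Z₀ = ⊥ ∧ ⁅(⊤ : Subgroup K), ⊤⁆ ⊔ Z₀ = ⊤ ∧
      Nonempty (↥⁅(⊤ : Subgroup K), (⊤ : Subgroup K)⁆ ≃* qdOver F) := by
  have hp2 : p ≠ 2 := by omega
  have h2 : (2 : F) ≠ 0 := H8.two_ne_zero_of_charP hp2 F
  have cop : Nat.Coprime 2 p := (Nat.coprime_primes Nat.prime_two Fact.out).mpr hp2.symm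
  haveI := H7.normal_of_le_normalizer_top n.nV
  obtain ⟨ρ, ρs, hρ⟩ := n.exists_hom_top
  obtain ⟨z, hz⟩ := ρs (-1)
  have hQ' := H7.ea_le_centralizer hQ
  have k0 : ∀ g, ρ g = 1 → g ∈ Q := fun g h => hk g (h ▸ hρ g)
  have k1 : ∀ g, ⁅g, z⁆ ∈ Q := fun g => k0 _ (by rw [commutatorElement_def]; simp [hz])
  have k2 : ∀ v ∈ Q, C.π ⁅v, z⁆ = (2 : F) • C.π v := fun v hv => by
    rw [← commutatorElement_inv, C.map_inv (inv_mem_iff.mp (commutatorElement_inv z v ▸ k1 v)),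
      C.map_commutator (hρ z).1 hv, (hρ z).2 v hv, hz]
    simp [two_smul, neg_mulVec]
  let Φ : K →* qdOver F := MonoidHom.mk' (fun g => H8.mkQ (ρ g) (C.π ⁅g, z⁆)) fun g h => by
    rw [H8.mkQ_mul, map_mul, ← (hρ g).2 _ (k1 h), add_comm, ← C.map_mul _
      (Normal.conj_mem inferInstance _ (k1 h) g) _ (k1 g)]
    congr 2
    simp only [commutatorElement_def]; group
  have hΦ : Φ.ker = Z₀ := by
    ext g
    rw [MonoidHom.mem_ker]
    change H8.mkQ _ _ = 1 ↔ _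
    rw [H8.mkQ_eq_one]
    refine ⟨fun ⟨h1, h3⟩ => ?_, fun h => ⟨(hρ g).unique (H8.SecMap.rel_of_mem (n.le h)), ?_⟩⟩
    · rw [k2 g (k0 g h1), smul_eq_zero] at h3
      exact (C.eq_zero g (k0 g h1)).mp (h3.resolve_left h2)
    · rw [k2 g (n.le h), (C.eq_zero g (n.le h)).mpr h, smul_zero]
  have Φs : Function.Surjective Φ := fun X => by
    obtain ⟨M, v, rfl⟩ := H8.exists_mkQ X
    obtain ⟨g, rfl⟩ := ρs M
    obtain ⟨x, hx, e⟩ := C.surj ((2 : F)⁻¹ • (v - C.π ⁅g, z⁆))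
    refine ⟨x * g, (map_mul Φ x g).trans ?_⟩
    change H8.mkQ _ _ * H8.mkQ _ _ = _
    rw [H8.mkQ_mul, (hρ x).unique (H8.SecMap.rel_of_mem hx), k2 x hx, e, smul_smul,
      mul_inv_cancel₀ h2]
    simp
  let V : Subgroup K :=
    { carrier := {v | v ∈ Q ∧ z * v * z⁻¹ = v⁻¹}
      one_mem' := ⟨one_mem _, by simp⟩
      mul_mem' := fun {a b} ha hb => ⟨mul_mem ha.1 hb.1, by
        rw [← conj_mul, ha.2, hb.2, hQ' ha.1 b hb.1 |>.symm, _root_.mul_inv_rev]⟩
      inv_mem' := fun {a} ha => ⟨inv_mem ha.1, by rw [← conj_inv, ha.2]⟩ }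
  have v1 : ∀ v ∈ Q, ⁅v, z⁆ ∈ V := fun v hv => ⟨k1 v, by
    have h3 := hQ' (k0 (z * z) (by simp [hz])) _ (inv_mem hv)
    calc z * ⁅v, z⁆ * z⁻¹ = z * v * z⁻¹ * (z * z * v⁻¹) * (z * z)⁻¹ := by
          simp only [commutatorElement_def]; group
      _ = _ := by rw [← h3]; simp only [commutatorElement_def]; group⟩
  have v2 : ∀ v ∈ V, ⁅v, z⁆ = v ^ 2 := fun v hv => by
    rw [sq, ← _root_.inv_inj, commutatorElement_inv, commutatorElement_def, hv.2, _root_.mul_inv_rev]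
  haveI : V.Normal := ⟨fun v hv g => ⟨Normal.conj_mem inferInstance _ hv.1 g, by
    have h3 := hQ' (k1 g⁻¹) _ (inv_mem hv.1)
    calc z * (g * v * g⁻¹) * z⁻¹ = g * (⁅g⁻¹, z⁆ * (z * v * z⁻¹)) * ⁅g⁻¹, z⁆⁻¹ * g⁻¹ := by
          simp only [commutatorElement_def]; group
      _ = _ := by rw [hv.2, ← h3]; group⟩⟩
  have v3 : Q ≤ V ⊔ Z₀ := fun v hv => H7.mem_of_pow_mem_of_pow_mem cop (by
    simpa only [inv_mul_cancel_right] using mul_mem (mem_sup_right ((C.eq_iff (pow_mem hv 2)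
      (k1 v)).mp (by rw [k2 v hv, C.map_pow hv, two_smul, two_smul]))) (mem_sup_left (v1 v hv)))
    (by rw [hQ.2 v hv]; exact one_mem _)
  have v4 : V ≤ ⁅(⊤ : Subgroup K), ⊤⁆ := fun v hv => H7.mem_of_pow_mem_of_pow_mem cop
    (v2 v hv ▸ commutator_mem_commutator trivial trivial) (by rw [hQ.2 v hv.1]; exact one_mem _)
  have v5 : ⁅Q, ⊤⁆ ≤ V := (commutator_mono v3 le_rfl).trans (H7.sup_commutator_le
    le_normalizer_of_normal le_normalizer_of_normal (commutator_le_left _ _)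
    (H7.commutator_le_of_le_centralizer (le_centralizer_iff.mp (hZ.trans H7.centralizer_top'.ge))))
  have v6 : ⁅(S : Subgroup K), (S : Subgroup K)⁆ ≤ V := by
    rw [← hS]
    refine H7.sup_commutator_le le_normalizer_of_normal le_normalizer_of_normal
      (H7.commutator_sup_le le_normalizer_of_normal le_normalizer_of_normal
        (H7.commutator_le_of_le_centralizer hA) ?_) ((commutator_mono le_rfl le_top).trans v5)
    rw [commutator_comm]
    exact (commutator_mono le_rfl le_top).trans v5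
  have e1 : ⁅(⊤ : Subgroup K), ⊤⁆ ⊓ Z₀ = ⊥ := eq_bot_iff.mpr fun c hc => by
    have h3 := v2 _ (v6 (pow_index_mem (S : Subgroup K) hc.1 (hZ hc.2)))
    rw [commutatorElement_eq_one_iff_mul_comm.mpr
      (mem_center_iff.mp (pow_mem (hZ hc.2) _) z).symm, ← pow_mul] at h3
    exact H7.mem_of_pow_mem_of_pow_mem (Nat.Coprime.mul_left
      ((Nat.Prime.coprime_iff_not_dvd Fact.out).mpr S.not_dvd_index).symm cop) h3.symm
      (hQ.2 c (n.le hc.2))
  have e2 : ⁅(⊤ : Subgroup K), ⊤⁆ ⊔ Z₀ = ⊤ := eq_top_iff.mpr fun g _ => by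
    have h3 : Subgroup.map ρ ⁅(⊤ : Subgroup K), (⊤ : Subgroup K)⁆ = ⊤ := by
      rw [map_commutator, map_top_of_surjective ρ ρs]
      obtain ⟨a, ha, ha'⟩ : ∃ a : F, a ≠ 0 ∧ a ^ 2 ≠ 1 := ⟨2, h2, fun e => by
        have := (CharP.cast_eq_zero_iff F p 3).mp (by push_cast; linear_combination e)
        exact absurd (Nat.le_of_dvd (by decide) this) (by omega)⟩
      exact SL2.commutator_eq_top ha ha'
    obtain ⟨x, hx, e⟩ := h3.ge (mem_top (ρ g))
    exact (mul_mem_cancel_left (inv_mem (mem_sup_left hx))).mp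
      (sup_le_sup_right v4 _ (v3 (k0 _ (by simp [e]))))
  refine ⟨e1, e2, ⟨MulEquiv.ofBijective (Φ.comp (Subgroup.subtype _)) ⟨?_, fun X => ?_⟩⟩⟩
  · exact (injective_iff_map_eq_one _).mpr fun x hx => Subtype.ext (e1.le ⟨x.2, hΦ.le hx⟩)
  · obtain ⟨g, rfl⟩ := Φs X
    obtain ⟨x, hx, c, hc, rfl⟩ := (H7.mem_sup_of_le_normalizer' le_normalizer_of_normal).mp
      (e2.ge (mem_top g))
    exact ⟨⟨x, hx⟩, by rw [map_mul, show Φ c = 1 from hΦ.ge hc, mul_one]; rfl⟩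


/-- Let p ≥ 5 be prime and G a maximal p-local subgroup of a finite group H (G is the normalizer of a nontrivial p-subgroup and lies in no other such normalizer). Suppose C_G(O_p(G)) ≤ O_p(G), G/K ≅ PSL₂(p^n) for some normal K and n ≥ 1, a Sylow p-subgroup S of G lies in exactly one maximal subgroup of G, and N_H(S) is not contained in G. Then G = G₀ × E for subgroups G₀ ≅ Qd(p^n) (the natural semidirect product of the plane over the field with p^n elements by SL₂) and E an elementary abelian p-group. -/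
theorem result {H : Type*} [Group H] [Finite H] {p : ℕ} [Fact p.Prime] (hp : 5 ≤ p) (G : Subgroup H) (hloc : ∃ R : Subgroup H, IsPGroup p ↥R ∧ R ≠ ⊥ ∧ G = Subgroup.normalizer (R : Set H)) (hmax : ∀ R : Subgroup H, IsPGroup p ↥R → R ≠ ⊥ → G ≤ Subgroup.normalizer (R : Set H) → Subgroup.normalizer (R : Set H) = G) (S : Sylow p ↥G) (hE₁ : Subgroup.centralizer (Cfsg.pCore p ↥G : Set ↥G) ≤ Cfsg.pCore p ↥G) (hE₂ : ∃! M : Subgroup ↥G, IsCoatom M ∧ (S : Subgroup ↥G) ≤ M) (K : Subgroup ↥G) [K.Normal] (F : Type) [Field F] [Fintype F] (n : ℕ) (hn : 1 ≤ n) (hF : Fintype.card F = p ^ n) (hE₃ : Nonempty (↥G ⧸ K ≃* Matrix.ProjectiveSpecialLinearGroup (Fin 2) F)) (hN : ¬ Subgroup.normalizer (((S : Subgroup ↥G).map G.subtype : Subgroup H) : Set H) ≤ G) : ∃ G₀ E : Subgroup H, Cfsg.IsInternalDirectProduct G₀ E G ∧ Cfsg.IsElementaryAbelian p E ∧ Nonempty (↥G₀ ≃* ↥(Cfsg.qdOver F)) := by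
  haveI := H9.charP_of_card hF
  obtain ⟨e⟩ := hE₃
  obtain ⟨Γ, l⟩ := H9.exists_lift S hE₂ K e
  have l' := l.map G.subtype_injective
  rw [H7.map_top_subtype] at l'
  have hT := H7.isSylowIn_map_subtype S
  have h : H9.PU F p G := H9.PU.of_one (H7.isCharP_iff.mpr hE₁) ⟨_, l'⟩ hT fun N h1 h2 h3 =>
    by_contra fun h0 => hN (h3.trans (hmax N (hT.isPGroup.to_le h1) h0 h2).le)
  rcases h.cd_cases with d | d
  swap
  · obtain ⟨α, T₀, β, v⟩ := h.exists_vx d H9.pt_self hT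
    obtain ⟨γ, T₂, v'⟩ := h.vx_next d v
    exact absurd (h.vx_three d v v').1 (by omega)
  obtain ⟨β, c⟩ := H9.PU.crit_one d H9.pt_self hT
  have k : ∀ {α δ : Subgroup H}, H9.Crit p G δ ((S : Subgroup G).map G.subtype) α
      ((S : Subgroup G).map G.subtype) → ⁅pCoreOf p δ, pCoreOf p δ⁆ ≤ ⁅pCoreOf p α, pCoreOf p α⁆ :=
    fun {α δ} c => by
      rw [← h.one_Q c]
      exact (H9.commutator_sup_sup_le (inf_le_right.trans (H9.Q_le_CZ δ)) le_rfl le_rfl le_rfl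
        le_rfl).trans (sup_le (H7.commutator_le_of_le_centralizer (H7.ea_le_centralizer (H9.ea_Zp δ)))
          (commutator_mono inf_le_left inf_le_left))
  have h1 : ⁅pCoreOf p G, pCoreOf p G⁆ = ⊥ := by_contra fun h0 => by
    have h2 := hmax _ ((H7.isPGroup_pCoreOf p G).to_le (H7.commutator_le_left_of_le_normalizer
      le_normalizer)) h0 (H7.le_normalizer_commutator (H7.le_normalizer_pCoreOf p G)
        (H7.le_normalizer_pCoreOf p G))
    rw [le_antisymm (k c) (k (h.symm c))] at h2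
    obtain ⟨x, rfl⟩ := c.r
    have h3 := H7.eq_of_le_of_card_le ((H7.le_normalizer_commutator (H7.le_normalizer_pCoreOf p _)
      (H7.le_normalizer_pCoreOf p _)).trans h2.le) (H7.card_cj x G).ge
    exact c.nc (h3.symm ▸ H9.Zp_le G)
  have hp2 : p ≠ 2 := by omega
  have hQ : IsElementaryAbelian p (pCoreOf p G) := H7.isElementaryAbelian_iff.mpr
    ⟨H7.commutator_eq_bot_iff'.mp h1, fun t ht => h.one_pow c dvd_rfl
      ((Fact.out : p.Prime).dvd_choose_self (by decide) (by omega)) (hT.pCoreOf_le ht)⟩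
  have h2 : H9.Zp p G = (pCore p G).map G.subtype := le_antisymm (H9.Zp_le G)
    (H7.le_omegaOneCenter le_rfl (H7.ea_le_centralizer hQ) hQ.2)
  obtain ⟨C, b⟩ := h.one_base c
  have h3 := h.sup c
  have h4 := H7.ea_le_centralizer (H9.ea_Zp (p := p) β)
  obtain ⟨A, hA⟩ : ∃ A : Subgroup G, H9.Zp p β = A.map G.subtype :=
    ⟨_, (map_subgroupOf_eq_of_le (c.zl.trans hT.le)).symm⟩
  obtain ⟨Z₀, hZ⟩ : ∃ A : Subgroup G, H9.Zp p G ⊓ centralizer (G : Set H) = A.map G.subtype :=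
    ⟨_, (map_subgroupOf_eq_of_le ((inf_le_left.trans (H9.Zp_le G)).trans (H7.pCoreOf_le p G))).symm⟩
  generalize H9.Zp p G ⊓ centralizer (G : Set H) = Z₁ at C b hZ
  generalize H9.Zp p G = Z at C b h2
  subst hZ h2
  rw [hA, ← H7.pCoreOf_def, ← Subgroup.map_sup] at h3
  have n : H9.NatAct ((⊤ : Subgroup G).map G.subtype) C := (H7.map_top_subtype G).symm ▸ b.nat
  have hZ : Z₀ ≤ center G := fun z hz => mem_center_iff.mpr fun g =>
    Subtype.ext (b.cen (mem_map_of_mem _ hz) _ g.2)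
  obtain ⟨e1, e2, ⟨e3⟩⟩ := split hp (A := A) S (n.of_map G.subtype_injective)
    (fun g hg => H7.mem_pCoreOf_iff.mp ((b.ker g g.2).mp
      ((H9.rel_secComap G.subtype_injective).mp hg))) hZ (H7.ea_map_subtype_iff.mp hQ)
    (fun a ha b hb => Subtype.ext (h4 (hA ▸ mem_map_of_mem _ ha) _ (hA ▸ mem_map_of_mem _ hb)))
    (Subgroup.map_injective G.subtype_injective h3)
  refine ⟨Subgroup.map G.subtype ⁅(⊤ : Subgroup G), (⊤ : Subgroup G)⁆, Z₀.map G.subtype, ⟨map_subtype_le _, map_subtype_le _,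
    fun a ha z hz => b.cen hz a (map_subtype_le _ ha), ?_, ?_⟩, H7.ea_mono hQ b.nat.le,
    ⟨(equivMapOfInjective _ _ G.subtype_injective).symm.trans e3⟩⟩
  · rw [← map_inf _ _ _ G.subtype_injective, e1, Subgroup.map_bot]
  · rw [← Subgroup.map_sup, e2, H7.map_top_subtype]

end Cfsg.Agent.S2766
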