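import Cfsg.Statements.S2772
import Cfsg.Agent.H9.S3Final

set_option autoImplicit false
open Cfsg

namespace Cfsg.Agent.S2772

open Subgroup in
theorem three {H : Type*} [Group H] [Finite H] {G T : Subgroup H} (hch : H7.IsCharP 2 G)
    (hT : H7.IsSylowIn 2 T G) {q : ℕ} (hq : q.Prime) (h1 : (pCoreOf 2 G).relIndex T = 2)
    (h2 : T.relIndex G = q) (hJ : ¬ G ≤ normalizer (thompsonSubgroupOf 2 T : Set H))
    (hZ : ¬ G ≤ centralizer (omegaOneCenter 2 T : Set H)) : q = 3 := by
  haveI : Fact q.Prime := ⟨hq⟩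
  set Q := pCoreOf 2 G with hQ
  set V := omegaOneCenter 2 Q with hV
  have hQn : G ≤ normalizer (Q : Set H) := H7.le_normalizer_pCoreOf 2 G
  have hVn : G ≤ normalizer (V : Set H) := hQn.trans (H7.normalizer_le_normalizer_omegaOneCenter 2 Q)
  have hVe : IsElementaryAbelian 2 V := H7.ea_omegaOneCenter 2 Q
  have hQV : Q ≤ centralizer (V : Set H) := H7.le_centralizer_omegaOneCenter 2 Q
  have hq2 : q ≠ 2 := fun e => hT.not_dvd_relIndex (by rw [h2, e])
  have hmax : ∀ X : Subgroup H, X ≤ G → ¬ X ≤ T → T ⊔ X = G := fun X hX hn =>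
    (H9.eq_or_eq_of_relIndex_prime (h2 ▸ hq) le_sup_left (sup_le hT.le hX)).resolve_left
      fun e => hn (le_sup_right.trans e.le)
  have hC : G ⊓ centralizer (V : Set H) ≤ Q := by
    by_cases hle : G ⊓ centralizer (V : Set H) ≤ T
    · exact H7.le_pCoreOf (hT.isPGroup.to_le hle) inf_le_left
        (H7.le_normalizer_inf le_normalizer (H7.le_normalizer_centralizer hVn))
    · refine absurd ((hmax _ inf_le_left hle).ge.trans (sup_le
        (H7.le_centralizer_omegaOneCenter 2 T) (inf_le_right.trans (H7.centralizer_anti ?_)))) hZ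
      exact hch.omegaOneCenter_le hT.le hT.pCoreOf_le
  obtain ⟨A, hA, hAQ⟩ := H9.exists_maxEA_not_le (p := 2) (T := T) (K := Q) fun hle => hJ (by
    rw [← H9.J_eq_of_le hle hT.pCoreOf_le]
    exact hQn.trans (H9.normalizer_le_normalizer_J 2 Q))
  have hQA : Q ⊔ A = T :=
    (H9.eq_or_eq_of_relIndex_prime (by rw [h1]; exact Nat.prime_two) le_sup_left
      (sup_le hT.pCoreOf_le hA.le)).resolve_left fun e => hAQ (le_sup_right.trans e.le)
  have h3 : (centralizer (T : Set H)).relIndex V ≤ 2 := by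
    have h4 := hA.best ((H7.omegaOneCenter_le 2 Q).trans hT.pCoreOf_le) hVe (Q ⊓ A) inf_le_right
    have h5 := H7.relIndex_mul_card_inf Q A
    rw [← H7.relIndex_sup_of_le_normalizer ((hA.le.trans hT.le).trans hQn), sup_comm, hQA, h1] at h5
    have h6 := H7.relIndex_mul_card_inf (centralizer (T : Set H)) V
    have h7 : centralizer (T : Set H) ⊓ V = V ⊓ centralizer (A : Set H) := by
      rw [← hQA, H7.centralizer_sup, inf_comm, ← inf_assoc,
        inf_eq_left.mpr (le_centralizer_iff.mp hQV)]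
    rw [inf_eq_left.mpr (le_centralizer_iff.mp (inf_le_left.trans hQV)), ← h5, ← h6, h7] at h4
    have h8 : 0 < Nat.card ↥(Q ⊓ A) * Nat.card ↥(V ⊓ centralizer (A : Set H)) :=
      Nat.mul_pos Nat.card_pos Nat.card_pos
    nlinarith
  have hTn : ¬ G ≤ normalizer (T : Set H) := fun hn => by
    have := hT.pCoreOf_eq hn
    rw [← hQ] at this
    rw [this, relIndex_self] at h1
    exact absurd h1 (by decide)
  obtain ⟨g, hg, hgn⟩ := SetLike.not_le_iff_exists.mp hTn
  have hT' := hT.cj_of_mem hg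
  have h4 : T ⊔ H7.cj g T = G := hmax _ hT'.le fun hle =>
    hgn (H7.mem_normalizer_of_cj_le hle)
  have h5 : (centralizer (G : Set H)).relIndex V ≤ 4 := by
    rw [← h4, H7.centralizer_sup]
    refine (relIndex_inf_le).trans ?_
    have : (centralizer (H7.cj g T : Set H)).relIndex V = (centralizer (T : Set H)).relIndex V := by
      rw [← H7.cj_centralizer, ← H9.relIndex_cj g (centralizer (T : Set H)) V,
        H7.cj_eq_of_mem_normalizer (hVn hg)]
    rw [this]
    nlinarith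
  obtain ⟨y, hy, hy1, hyq⟩ := H9.exists_mem_pow_eq_one_of_dvd (p := q) (K := G)
    (h2 ▸ H9.relIndex_dvd_card' T G)
  have ho : orderOf y = q := orderOf_eq_prime hyq hy1
  have hD : zpowers y ≤ G := zpowers_le_of_mem hy
  have hcD : Nat.card (zpowers y) = q := by rw [Nat.card_zpowers, ho]
  have hcop : (Nat.card (zpowers y)).Coprime (Nat.card V) :=
    H9.coprime_of_odd_of_isPGroup (hcD ▸ hq.odd_of_ne_two hq2) (H7.ea_isPGroup hVe)
  have h6 : Nat.card ↥⁅V, zpowers y⁆ ≤ 4 := by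
    rw [H9.card_commutator_eq_relIndex (H7.ea_le_centralizer hVe) (hD.trans hVn) hcop]
    exact (relIndex_le_of_le_left (H7.centralizer_anti hD) (H9.relIndex_pos _ _).ne').trans h5
  have h7 := H9.relIndex_centralizer_dvd_factorial (U := ⁅V, zpowers y⁆) (X := zpowers y)
    H9.le_normalizer_commutator_self
  have h8 : (centralizer ((⁅V, zpowers y⁆ : Subgroup H) : Set H)).relIndex (zpowers y) = q := by
    refine ((Nat.dvd_prime hq).mp (hcD ▸ H9.relIndex_dvd_card' _ _)).resolve_left fun e => ?_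
    have h9 := H9.commutator_eq_bot_of_coprime (hD.trans hVn) hcop
      (H7.commutator_eq_bot_iff'.mpr (relIndex_eq_one.mp e))
    have h10 : y ∈ Q := hC ⟨hy, H7.commutator_eq_bot_iff'.mp h9 (mem_zpowers y)⟩
    obtain ⟨k, hk⟩ := H7.isPGroup_pCoreOf 2 G ⟨y, h10⟩
    have h11 : orderOf y ∣ 2 ^ k := orderOf_dvd_of_pow_eq_one (congrArg Subtype.val hk)
    exact hq2 ((Nat.prime_dvd_prime_iff_eq hq Nat.prime_two).mp (hq.dvd_of_dvd_pow (ho ▸ h11)))
  have h9 : q ≤ 3 := hq.dvd_factorial.mp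
    ((h8 ▸ h7).trans (Nat.factorial_dvd_factorial (by omega)))
  have := hq.two_le
  omega

/-- Sims' Theorem in local form: let H be a finite non-abelian simple group and G a maximal subgroup of H with C_G(O₂(G)) ≤ O₂(G), such that N_H(S) is not contained in G for a Sylow 2-subgroup S of G and G/O₂(G) is dihedral of order 2q for a prime q. Then G is isomorphic to the symmetric group of degree 4 or to its direct product with a group of order 2. -/
theorem result {H : Type*} [Group H] [Finite H] [IsSimpleGroup H] (hna : ¬ IsMulCommutative H) (G : Subgroup H) (hG : IsCoatom G) (hchar : Subgroup.centralizer (Cfsg.pCore 2 ↥G : Set ↥G) ≤ Cfsg.pCore 2 ↥G) (S : Sylow 2 ↥G) (hN : ¬ Subgroup.normalizer (((S : Subgroup ↥G).map G.subtype : Subgroup H) : Set H) ≤ G) (q : ℕ) (hq : q.Prime) (hD : Nonempty (↥G ⧸ Cfsg.pCore 2 ↥G ≃* DihedralGroup q)) : Nonempty (↥G ≃* Equiv.Perm (Fin 4)) ∨ Nonempty (↥G ≃* Equiv.Perm (Fin 4) × Multiplicative (ZMod 2)) := by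
  open Subgroup in
  obtain ⟨x, hx, hxG⟩ := SetLike.not_le_iff_exists.mp hN
  have hT := H7.isSylowIn_map_subtype S
  generalize (S : Subgroup ↥G).map G.subtype = T at hx hT
  have hch : H7.IsCharP 2 G := H7.isCharP_iff.mpr hchar
  haveI : NeZero q := ⟨hq.ne_zero⟩
  have h0 : (pCoreOf 2 G).relIndex G = 2 * q := by
    rw [relIndex, H7.pCoreOf_subgroupOf, index, Nat.card_congr hD.some.toEquiv,
      DihedralGroup.nat_card]
  have hq2 : q ≠ 2 := fun e => by
    subst e
    have : IsPGroup 2 G := H7.isPGroup_of_pow_mem (H7.isPGroup_pCoreOf 2 G) fun y hy =>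
      ⟨2, by simpa [h0] using H9.pow_relIndex_mem (H7.le_normalizer_pCoreOf 2 G) hy⟩
    rw [H7.pCoreOf_eq_self_iff.mpr this, relIndex_self] at h0
    exact absurd h0 (by decide)
  have h1 : (pCoreOf 2 G).relIndex T = 2 ∧ T.relIndex G = q := by
    have h1 := relIndex_mul_relIndex _ _ _ hT.pCoreOf_le hT.le
    rw [h0] at h1
    obtain ⟨n, hn⟩ := hT.isPGroup.exists_card_eq
    obtain ⟨k, -, hk⟩ := (Nat.dvd_prime_pow Nat.prime_two).mp
      (hn ▸ H9.relIndex_dvd_card' (pCoreOf 2 G) T)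
    have h2 := hT.not_dvd_relIndex
    have h3 := H9.not_two_dvd_of_odd (hq.odd_of_ne_two hq2)
    rw [hk] at h1 ⊢
    match k with
    | 0 => omega
    | 1 => omega
    | k + 2 =>
      exfalso
      apply h3
      exact ⟨2 ^ k * T.relIndex G, by rw [pow_add] at h1; nlinarith⟩
  have hT1 : T ≠ ⊥ := fun e => by
    have := h1.1
    rw [e, relIndex_bot_right] at this
    exact absurd this (by decide)
  have hne : ∀ N : Subgroup H, N ≤ G → G ≤ normalizer (N : Set H) → x ∈ normalizer (N : Set H) →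
      N = ⊥ := fun N h2 h3 h4 => by
    have h5 : normalizer (N : Set H) = ⊤ :=
      hG.2 _ (lt_of_le_of_ne h3 fun e => hxG (e ▸ h4))
    exact (normalizer_eq_top_iff.mp h5).eq_bot_or_eq_top.resolve_right fun e =>
      hG.1 (eq_top_iff.mpr (e ▸ h2))
  have hZ : ¬ G ≤ centralizer (omegaOneCenter 2 T : Set H) := fun hle =>
    H7.omegaOneCenter_ne_bot hT.isPGroup hT1 (hne _ ((H7.omegaOneCenter_le 2 T).trans hT.le)
      (H7.le_normalizer_of_le_centralizer hle) (H7.normalizer_le_normalizer_omegaOneCenter 2 T hx))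
  have h3 : q = 3 := three hch hT hq h1.1 h1.2 (fun hle => H9.J_ne_bot hT.isPGroup hT1
    (hne _ ((H9.J_le 2 T).trans hT.le) hle (H9.normalizer_le_normalizer_J 2 T hx))) hZ
  have hL : H9.S3L G := ⟨by rw [h0, h3]⟩
  have hxT := H7.cj_eq_of_mem_normalizer hx
  have hT' : H7.IsSylowIn 2 T (H7.cj x G) := hxT ▸ hT.cj x
  have hn : ¬ G ≤ H7.cj x G := fun hle => by
    have e : G = H7.cj x G := eq_of_le_of_card_ge hle (H7.card_cj x G).le
    exact hT1 (eq_bot_iff.mpr (hT.le.trans
      (hne G le_rfl le_normalizer (H7.mem_normalizer_iff_cj.mpr e.symm)).le))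
  have hn' : ¬ H7.cj x G ≤ G := fun hle =>
    hn (eq_of_le_of_card_ge hle (H7.card_cj x G).ge).ge
  have he : G ⊓ H7.cj x G = T :=
    (H9.eq_or_eq_of_relIndex_prime (h1.2 ▸ hq) (le_inf hT.le hT'.le) inf_le_left).resolve_right
      fun e => hn (e.ge.trans inf_le_right)
  have hA : H9.S3Am G (H7.cj x G) := ⟨hG.2 _ (left_lt_sup.mpr hn'), he ▸ hT, he ▸ hT', hL, hL.cj x,
    fun N h2 h3 => h3.eq_bot_or_eq_top.resolve_right fun e =>
      hG.1 (eq_top_iff.mpr ((e ▸ h2).trans inf_le_left))⟩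
  obtain ⟨-, -, h⟩ := H9.s3_amalgam_finite hA hch (hch.cj x) (he ▸ hZ) (by
    rw [he, ← hxT, ← H7.cj_omegaOneCenter, ← H7.cj_centralizer, H7.cj_le_cj_iff]
    exact hZ)
  rcases h with ⟨-, -, e, -⟩ | ⟨-, -, ⟨e⟩, -⟩
  · exact Or.inl e
  · exact Or.inr ⟨e.trans MulEquiv.prodComm⟩

end Cfsg.Agent.S2772
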