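import Cfsg.Statements.S2773
import Cfsg.Agent.H8.GNTr3

set_option autoImplicit false
universe u
open Cfsg

namespace Cfsg.Agent.S2773

open Subgroup Cfsg.L0 Cfsg.H8
open scoped commutatorElement


/-- For every nontrivial finite 3-group S there is a nontrivial characteristic subgroup K of S such that, in every finite group G containing S as a Sylow 3-subgroup, S ∩ G' is the product of S ∩ (C_G(Z(S)))' and S ∩ (N_G(K))' (derived subgroups; product taken elementwise). -/
theorem result {S : Type u} [Group S] [Finite S] [Nontrivial S] (hS : IsPGroup 3 S) : ∃ K : Subgroup S, K ≠ ⊥ ∧ K.Characteristic ∧ ∀ (G : Type u) [Group G] [Finite G] (τ : S →* G), Function.Injective τ → (∃ P : Sylow 3 G, (P : Subgroup G) = τ.range) → ∀ g : G, g ∈ τ.range ⊓ commutator G ↔ ∃ a ∈ τ.range ⊓ ⁅Subgroup.centralizer ((τ.range ⊓ Subgroup.centralizer (τ.range : Set G) : Subgroup G) : Set G), Subgroup.centralizer ((τ.range ⊓ Subgroup.centralizer (τ.range : Set G) : Subgroup G) : Set G)⁆, ∃ b ∈ τ.range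 ⊓ ⁅Subgroup.normalizer ((K.map τ : Subgroup G) : Set G), Subgroup.normalizer ((K.map τ : Subgroup G) : Set G)⁆, g = a * b := by
  have : Fact (Nat.Prime 3) := ⟨Nat.prime_three⟩
  have hm : ∀ (G : Type u) [Group G] [Finite G] (τ : S →* G), Function.Injective τ →
      (kk 3 ⊤).map τ = kk 3 τ.range := fun G _ _ τ h => by rw [map_kk h, MonoidHom.range_eq_map]
  refine ⟨kk 3 ⊤, kk_ne_bot (H7.isPGroup_top_iff.2 hS) top_ne_bot,
    H9.characteristic_of_map _ (hm S), fun G _ _ τ hτ ⟨P, hP⟩ g => ?_⟩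
  rw [hm G τ hτ, ← hP]
  have h1 : (P : Subgroup G) ≤ normalizer (kk 3 (P : Subgroup G) : Set G) :=
    (H9.le_normalizer_jt le_normalizer).trans (normalizer_jt_le_kk _)
  have h2 := le_inf (H7.commutator_le_left_of_le_normalizer le_normalizer) (commutator_mono h1 h1)
  refine ⟨fun hg => ?_, fun ⟨a, ha, b, hb, e⟩ => e ▸ mul_mem
    ⟨ha.1, commutator_mono le_top le_top ha.2⟩ ⟨hb.1, commutator_mono le_top le_top hb.2⟩⟩
  have h3 := gn_transfer (by norm_num) (isSyl_sylow P) (h2.trans le_sup_right)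
    (by rw [top_inf_eq]; exact le_sup_left) (by rw [top_inf_eq]; exact le_sup_right) hg
  obtain ⟨a, ha, b, hb, e⟩ := (H7.mem_sup_of_le_normalizer (inf_le_left.trans
    (H7.le_normalizer_of_commutator_le inf_le_left h2))).1 h3
  exact ⟨a, ha, b, hb, e.symm⟩

end Cfsg.Agent.S2773
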