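import Cfsg.Statements.S2774
import Cfsg.Agent.H8.GNTr3

set_option autoImplicit false
open Cfsg

namespace Cfsg.Agent.S2774

open Subgroup Cfsg.L0 Cfsg.H8
open scoped commutatorElement


/-- Let p be an odd prime and S a nontrivial Sylow p-subgroup of a finite group G. Then S ∩ G' is generated by the subgroups S ∩ (N_G(K))' as K ranges over the nontrivial characteristic subgroups of S (derived subgroups of the normalizers). -/
theorem result {G : Type*} [Group G] [Finite G] {p : ℕ} [Fact p.Prime] (hp : p ≠ 2) (S : Sylow p G) (hS : (S : Subgroup G) ≠ ⊥) : (S : Subgroup G) ⊓ commutator G = ⨆ K : {K : Subgroup ↥(S : Subgroup G) // K ≠ ⊥ ∧ K.Characteristic}, (S : Subgroup G) ⊓ ⁅Subgroup.normalizer ((((K : Subgroup ↥(S : Subgroup G))).map (S : Subgroup G).subtype : Subgroup G) : Set G), Subgroup.normalizer ((((K : Subgroup ↥(S : Subgroup G))).map (S : Subgroup G).subtype : Subgroup G) : Set G)⁆ := by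
  refine le_antisymm ?_ (iSup_le fun K => inf_le_inf_left _ (commutator_mono le_top le_top))
  refine le_of_forall_ge fun F hF => ?_
  have key : ∀ b, (S : Subgroup G) ⊓ ⁅normalizer (gnSub p b (S : Subgroup G) : Set G),
      normalizer (gnSub p b (S : Subgroup G) : Set G)⁆ ≤ F := fun b => by
    have e := map_gnSub (p := p) b (S : Subgroup G).subtype_injective ⊤
    rw [H7.map_top_subtype] at e
    rw [← e]
    exact iSup_le_iff.1 hF ⟨gnSub p b ⊤, fun h => (gnFam p).ne_bot (b := b) S.isPGroup' ⟨hS, rfl⟩ (by
      rw [← e, h, Subgroup.map_bot]), H9.characteristic_of_map _ fun τ h => by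
        rw [map_gnSub b h, MonoidHom.range_eq_map]⟩
  have h1 := (gnFam p).cn (b := false) (T := (S : Subgroup G)) ⟨hS, rfl⟩
  exact gn_transfer hp (isSyl_sylow S) ((le_inf (H7.commutator_le_left_of_le_normalizer
    le_normalizer) (commutator_mono h1 h1)).trans (key false))
    ((inf_le_inf_left _ (commutator_mono (inf_le_right.trans (centralizer_le_normalizer _))
      (inf_le_right.trans (centralizer_le_normalizer _)))).trans (key true))
    ((inf_le_inf_left _ (commutator_mono inf_le_right inf_le_right)).trans (key false))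

end Cfsg.Agent.S2774
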