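import Cfsg.Statements.S2779
import Cfsg.Agent.H3.NatMod

set_option autoImplicit false
open Cfsg

namespace Cfsg.Agent.S2779

/-- Let L act on the elementary abelian p-group V (inside a finite group, by conjugation, faithfully) as SL₂(F) on its natural module, F a field with p^n elements, and let S be a Sylow p-subgroup of L. Then [V, S, S] = 1; |V| = p^(2n) and |C_V(S)| = p^n; and for every nonidentity s ∈ S and every v ∈ V outside C_V(S): C_V(s) = C_V(S) = [V, S] = [V, s] = the subgroup generated by the commutators [v, t], t ∈ S. -/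
theorem result {G : Type*} [Group G] [Finite G] {p : ℕ} [Fact p.Prime] {F : Type*} [Field F] [Fintype F] (n : ℕ) (hF : Fintype.card F = p ^ n) (V L : Subgroup G) (hnat : Cfsg.IsNaturalSL2Module F V L) (hf : L ⊓ Subgroup.centralizer (V : Set G) = ⊥) (S : Sylow p ↥L) (T : Subgroup G) (hT : T = ((S : Subgroup ↥L).map L.subtype)) : ⁅⁅V, T⁆, T⁆ = ⊥ ∧ Nat.card V = p ^ (2 * n) ∧ Nat.card ↥(V ⊓ Subgroup.centralizer ((T : Subgroup G) : Set G)) = p ^ n ∧ ∀ s ∈ T, s ≠ 1 → (V ⊓ Subgroup.centralizer ({s} : Set G)) = (V ⊓ Subgroup.centralizer ((T : Subgroup G) : Set G)) ∧ ⁅V, T⁆ = (V ⊓ Subgroup.centralizer ((T : Subgroup G) : Set G)) ∧ ⁅V, Subgroup.zpowers s⁆ = (V ⊓ Subgroup.centralizer ((T : Subgroup G) : Set G)) ∧ ∀ v ∈ V, v ∉ Subgroup.centralizer (T : Set G) → Subgroup.closure {x : G | ∃ t ∈ T, x = v * t * v⁻¹ * t⁻¹} = (V ⊓ Subgroup.centralizer ((T : Subgroup G) : Set G)) := by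
  haveI := charP_of_card_eq_prime_pow hF
  obtain ⟨N, hN⟩ := H3.exists_natMod hnat hf S
  rw [← hT] at hN
  have h1 : ∀ x ∈ T, ∃ b, N.ρ (H3.U b) = x := fun x hx => (hN x).1 hx
  have h2 : V ⊓ Subgroup.centralizer (T : Set G) = N.line :=
    N.inf_centralizer h1 ((hN _).2 ⟨1, rfl⟩) N.U_one_ne_one
  have h3 : ⁅V, T⁆ = N.line := N.commutator_eq_line h1 ((hN _).2 ⟨1, rfl⟩) N.U_one_ne_one
  refine ⟨?_, by rw [N.card_V, hF, ← pow_mul, mul_comm], by rw [h2, N.card_line, hF],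
    fun s hs hs1 => ⟨?_, h3.trans h2.symm, ?_, fun v hv hv1 => ?_⟩⟩
  · rw [h3, ← h2, Subgroup.commutator_eq_bot_iff_le_centralizer]
    exact inf_le_right
  · rw [h2]
    exact N.inf_centralizer (by rintro x rfl; exact h1 _ hs) rfl hs1
  · rw [h2]
    exact N.commutator_eq_line (fun x hx => h1 x (Subgroup.zpowers_le.2 hs hx))
      (Subgroup.mem_zpowers s) hs1
  · obtain ⟨w, rfl⟩ := (N.mem_V _).1 hv
    have hw : w 1 ≠ 0 := fun h => hv1 ((h2.ge (N.E_mem_line.2 h)).2)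
    rw [h2]
    refine le_antisymm ((Subgroup.closure_le _).2 ?_) ?_
    · rintro _ ⟨t, ht, rfl⟩
      obtain ⟨b, rfl⟩ := h1 t ht
      exact ⟨_, (N.commutator_U b w).symm⟩
    · rintro _ ⟨a, rfl⟩
      refine Subgroup.subset_closure ⟨_, (hN _).2 ⟨-(a / w 1), rfl⟩, ?_⟩
      rw [← commutatorElement_def, N.commutator_U]
      congr 2
      field_simp

end Cfsg.Agent.S2779
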