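import Cfsg.Statements.S2780
import Cfsg.Agent.H3.NatMod

set_option autoImplicit false
open Cfsg

namespace Cfsg.Agent.S2780

/-- Let L act on the elementary abelian p-group V (inside a finite group, faithfully) as SL₂(F) on its natural module, F a field with p^n elements, S a Sylow p-subgroup of L. Then: for every g ∈ L not normalizing S, V is the internal direct product of C_V(S) and C_V(gSg⁻¹); every nonidentity element of L of order prime to p acts on V without nonidentity fixed points; and C_V(S) and V/C_V(S) are irreducible for N_L(S): the only N_L(S)-invariant subgroups of C_V(S) are 1 and C_V(S), and the only N_L(S)-invariant subgroups between C_V(S) and V are those two. -/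
theorem result {G : Type*} [Group G] [Finite G] {p : ℕ} [Fact p.Prime] {F : Type*} [Field F] [Fintype F] (n : ℕ) (hF : Fintype.card F = p ^ n) (V L : Subgroup G) (hnat : Cfsg.IsNaturalSL2Module F V L) (hf : L ⊓ Subgroup.centralizer (V : Set G) = ⊥) (S : Sylow p ↥L) (T : Subgroup G) (hT : T = ((S : Subgroup ↥L).map L.subtype)) : (∀ g ∈ L, g ∉ Subgroup.normalizer (T : Set G) → Cfsg.IsInternalDirectProduct (V ⊓ Subgroup.centralizer ((T : Subgroup G) : Set G)) (V ⊓ Subgroup.centralizer ((T.map (MulAut.conj g).toMonoidHom : Subgroup G) : Set G)) V) ∧ (∀ x ∈ L, x ≠ 1 → (orderOf x).Coprime p → (V ⊓ Subgroup.centralizer ({x} : Set G)) = ⊥) ∧ (∀ U : Subgroup G, U ≤ (V ⊓ Subgroup.centralizer ((T : Subgroup G) : Set G)) → L ⊓ Subgroup.normalizer (T : Set G) ≤ Subgroup.normalizer (U : Set G) → U = ⊥ ∨ U = (V ⊓ Subgroup.centralizer ((T : Subgroup G) : Set G))) ∧ (∀ U : Subgroup G, (V ⊓ Subgroup.centralizer ((T : Subgroup G) : Set G)) ≤ U → U ≤ V → L ⊓ Subgroup.normalizer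 (T : Set G) ≤ Subgroup.normalizer (U : Set G) → U = (V ⊓ Subgroup.centralizer ((T : Subgroup G) : Set G)) ∨ U = V) := by
  have := charP_of_card_eq_prime_pow hF
  obtain ⟨N, hN⟩ := H3.exists_natMod hnat hf S
  rw [← hT] at hN
  have h1 : ∀ x ∈ T, ∃ b, N.ρ (H3.U b) = x := fun x hx => (hN x).1 hx
  have h2 : V ⊓ Subgroup.centralizer (T : Set G) = N.line :=
    N.inf_centralizer h1 ((hN _).2 ⟨1, rfl⟩) N.U_one_ne_one
  have hd : ∀ {W : Subgroup G}, L ⊓ Subgroup.normalizer (T : Set G) ≤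
      Subgroup.normalizer (W : Set G) → ∀ (t : Fˣ) (v : Fin 2 → F), N.E v ∈ W →
      N.E ![t * v 0, (t⁻¹ : Fˣ) * v 1] ∈ W := fun h t v hv => by
    rw [← H3.dg_mulVec, ← N.conj]
    exact ((h ⟨N.ρ_mem _, N.mem_normalizer hN (by simp [H3.dg, H3.mkSL_coe])⟩) _).1 hv
  rw [h2]
  refine ⟨fun g hg hg1 => ?_, fun x hx hx1 hx2 => ?_, fun W hW hn => ?_, fun W hW hW1 hn => ?_⟩
  · obtain ⟨A, rfl⟩ := (N.mem_L _).1 hg
    have hA : A 1 0 ≠ 0 := fun h => hg1 (N.mem_normalizer hN h)
    have hV : H7.cj (N.ρ A) V = V := by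
      refine H7.cj_eq_of_mem_normalizer (H7.mem_normalizer_of_conj_mem fun x hx => ?_)
      obtain ⟨v, rfl⟩ := (N.mem_V _).1 hx
      rw [N.conj]; exact N.E_mem _
    have h3 : V ⊓ Subgroup.centralizer ((T.map (MulAut.conj (N.ρ A)).toMonoidHom : Subgroup G) : Set G)
        = H7.cj (N.ρ A) N.line := by
      rw [← h2, H7.cj_inf, hV, H7.cj_centralizer]; rfl
    have h4 : ∀ a, N.E ![A 0 0 * a, A 1 0 * a] ∈ H7.cj (N.ρ A) N.line := fun a => by
      have := H7.conj_mem_cj (g := N.ρ A) (N.mem_line.2 ⟨a, rfl⟩)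
      rw [N.conj] at this
      convert this using 2
      ext i; fin_cases i <;> simp [Matrix.vecHead, Matrix.vecTail]
    have h5 : H7.cj (N.ρ A) N.line ≤ V := h3 ▸ inf_le_left
    rw [h3]
    refine ⟨N.line_le, h5, fun a ha b hb => N.comm (N.line_le ha) (h5 hb), ?_,
      le_antisymm (sup_le N.line_le h5) fun x hx => ?_⟩
    · rw [eq_bot_iff]
      rintro x ⟨hx, _, ⟨a, rfl⟩, rfl⟩
      change N.ρ A * _ * (N.ρ A)⁻¹ ∈ N.line at hx
      rw [N.conj, N.E_mem_line] at hx
      have : a = 0 := by simpa [Matrix.vecHead, Matrix.vecTail, hA] using hx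
      rw [this, N.E_eq_one.2 (by simp), map_one]
      exact Subgroup.one_mem _
    · obtain ⟨v, rfl⟩ := (N.mem_V _).1 hx
      have := Subgroup.mul_mem_sup (N.mem_line.2 ⟨v 0 - A 0 0 * (v 1 / A 1 0), rfl⟩) (h4 (v 1 / A 1 0))
      rw [← N.E_add] at this
      convert this using 2
      ext i; fin_cases i
      · simp
      · simp; field_simp
  · obtain ⟨A, rfl⟩ := (N.mem_L _).1 hx
    rw [eq_bot_iff]
    rintro y ⟨hy, hy1⟩
    obtain ⟨v, rfl⟩ := (N.mem_V _).1 hy
    by_contra hv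
    have hv0 : v ≠ 0 := fun h => hv (N.E_eq_one.2 h)
    have h3 := H3.pow_char_of_eigen (p := p) A hv0 (c := 1)
      (by rw [one_smul]; exact N.comm_iff.1 (hy1 _ rfl)) (one_pow 2)
    have h4 : A ^ p = 1 := Subtype.ext (by simpa using h3)
    refine hx1 (orderOf_eq_one_iff.1 (hx2.eq_one_of_dvd (orderOf_dvd_of_pow_eq_one ?_)))
    rw [← map_pow, h4, map_one]
  · refine (W.bot_or_exists_ne_one).imp_right ?_
    rintro ⟨x, hx, hx1⟩
    obtain ⟨a, rfl⟩ := hW hx
    have ha : a ≠ 0 := fun h => hx1 (N.E_eq_one.2 (by simp [h]))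
    refine le_antisymm hW ?_
    rintro _ ⟨b, rfl⟩
    by_cases hb : b = 0
    · rw [N.E_eq_one.2 (by simp [hb])]; exact W.one_mem
    · simpa [ha] using hd hn (Units.mk0 (b / a) (div_ne_zero hb ha)) _ hx
  · by_cases h : W ≤ N.line
    · exact .inl (le_antisymm h hW)
    obtain ⟨x, hx, hx1⟩ := SetLike.not_le_iff_exists.1 h
    obtain ⟨v, rfl⟩ := (N.mem_V _).1 (hW1 hx)
    rw [N.E_mem_line] at hx1
    refine .inr (le_antisymm hW1 fun y hy => ?_)
    obtain ⟨u, rfl⟩ := (N.mem_V _).1 hy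
    by_cases hu : u 1 = 0
    · exact hW (N.E_mem_line.2 hu)
    · have h3 := hd hn (Units.mk0 (v 1 / u 1) (div_ne_zero hx1 hu)) _ hx
      have := W.mul_mem h3 (hW (N.mem_line.2 ⟨u 0 - v 1 / u 1 * v 0, rfl⟩))
      rw [← N.E_add] at this
      convert this using 2
      ext i; fin_cases i
      · simp
      · simp; field_simp

end Cfsg.Agent.S2780
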