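import Cfsg.Statements.S2787
import Cfsg.Agent.H3.NoQuad

set_option autoImplicit false
open Cfsg

namespace Cfsg.Agent.S2787

/-- Let p be a prime and let H act by conjugation on the elementary abelian p-subgroup V of a finite group, irreducibly (no H-invariant subgroups of V other than 1 and V) and nontrivially, and suppose H/C_H(V) is isomorphic to PSL₂(F) for a field F with p^n elements, p^n odd, or p = 3 and H/C_H(V) is isomorphic to a Ree group ²G₂(3^(2m+1)), m ≥ 1. Then no subgroup A of H acting nontrivially on V acts quadratically: [V, A, A] = 1 forces [V, A] = 1. -/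
theorem result {G : Type*} [Group G] [Finite G] {p : ℕ} [Fact p.Prime] (V H : Subgroup G) (hV : Cfsg.IsElementaryAbelian p V) (hHV : H ≤ Subgroup.normalizer (V : Set G)) (hirr : ∀ U : Subgroup G, U ≤ V → H ≤ Subgroup.normalizer (U : Set G) → U = ⊥ ∨ U = V) (hnt : ¬ H ≤ Subgroup.centralizer (V : Set G)) [hn : ((Subgroup.centralizer (V : Set G)).subgroupOf H).Normal] (hq : (∃ (F : Type) (_ : Field F) (_ : Fintype F) (n : ℕ), Fintype.card F = p ^ n ∧ Odd (Fintype.card F) ∧ Nonempty (↥H ⧸ (Subgroup.centralizer (V : Set G)).subgroupOf H ≃* Matrix.ProjectiveSpecialLinearGroup (Fin 2) F)) ∨ (p = 3 ∧ Cfsg.Lie.IsoRee (↥H ⧸ (Subgroup.centralizer (V : Set G)).subgroupOf H))) (A : Subgroup G) (hA : A ≤ H) (hquad : ⁅⁅V, A⁆, A⁆ = ⊥) : ⁅V, A⁆ = ⊥ := by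
  have hP : IsPGroup p V := fun x => ⟨1, Subtype.ext (by simpa using (H7.isElementaryAbelian_iff.1 hV).2 _ x.2)⟩
  obtain ⟨hp, hq⟩ : p ≠ 2 ∧ H3.QFree (H ⧸ (Subgroup.centralizer (V : Set G)).subgroupOf H) := by
    rcases hq with ⟨F, _, _, n, h1, h2, ⟨e⟩⟩ | ⟨rfl, h⟩
    · have := charP_of_card_eq_prime_pow h1
      have hp : p ≠ 2 := by
        rintro rfl
        exact Nat.not_even_iff_odd.2 h2 (FiniteField.even_card_iff_char_two.1 (ringChar.eq F 2) |> Nat.even_iff.2)
      exact ⟨hp, (H3.qFree_PSL2 (H8.two_ne_zero_of_charP hp F)).of_injective (f := e.toMonoidHom)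
        e.injective⟩
    · exact ⟨by decide, H3.qFree_ree h⟩
  have hn := L0.le_normalizer_centralizer hHV
  have h1 : H8.ActsP p (H8.opMod p H (Subgroup.centralizer (V : Set G))) V :=
    ⟨(H8.opMod_le _ _ _).trans hHV, fun x hx => H8.pow_mem_of_mem_opMod hn hx⟩
  obtain ⟨W, hW⟩ := H8.exists_isSyl p (H8.opMod p H (Subgroup.centralizer (V : Set G)))
  have h2 := (hirr (V ⊓ Subgroup.centralizer (H8.opMod p H (Subgroup.centralizer (V : Set G))))
    inf_le_left (L0.le_normalizer_inf hHV (L0.le_normalizer_centralizer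
      (H8.self_le_normalizer_opMod hn)))).resolve_left fun hc => H7.inf_centralizer_ne_bot hW.isPGroup hP
        (hW.le.trans h1.1) (fun h => hnt (Subgroup.le_centralizer_iff.2 (h ▸ bot_le))) (eq_bot_iff.2
          fun v hv => hc.le ⟨hv.1, fun g hg => by
            obtain ⟨c, -, h3, w, h4, rfl⟩ := h1.exists_mul hW hg
            rw [mul_assoc, hv.2 w h4, ← mul_assoc, ← h3 v hv.1, mul_assoc]⟩)
  refine Subgroup.commutator_eq_bot_iff_le_centralizer.2 fun v hv a ha => (h2.ge hv).2 a ?_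
  exact H3.mem_opMod_of_qFree hp hP hHV hq (hA ha) (le_bot_iff.1 (hquad ▸ Subgroup.commutator_mono
    (Subgroup.commutator_mono le_rfl (Subgroup.zpowers_le.2 ha)) (Subgroup.zpowers_le.2 ha)))

end Cfsg.Agent.S2787
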