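import Cfsg.Statements.S2792
import Cfsg.Agent.H1.Yoshida

set_option autoImplicit false
set_option linter.style.haveILetI false
set_option linter.unusedVariables false
open Cfsg

namespace Cfsg.Agent.S2792

open Subgroup

/-- Let S be a Sylow p-subgroup of the finite group G and W a subgroup of S weakly closed in S with respect to G. If S ∩ G' ≠ S ∩ (N_G(W))', then there are x ∈ S, z ∈ W and a maximal subgroup W₀ of W such that the iterated commutator [x, z; p−1] (with [x, z] = x⁻¹z⁻¹xz and [x, z; i+1] = [[x, z; i], z]) lies in W₀ but not in the Frattini subgroup of W₀; in particular [x, z; p−1] ≠ 1. -/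
theorem result {G : Type*} [Group G] [Finite G] {p : ℕ} [Fact p.Prime] (S : Sylow p G) (W : Subgroup G) (hW : Cfsg.IsWeaklyClosed W (S : Subgroup G)) (h : (S : Subgroup G) ⊓ commutator G ≠ (S : Subgroup G) ⊓ ⁅Subgroup.normalizer (W : Set G), Subgroup.normalizer (W : Set G)⁆) : ∃ x ∈ (S : Subgroup G), ∃ z ∈ W, ∃ W₀ : Subgroup ↥W, IsCoatom W₀ ∧ (fun y : G => y⁻¹ * z⁻¹ * y * z)^[p - 1] x ∈ W₀.map W.subtype ∧ (fun y : G => y⁻¹ * z⁻¹ * y * z)^[p - 1] x ∉ ((frattini ↥W₀).map W₀.subtype).map W.subtype := by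
  have hp : p.Prime := Fact.out
  obtain ⟨u, hu, z, hz, A, hAH, hAn, hAi, huA, hzA, hc⟩ :=
    H1.weaklyClosed_transfer (H8.isSyl_sylow S) hW h
  have huW : u ∈ normalizer (W : Set G) :=
    L0.cj_eq_iff.1 (hW.2 u (L0.cj_le_of_le hW.1 (le_normalizer hu)))
  have hzH : z ∈ W ⊔ zpowers u := le_sup_left (b := zpowers u) hz
  have h1 : (fun y : G => y⁻¹ * z⁻¹ * y * z)^[p - 1] u ∈ W := by
    obtain ⟨k, hk⟩ : ∃ k, p - 1 = k + 1 := ⟨p - 2, by have := hp.two_le; omega⟩
    rw [hk]; exact H1.iter_comm_mem hz huW k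
  have h2 := H1.iter_comm_mem' (hAn hzH) huA (p - 1)
  refine ⟨u, hu, z, hz, A.subgroupOf W, H1.isCoatom_of_index_prime ?_, ⟨⟨_, h1⟩, h2, rfl⟩,
    fun h3 => hc ?_⟩
  · change (A.relIndex W).Prime
    rw [← H8.relIndex_sup_of_le_normalizer (le_sup_left.trans hAn),
      show W ⊔ A = W ⊔ zpowers u from le_antisymm (sup_le le_sup_left hAH.le)
        (sup_le_sup_left (zpowers_le.2 huA) W), hAi]
    exact hp
  · have hWp : IsPGroup p W := S.isPGroup'.to_le hW.1
    let f : A.subgroupOf W →* G := W.subtype.comp (A.subgroupOf W).subtype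
    have h4 : frattini (A.subgroupOf W) ≤ (H8.phi p A).comap f := by
      refine (H1.frattini_le_iff_of_isPGroup (hWp.to_subgroup _)).2
        ⟨?_, fun g => H8.pow_mem_phi g.2⟩
      rw [← map_le_iff_le_comap, _root_.commutator_def, map_commutator]
      refine (commutator_mono ?_ ?_).trans (H8.commutator_le_phi A) <;>
      · rintro _ ⟨g, -, rfl⟩; exact g.2
    obtain ⟨_, ⟨a, ha, rfl⟩, e⟩ := h3
    rw [← e]
    exact h4 ha

end Cfsg.Agent.S2792
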