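import Cfsg.Statements.S2793
import Cfsg.Agent.H8.Eigen

set_option autoImplicit false
open Cfsg

namespace Cfsg.Agent.S2793

open Subgroup Cfsg.L0 Cfsg.H8
open scoped commutatorElement

theorem conj_pow_iter {G : Type*} [Group G] {n y : G} {a : ℕ} (h : n * y * n⁻¹ = y ^ a) (d : ℕ) :
    n ^ d * y * (n ^ d)⁻¹ = y ^ a ^ d := by
  induction d with
  | zero => simp
  | succ d IH =>
    rw [pow_succ' n, mul_inv_rev, ← mul_assoc, mul_assoc n, mul_assoc n, IH, ← conj_pow, h, ← pow_mul,
      pow_succ']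

/-- Let p be an odd prime, S a Sylow p-subgroup of the finite group G, J(S) the subgroup generated by the abelian subgroups of S of largest order, and suppose Z(J(S)) does not control strong fusion in G. Put H = N_G(Z(J(S))). Then the group F(p) of upper triangular 3 × 3 matrices (a b c; 0 a⁻¹ d; 0 0 1) over the field with p elements is involved in H, and Z(J(S)) contains a subgroup C of order p with |N_H(C) : C_H(C)| = p − 1. -/
theorem result {G : Type*} [Group G] [Finite G] {p : ℕ} [Fact p.Prime] (hp : p ≠ 2) (S : Sylow p G) (h : ¬ Cfsg.ControlsStrongFusion p (Cfsg.centerThompsonAOf (S : Subgroup G))) (H : Subgroup G) (hH : H = Subgroup.normalizer ((Cfsg.centerThompsonAOf (S : Subgroup G)) : Set G)) : Cfsg.Involves ↥(Cfsg.fOver (ZMod p)) ↥H ∧ ∃ C : Subgroup G, C ≤ (Cfsg.centerThompsonAOf (S : Subgroup G)) ∧ Nat.card C = p ∧ (H ⊓ Subgroup.centralizer (C : Set G)).relIndex (H ⊓ Subgroup.normalizer (C : Set G)) = p - 1 := by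
  subst hH
  rw [centerThompsonAOf_eq] at h ⊢
  have hS := isSyl_sylow S
  have hp' : p.Prime := Fact.out
  rw [controlsStrongFusion_iff hS (ZJ_le _ _) (le_normalizer.trans (normalizer_le_normalizer_ZJ _ _))] at h
  refine ⟨by_contra fun h1 => h ?_, ?_⟩
  · simpa using ctrl_ZJ_of_fOver_free hp (dvd_zero p) hS (sc_self _) (by rwa [top_inf_eq])
  obtain ⟨u, hu⟩ := IsCyclic.exists_ofOrder_eq_natCard (α := (ZMod p)ˣ)
  rw [Nat.card_eq_fintype_card, ZMod.card_units] at hu
  obtain ⟨z, h1, h2, g, -, h3⟩ := exists_eigen_ZJ hp hS (ZMod.val_coe_unit_coprime u) fun h1 =>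
    h (ctrl_of_sc_abelian hS (ZJ_comm _ _) ⟨ZJ_le _ _, fun x hx g h2 => h1 x hx g trivial h2⟩)
  set a := (u : ZMod p).val with ha
  have hz := zpowers_le.2 h1
  obtain ⟨y, h4, h5⟩ := exists_orderOf_eq_of_dvd_card (dvd_card_of_ne_bot
    (hS.isPGroup.to_le (hz.trans (ZJ_le _ _))) (by rwa [Ne, zpowers_eq_bot]))
  have h6 : g * y * g⁻¹ = y ^ a := by
    obtain ⟨k, rfl⟩ := mem_zpowers_iff.1 h4
    rw [← conj_zpow, h3, ← zpow_natCast, ← zpow_natCast, ← zpow_mul, ← zpow_mul, mul_comm]
  have hy := zpowers_le.2 (hz h4)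
  have h7 : ∀ g : G, g * y * g⁻¹ = y ^ a → g ∈ normalizer (zpowers y : Set G) := fun g h7 =>
    mem_normalizer_of_cj_le (by rw [cj_zpowers, h7]; exact zpowers_le.2 (pow_mem (mem_zpowers y) a))
  obtain ⟨R, hR, h8⟩ := exists_isSyl_ge (hS.isPGroup.to_le (JT_le 0 _))
    (le_centralizer_iff.1 (hy.trans (ZJ_le_centralizer 0 _)))
  obtain ⟨n, hn, c, hc, rfl⟩ := hR.frattini' (le_normalizer_centralizer le_rfl (h7 g h6))
  have h9 : n * y * n⁻¹ = y ^ a := by
    rw [← h6, mul_assoc n c, ← hc y (mem_zpowers y)]; group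
  have h10 := normalizer_le_normalizer_JT 0 R hn
  rw [JT_eq_of_le_of_isSyl hS hR.isPGroup le_top h8] at h10
  have hcard : Nat.card (zpowers y) = p := by rw [Nat.card_zpowers, h5]
  refine ⟨zpowers y, hy, hcard, ?_⟩
  rw [show normalizer (ZJ 0 (S : Subgroup G) : Set G) ⊓ centralizer (zpowers y : Set G) =
    normalizer (ZJ 0 (S : Subgroup G) : Set G) ⊓ normalizer (zpowers y : Set G) ⊓
      centralizer (zpowers y : Set G) by rw [inf_assoc, inf_eq_right.2 (centralizer_le_normalizer _)],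
    inf_relIndex_left]
  refine Nat.dvd_antisymm ?_ ?_
  · have := H9.relIndex_centralizer_dvd_card_mulAut (inf_le_right : normalizer (ZJ 0 (S : Subgroup G) : Set G) ⊓
      normalizer (zpowers y : Set G) ≤ _)
    rwa [IsCyclic.card_mulAut, hcard, Nat.totient_prime hp'] at this
  · have h11 := pow_relIndex_mem (le_normalizer_centralizer (inf_le_right :
      normalizer (ZJ 0 (S : Subgroup G) : Set G) ⊓ normalizer (zpowers y : Set G) ≤ _))
      ⟨normalizer_JT_le_normalizer_ZJ _ _ h10, h7 n h9⟩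
    generalize relIndex (G := G) _ _ = d at h11 ⊢
    have h12 := conj_pow_iter h9 d
    rw [← h11 y (mem_zpowers y), mul_inv_cancel_right] at h12
    nth_rewrite 1 [← pow_one y] at h12
    rw [pow_eq_pow_iff_modEq, h5, ← ZMod.natCast_eq_natCast_iff] at h12
    rw [← hu, orderOf_dvd_iff_pow_eq_one]
    ext
    simpa [ha] using h12.symm

end Cfsg.Agent.S2793
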