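import Cfsg.Statements.S2794
import Cfsg.Agent.H8.Stable

set_option autoImplicit false
open Cfsg

namespace Cfsg.Agent.S2794

open Subgroup Cfsg.L0 Cfsg.H8
open scoped commutatorElement


/-- For an odd prime p and a finite group G, the group Qd(p) is not involved in G if and only if in every section K/R of G, for every Sylow p-subgroup S* of K/R, the centre of J(S*) (J generated by the abelian subgroups of largest order) controls strong fusion in K/R. -/
theorem result {G : Type*} [Group G] [Finite G] {p : ℕ} [Fact p.Prime] (hp : p ≠ 2) : ¬ Cfsg.Involves ↥(Cfsg.qd p) G ↔ ∀ (K R : Subgroup G) [hR : (R.subgroupOf K).Normal], ∀ T : Sylow p (K ⧸ R.subgroupOf K), Cfsg.ControlsStrongFusion p (Cfsg.centerThompsonAOf (T : Subgroup (K ⧸ R.subgroupOf K))) := by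
  refine ⟨fun h K R _ T => ?_, fun h ⟨K, R, _, ⟨e⟩⟩ => ?_⟩
  · rw [centerThompsonAOf_eq, controlsStrongFusion_iff (isSyl_sylow T) (ZJ_le _ _)
      (le_normalizer.trans (normalizer_le_normalizer_ZJ _ _))]
    have := ctrl_ZJ_of_qd_free hp (dvd_zero p) (isSyl_sylow T) (sc_self _) fun h' =>
      h (involves_trans (involves_top_iff.1 h') ⟨K, R, inferInstance, ⟨MulEquiv.refl _⟩⟩)
    rwa [top_inf_eq] at this
  · obtain ⟨T⟩ : Nonempty (Sylow p (K ⧸ R.subgroupOf K)) := inferInstance
    have := h K R T
    rw [centerThompsonAOf_eq, controlsStrongFusion_iff (isSyl_sylow T) (ZJ_le _ _)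
      (le_normalizer.trans (normalizer_le_normalizer_ZJ _ _))] at this
    exact not_ctrl_ZJ (F := ZMod p) e (isSyl_sylow T) this

end Cfsg.Agent.S2794
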