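import Cfsg.Statements.S2800
import Cfsg.Agent.H8.WClosed

set_option autoImplicit false
open Cfsg

namespace Cfsg.Agent.S2800

open Subgroup Cfsg.L0 Cfsg.H8
open scoped commutatorElement


/-- Let S be a Sylow p-subgroup of the finite group G and J(S) the subgroup generated by the abelian subgroups of S of largest order. Suppose p is odd, or the symmetric group of degree 4 is not involved in G. If both C_G(Z(S)) and N_G(J(S)) have normal p-complements, then G has a normal p-complement. -/
theorem result {G : Type*} [Group G] [Finite G] {p : ℕ} [Fact p.Prime] (S : Sylow p G) (h : p ≠ 2 ∨ ¬ Cfsg.Involves (Equiv.Perm (Fin 4)) G) (hC : Cfsg.HasNormalPComplement p ↥(Subgroup.centralizer (((S : Subgroup G) ⊓ Subgroup.centralizer ((S : Subgroup G) : Set G) : Subgroup G) : Set G))) (hN : Cfsg.HasNormalPComplement p ↥(Subgroup.normalizer ((Cfsg.thompsonSubgroupAOf (S : Subgroup G)) : Set G))) : Cfsg.HasNormalPComplement p G := by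
  rw [thompsonSubgroupAOf_eq, ← npc_iff] at hN
  rw [← npc_iff] at hC
  rw [← npc_top_iff]
  have hS := isSyl_sylow S
  have hSN := le_normalizer.trans (normalizer_le_normalizer_JT 0 (S : Subgroup G))
  have h1 : ∀ x ∈ (S : Subgroup G) ⊓ centralizer ((S : Subgroup G) : Set G), ∀ g : G,
      g * x * g⁻¹ ∈ (S : Subgroup G) → g * x * g⁻¹ = x := fun x hx g => by
    refine weakly_closed hS hx.1 (fun n hn => ?_)
      (h.imp_right fun h1 => Or.inr fun h2 => h1 (involves_top_iff.1 h2)) g trivial
    have h2 := hN.actsP (hS.isPGroup.to_le (JT_le 0 _)) le_normalizer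
    rw [inf_idem] at h2
    obtain ⟨c, -, h3, w, h4, rfl⟩ := h2.exists_mul (hS.mono hSN le_top) hn.2
    exact mul_mem (mem_centralizer_singleton_iff.2 (h3 x (ZJ_le_JT _ _ (mem_ZJ_of hx.1
      (H7.centralizer_anti (JT_le 0 _) hx.2) (pow_zero _)))).symm) (le_cent_iff.2 hx.2 h4)
  have h2 := ctrl_of_sc_abelian hS (inf_le_right.trans (H7.centralizer_anti inf_le_left))
    ⟨inf_le_left, fun x hx g h2 => (h1 x hx g h2).symm ▸ hx⟩
  refine (h2.mono ?_ le_rfl le_rfl).npc hS (le_centralizer_iff.1 inf_le_right) le_top hC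
  intro g hg x hx
  exact (mul_inv_eq_iff_eq_mul.1 (h1 x hx g (conj_mem_of_mem_normalizer hg hx).1)).symm

end Cfsg.Agent.S2800
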