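import Cfsg.Statements.S2807
import Cfsg.Agent.H1.Yoshida

set_option autoImplicit false
set_option linter.style.haveILetI false
set_option linter.unusedVariables false
open Cfsg

namespace Cfsg.Agent.S2807

open Subgroup

/-- Let S be a Sylow p-subgroup of the finite group G. If S ∩ G' ≠ S ∩ (N_G(S))' (derived subgroups), then the wreath product Z_p ≀ Z_p — realised as a Sylow p-subgroup of the symmetric group of degree p² — is a homomorphic image of S. -/
theorem result {G : Type*} [Group G] [Finite G] {p : ℕ} [Fact p.Prime] (S : Sylow p G) (h : (S : Subgroup G) ⊓ commutator G ≠ (S : Subgroup G) ⊓ ⁅Subgroup.normalizer ((S : Subgroup G) : Set G), Subgroup.normalizer ((S : Subgroup G) : Set G)⁆) : ∃ (P : Sylow p (Equiv.Perm (Fin (p ^ 2)))) (f : ↥(S : Subgroup G) →* ↥(P : Subgroup (Equiv.Perm (Fin (p ^ 2))))), Function.Surjective f := by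
  have hW : IsWeaklyClosed (S : Subgroup G) S := ⟨le_rfl, fun g hg =>
    eq_of_le_of_card_ge hg (L0.card_cj g (S : Subgroup G)).ge⟩
  obtain ⟨u, hu, z, hz, A, hAH, hAn, hAi, huA, hzA, hc⟩ :=
    H1.weaklyClosed_transfer (H8.isSyl_sylow S) hW h
  rw [sup_of_le_left (zpowers_le.2 hu)] at hAH hAn hAi
  haveI : (A.subgroupOf S).Normal := normal_subgroupOf_of_le_normalizer hAn
  refine H1.exists_surjective_wreath S.isPGroup' (A := A.subgroupOf S) hAi (z := ⟨z, hz⟩)
    (u := ⟨u, hu⟩) huA fun h1 => hc ?_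
  have h2 : H8.phi p (A.subgroupOf S) ≤ (H8.phi p A).comap (S : Subgroup G).subtype := by
    refine H8.phi_le_iff.2 ⟨?_, fun g hg => H8.pow_mem_phi hg⟩
    rw [← map_le_iff_le_comap, map_commutator, map_subgroupOf_eq_of_le hAH.le]
    exact H8.commutator_le_phi A
  have h3 := h2 h1
  rwa [mem_comap, H1.map_iter_comm] at h3

end Cfsg.Agent.S2807
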