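import Cfsg.Statements.S2856
import Cfsg.Agent.H9.Amalgam

set_option autoImplicit false
open Cfsg

namespace Cfsg.Agent.S2856

/-- Let (M₁, M₂) be an amalgam pair in X satisfying the rank-two standing hypothesis (characteristic p, the normalizers in M₁ and in M₂ of a Sylow p-subgroup of M₁ ∩ M₂ equal and contained in M₁ ∩ M₂, and strongly p-embedded residues), λ a vertex of the coset graph, L_λ the subgroup of its stabilizer generated by the p-elements, Q_λ = O_p of the stabilizer, O^p(L_λ) the subgroup of L_λ generated by its elements of order prime to p, and V_λ^{(k)} the subgroup generated by the Z_μ over the vertices μ at distance at most k from λ (Z_μ being generated by the Ω₁(Z(S)), S a Sylow p-subgroup of the stabilizer of μ). If n ≥ 1 and V_λ^{(n)} ≤ Q_λ, then O^p(L_λ) does not centralize V_λ^{(n)}/[V_λ^{(n)}, Q_λ], that is, [V_λ^{(n)}, O^p(L_λ)] is not contained in [V_λ^{(n)}, Q_λ]. -/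
theorem result {X : Type*} [Group X] {p : ℕ} [Fact p.Prime] (M₁ M₂ : Subgroup X) (h : Cfsg.IsSpeAmalgamPair p M₁ M₂) (lam : Cfsg.CosetVertex M₁ M₂) (n : ℕ) (hn : 1 ≤ n) (V : Subgroup X) (hV : V = Cfsg.vertexVIter p M₁ M₂ n lam) (hVQ : V ≤ Cfsg.vertexQ p lam) : ¬ ⁅V, ((Cfsg.pResidual p ↥(Cfsg.pElementClosure p (MulAction.stabilizer X lam))).map (Cfsg.pElementClosure p (MulAction.stabilizer X lam)).subtype)⁆ ≤ ⁅V, Cfsg.vertexQ p lam⁆ := by
  intro hc
  rw [H7.pResidualOf_def] at hc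
  have := H9.charP_finite h.1 lam
  have : Finite (Cfsg.vertexQ p lam) := H9.finite_of_le (H7.pCoreOf_le p _)
  obtain ⟨m, rfl⟩ : ∃ m, n = m + 1 := ⟨n - 1, by omega⟩
  obtain ⟨μ, hμ⟩ := H9.cg_exists_adj lam
  have hgen := h.1.1.1
  set W := Cfsg.vertexVIter p M₁ M₂ m μ with hW
  have hWV : W ≤ V := hV ▸ H9.vertexVIter_le_succ hgen hμ
  have hNV : MulAction.stabilizer X lam ≤ Subgroup.normalizer (V : Set X) :=
    hV ▸ H9.stabilizer_le_normalizer_vertexVIter hgen _ _
  have hNW : MulAction.stabilizer X μ ≤ Subgroup.normalizer (W : Set X) :=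
    H9.stabilizer_le_normalizer_vertexVIter hgen _ _
  have hQ : Cfsg.vertexQ p lam ≤ MulAction.stabilizer X lam := H7.pCoreOf_le p _
  have hN : MulAction.stabilizer X lam ≤
      Subgroup.normalizer ((W ⊔ ⁅V, Cfsg.vertexQ p lam⁆ : Subgroup X) : Set X) := by
    refine (H9.spe_stabilizer_le' h hμ).trans (sup_le ?_ ?_)
    · exact H7.le_normalizer_of_commutator_le
        (sup_le hWV (H9.commutator_le_of_le_normalizer (hQ.trans hNV))) (hc.trans le_sup_right)
    · exact H7.le_normalizer_sup (inf_le_right.trans hNW) (inf_le_left.trans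
        (H7.le_normalizer_commutator hNV (H7.le_normalizer_pCoreOf p _)))
  have h1 : V ≤ W ⊔ ⁅V, Cfsg.vertexQ p lam⁆ := by
    conv_lhs => rw [hV]
    refine H9.vertexVIter_succ_le h.1 fun ν hν => ?_
    obtain ⟨g, hg, rfl⟩ := H9.cg_neighbours_transitive hμ hν
    rw [H9.vertexVIter_smul hgen]
    exact H7.cj_le_of_le (hN hg) le_sup_left
  have h2 : V ≤ W := H9.le_of_le_sup_commutator (H7.isPGroup_pCoreOf p _) hVQ (hQ.trans hNV)
    (hWV.trans hVQ) ((H9.vertexQ_le_of_adj h.1 hμ).trans hNW) h1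
  have h3 : V = W := le_antisymm h2 hWV
  have h4 : V = ⊥ := H9.cg_eq_bot_of_normal h.1.1 hμ
    (hVQ.trans (le_inf hQ (H9.vertexQ_le_of_adj h.1 hμ))) hNV (h3 ▸ hNW)
  refine H9.vertexZ_ne_bot h.1 lam (le_bot_iff.mp ?_)
  rw [← h4, hV]
  exact H9.vertexZ_le_vertexVIter (by simp)

end Cfsg.Agent.S2856
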