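import Cfsg.Statements.S2857
import Cfsg.Agent.H9.Amalgam

set_option autoImplicit false
open Cfsg

namespace Cfsg.Agent.S2857

/-- Let (M₁, M₂) be an amalgam pair in X satisfying the rank-two standing hypothesis (characteristic p, the normalizers in M₁ and in M₂ of a Sylow p-subgroup of M₁ ∩ M₂ equal and contained in M₁ ∩ M₂, and strongly p-embedded residues), λ a vertex of the coset graph, L_λ the subgroup of its stabilizer generated by the p-elements, Q_λ = O_p of the stabilizer, O^p(L_λ) the subgroup of L_λ generated by its elements of order prime to p, and V_λ^{(k)} the subgroup generated by the Z_μ over the vertices μ at distance at most k from λ (Z_μ being generated by the Ω₁(Z(S)), S a Sylow p-subgroup of the stabilizer of μ). If n ≥ 2 and V_λ^{(n)} ≤ Q_λ, then O^p(L_λ) does not centralize V_λ^{(n)}/V_λ^{(n-2)}, that is, [V_λ^{(n)}, O^p(L_λ)] is not contained in V_λ^{(n-2)}. -/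
theorem result {X : Type*} [Group X] {p : ℕ} [Fact p.Prime] (M₁ M₂ : Subgroup X) (h : Cfsg.IsSpeAmalgamPair p M₁ M₂) (lam : Cfsg.CosetVertex M₁ M₂) (n : ℕ) (hn : 2 ≤ n) (hVQ : Cfsg.vertexVIter p M₁ M₂ n lam ≤ Cfsg.vertexQ p lam) : ¬ ⁅Cfsg.vertexVIter p M₁ M₂ n lam, ((Cfsg.pResidual p ↥(Cfsg.pElementClosure p (MulAction.stabilizer X lam))).map (Cfsg.pElementClosure p (MulAction.stabilizer X lam)).subtype)⁆ ≤ Cfsg.vertexVIter p M₁ M₂ (n - 2) lam := by
  intro hc
  rw [H7.pResidualOf_def] at hc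
  obtain ⟨m, rfl⟩ : ∃ m, n = m + 2 := ⟨n - 2, by omega⟩
  rw [Nat.add_sub_cancel] at hc
  obtain ⟨μ, hμ⟩ := H9.cg_exists_adj lam
  have hgen := h.1.1.1
  set W := Cfsg.vertexVIter p M₁ M₂ (m + 1) μ with hW
  have hWV : W ≤ Cfsg.vertexVIter p M₁ M₂ (m + 2) lam := H9.vertexVIter_le_succ hgen hμ
  have hVW : Cfsg.vertexVIter p M₁ M₂ m lam ≤ W := H9.vertexVIter_le_succ hgen hμ.symm
  have hNW : MulAction.stabilizer X μ ≤ Subgroup.normalizer (W : Set X) :=
    H9.stabilizer_le_normalizer_vertexVIter hgen _ _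
  have hQ : Cfsg.vertexQ p lam ≤ MulAction.stabilizer X lam := H7.pCoreOf_le p _
  have hN : MulAction.stabilizer X lam ≤ Subgroup.normalizer (W : Set X) :=
    (H9.spe_stabilizer_le' h hμ).trans (sup_le
      (H7.le_normalizer_of_commutator_le hWV (hc.trans hVW)) (inf_le_right.trans hNW))
  have h4 : W = ⊥ := H9.cg_eq_bot_of_normal h.1.1 hμ
    ((hWV.trans hVQ).trans (le_inf hQ (H9.vertexQ_le_of_adj h.1 hμ))) hN hNW
  refine H9.vertexZ_ne_bot h.1 μ (le_bot_iff.mp ?_)
  rw [← h4, hW]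
  exact H9.vertexZ_le_vertexVIter (by simp)

end Cfsg.Agent.S2857
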