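import Cfsg.Statements.S2945
import Cfsg.Agent.H9.JComp

set_option autoImplicit false
open Cfsg

namespace Cfsg.Agent.S2945

open Subgroup Cfsg.H9
open Cfsg.H7 (cj mem_cj stab)
open scoped commutatorElement

theorem commutator_le_pCoreOf {G : Type*} [Group G] [Finite G] {K : Subgroup G} (h : K3 K) :
    ⁅K, K⁆ ≤ pCoreOf 2 K := by
  refine (H7.le_stab_iff.mp (h.res.ge.trans (H7.pResidualOf_le_of_pow_mem fun x hx => ⟨1, ?_⟩))).2
  obtain ⟨k, hk⟩ := h.relIndex_stab (X := K) le_normalizer
  have := pow_mem (pow_relIndex_mem (H7.le_normalizer_stab le_normalizer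
    (H7.le_normalizer_pCoreOf 2 K)) hx) k
  rwa [← pow_mul, ← hk, ← pow_one 2] at this

theorem aux {G : Type*} [Group G] [Finite G] {K H T : Subgroup G} (h : K3 K)
    (h4 : Nat.card (wOf K) = 4) (hsn : L0.SN K H) (hsol : Group.IsSolvable H)
    (hT : H7.IsSylowIn 2 T H) : thompsonSubgroupOf 2 T ≤ normalizer (wOf K : Set G) := by
  have hKH := hsn.le
  have hQK : pCoreOf 2 H ≤ normalizer (K : Set G) := by
    have := H7.pCoreOf_le_normalizer_pResidualOf (p := 2) hsn
    rwa [h.res] at this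
  have hQW : pCoreOf 2 H ≤ centralizer (wOf K : Set G) :=
    h.le_centralizer_wOf h4 (H7.isPGroup_pCoreOf 2 H) (hKH.trans (H7.le_normalizer_pCoreOf 2 H))
      (hQK.trans (normalizer_le_normalizer_wOf K))
  have hOQ : pCoreOf 2 K ≤ pCoreOf 2 H := H7.pCoreOf_le_of_sn hsn
  set U := wOf K ⊔ ⁅H, wOf K⁆ with hU
  have hUZ : U ≤ omegaOneCenter 2 (pCoreOf 2 H) := H7.sup_commutator_le_of_normal
    (H7.le_omegaOneCenter ((wOf_le_pCoreOf K).trans hOQ) (le_centralizer_iff.mp hQW)
      fun v hv => (H7.isElementaryAbelian_iff.mp (ea_wOf K)).2 v hv) (le_normalizer_V H)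
  have hUe : IsElementaryAbelian 2 U := H7.ea_mono (H7.ea_omegaOneCenter 2 _) hUZ
  have hHU : H ≤ normalizer (U : Set G) := H7.le_normalizer_sup_commutator _ _
  have hQU : pCoreOf 2 H ≤ centralizer (U : Set G) :=
    (H7.le_centralizer_omegaOneCenter 2 _).trans (H7.centralizer_anti hUZ)
  have hUK : ⁅U, K⁆ = wOf K := le_antisymm (h.commutator_le_wOf hUe (hKH.trans hHU)
    (hUZ.trans ((H7.omegaOneCenter_le 2 _).trans hQK)) (hOQ.trans hQU))
    (h.wOf_comm.ge.trans (commutator_mono le_sup_left le_rfl))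
  set C := H ⊓ centralizer (U : Set G) with hC
  have hHC : H ≤ normalizer (C : Set G) :=
    H7.le_normalizer_inf le_normalizer (H7.le_normalizer_centralizer hHU)
  have hW : ∀ g ∈ H, ⁅U, cj g K ⊔ C⁆ = cj g (wOf K) := fun g hg => by
    rw [H7.commutator_sup_of_le_centralizer ((H7.cj_le_of_le' hg hKH).trans hHU) inf_le_right,
      ← hUK, H7.cj_commutator, H7.cj_eq_of_mem_normalizer (hHU hg)]
  have hred : H7.QRed 2 C H := by
    intro D hD hn hr
    refine le_inf hD (H7.le_centralizer_sup_commutator ?_ hn)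
    have h1 := H7.le_normalizer_pResidualOf_of_sn (H7.sn_qim C hsn)
      ((H7.isPGroup_qim_iff (hD.trans hHC)).mpr hr) (H7.qim_mono C hD)
      (H7.qim_le_normalizer C (hKH.trans hn))
    rw [← H7.qim_pResidualOf (hKH.trans hHC), h.res] at h1
    have h2 := H7.le_normalizer_qpre (hD.trans hHC) h1
    rw [H7.qpre_qim (hKH.trans hHC)] at h2
    have h3 := H7.le_normalizer_commutator (hD.trans hHU) h2
    have h5 := hW 1 (one_mem H)
    rw [H7.cj_one, H7.cj_one] at h5
    rw [h5] at h3
    exact le_centralizer_iff.mp (h.wOf_le_of_inf_ne_bot h4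
      (H7.le_normalizer_centralizer (hKH.trans hn)) (H7.inf_centralizer_ne_bot' (isPGroup_wOf K) h3
        (hr.trans (inf_le_right.trans (H7.centralizer_anti le_sup_left))) (K3.ne_bot_of_card h4)))
  obtain ⟨F, hF⟩ := exists_ffa' hsol hUe hHU inf_le_left hHC hred inf_le_right
    (by rw [relIndex_self]; exact odd_one)
  have hOC : pCoreOf 2 K ≤ C := le_inf ((H7.pCoreOf_le 2 K).trans hKH) (hOQ.trans hQU)
  have hKF : K ≤ F := hF.snle K hsn (by
    rw [← inf_relIndex_right, (eq_or_eq_of_relIndex_prime h.prime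
      (le_inf hOC (H7.pCoreOf_le 2 K)) inf_le_right).resolve_right fun e => ?_]
    · exact h.prime
    · refine K3.ne_bot_of_card h4 ?_
      rw [← hUK]
      exact H7.commutator_eq_bot_iff'.mpr (e.ge.trans (inf_le_left.trans inf_le_right)))
  refine J_le_iff.mpr fun A hA => (hF.gen A (hA.le.trans hT.le) hA.ea
    (hA.best (hUZ.trans ((H7.omegaOneCenter_le 2 _).trans hT.pCoreOf_le)) hUe)
    (commutator_le_of_le_normalizer (hA.le.trans (hT.le.trans hHC)))).trans (sup_le ?_
      (inf_le_right.trans ((H7.centralizer_anti le_sup_left).trans (centralizer_le_normalizer _))))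
  rw [closure_le]
  rintro t ⟨-, ht⟩
  have h1 : cj t K ≤ K ⊔ RA F C t := by
    rw [H7.cj_le_iff']
    intro k hk
    have := mul_mem (mem_sup_right (S := K) (mem_sup_left (T := C)
      (H7.commutator_mem_commutator' (hKF hk) (mem_zpowers t)))) (mem_sup_left hk)
    convert this using 1
    simp only [commutatorElement_def]
    group
  have h2 : ⁅cj t K ⊔ C, K⁆ ≤ C := H7.sup_commutator_le
    ((H7.cj_le_of_le' ht.mem hKH).trans hHC) le_normalizer ((commutator_mono h1 le_rfl).trans
      (H7.sup_commutator_le (hKH.trans hHC) ((sup_le (commutator_le_of_le hF.FL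
        (zpowers_le.mpr ht.mem)) inf_le_left).trans hHC) ((commutator_le_pCoreOf h).trans hOC)
        ((commutator_mono le_rfl hKF).trans (hF.commR t ht))))
    (commutator_le_of_le_normalizer (hKH.trans hHC))
  have h3 := H7.le_normalizer_commutator (hKH.trans hHU)
    (H7.le_normalizer_of_commutator_le le_rfl (h2.trans le_sup_right))
  rw [hW t ht.mem] at h3
  have h5 : wOf K ⊓ centralizer {t} ≠ ⊥ := fun e => by
    have := relIndex_le_of_le_right (H := centralizer ({t} : Set G)) (le_sup_left : wOf K ≤ U)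
      (relIndex_pos _ _).ne'
    rw [ht.idx, ← inf_relIndex_left, e, relIndex_bot_left, h4] at this
    exact absurd this (by norm_num)
  have h6 := h.wOf_le_of_inf_ne_bot h4 h3 (H7.ne_bot_of_le (le_inf inf_le_left fun w hw =>
    mem_cj.mpr (by
      rw [mul_assoc, mem_centralizer_singleton_iff.mp hw.2, inv_mul_cancel_left]; exact hw.1)) h5)
  exact H7.mem_normalizer_iff_cj.mpr (H7.eq_of_le_of_card_le h6 (H7.card_cj _ _).le).symm

/-- Let G be a finite group of characteristic 2 type in which every 2-local subgroup is solvable and the centralizer of Ω₁(Z(S)) lies in N_G(S) for every Sylow 2-subgroup S, and let T be a nontrivial 2-subgroup (below, J is the Thompson subgroup generated by the elementary abelian 2-subgroups of largest order), L a subgroup in which T is a Sylow 2-subgroup with J(T) not contained in O₂(L) and C_G(O₂(L)) ≤ O₂(L), and K ≤ L a subgroup that is subnormal in ⟨K, J(T)⟩. If for some conjugate Tᵍ of T, K is a J(Tᵍ)-component with J(Tᵍ) the Thompson subgroup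 of every Sylow 2-subgroup of N_G(W_K) containing J(Tᵍ) (W_K = [Ω₁(Z(O₂(K))), K]), then K is a J(T)-component. -/
theorem result {G : Type*} [Group G] [Finite G] (hL : Cfsg.IsCharacteristicTwoType G) (hN : ∀ N : Subgroup G, Cfsg.IsTwoLocal N → Group.IsSolvable ↥N)
    (hZ : ∀ S : Sylow 2 G, Subgroup.centralizer (Cfsg.omegaCenterOf (S : Subgroup G) : Set G) ≤ Subgroup.normalizer ((S : Subgroup G) : Set G)) (T : Subgroup G) (hT : IsPGroup 2 ↥T) (hT1 : T ≠ ⊥) (L : Subgroup G) (hLT : L ∈ Cfsg.jOvergroups T)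
    (K : Subgroup G) (hKL : K ≤ L) (hKsn : (K.subgroupOf (K ⊔ Cfsg.thompsonSubgroupOf 2 T)).IsSubnormal)
    (g : G) (hKg : K ∈ Cfsg.jComponentsZero (T.map (MulAut.conj g).toMonoidHom)) : Cfsg.IsJComponent T K := by
  have h := isJComponent_iff.mp hKg.1
  have hS := isSylowTwoIn_iff.mp hLT.1
  have hH : K ⊔ thompsonSubgroupOf 2 T ≤ L := sup_le hKL ((J_le 2 T).trans hS.le)
  obtain ⟨T₁, h1, h2⟩ := H7.exists_isSylowIn_ge (isPGroup_J hT) (le_sup_right (a := K))
  obtain ⟨x, -, hx⟩ := hS.exists_le_cj h1.isPGroup (h1.le.trans hH)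
  have h3 := aux h.k3 h.card (L0.sn_iff.mpr ⟨le_sup_left, hKsn⟩)
    (isSolvable_of_le_normalizer hN (H7.isPGroup_pCoreOf 2 L) (fun e => hLT.2.1 (by
      have h3 := hLT.2.2
      rw [e, H7.centralizer_bot'] at h3
      exact le_top.trans (h3.trans bot_le))) (hH.trans (H7.le_normalizer_pCoreOf 2 L))) h1
  rw [J_eq_of_le_cj h2 hx] at h3
  have := jc_cj_of_le hL hN hZ (H7.isPGroup_cj hT) hKg (g := g⁻¹) (by rwa [H7.cj_inv_cj])
  rw [H7.cj_inv_cj] at this
  exact isJComponent_iff.mpr this

end Cfsg.Agent.S2945
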