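import Cfsg.Statements.S3084
import Cfsg.Agent.H4.Twisted

set_option autoImplicit false
open Cfsg

namespace Cfsg.Agent.S3084

/-- Let K be a group acting faithfully and linearly on a finite-dimensional vector space U of dimension 2n ≥ 2 over the field with two elements, preserving a quadratic form q whose polar bilinear form is non-degenerate and which vanishes on some n-dimensional subspace (a non-singular form of plus type). Then there is a finite group R with a normal extraspecial 2-subgroup Q of order 2^(2n+1), an isomorphism of R/Q with K, and a surjective homomorphism χ from Q onto (the additive group of) U with kernel the centre of Q, such that χ carries conjugation by any r in R to the action of the image of r in K, and an element a of Q squares to the identity exactly when q vanishes at χ(a). -/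
theorem result {K : Type*} [Group K] {U : Type*} [AddCommGroup U] [Module (ZMod 2) U] [Module.Finite (ZMod 2) U] (n : ℕ) (hn1 : 1 ≤ n) (hn : Module.finrank (ZMod 2) U = 2 * n) (ρ : Representation (ZMod 2) K U) (hρ : Function.Injective ρ) (q : QuadraticForm (ZMod 2) U) (hq : ∀ (k : K) (u : U), q (ρ k u) = q u) (hnd : (QuadraticMap.polarBilin q).Nondegenerate) (hplus : ∃ W : Submodule (ZMod 2) U, Module.finrank (ZMod 2) ↥W = n ∧ ∀ w ∈ W, q w = 0) : ∃ (R : Type) (_ : Group R) (_ : Finite R) (Q : Subgroup R) (hN : Q.Normal) (e : R ⧸ Q ≃* K) (χ : ↥Q →* Multiplicative U), Cfsg.IsExtraspecial 2 ↥Q ∧ Nat.card ↥Q = 2 ^ (2 * n + 1) ∧ Function.Surjective χ ∧ χ.ker = Subgroup.center ↥Q ∧ (∀ (r : R) (a : ↥Q), χ ⟨r * a * r⁻¹, hN.conj_mem (a : R) a.2 r⟩ = Multiplicative.ofAdd (ρ (e (r : R ⧸ Q)) (Multiplicative.toAdd (χ a)))) ∧ ∀ a : ↥Q, a * a = 1 ↔ q (Multiplicative.toAdd (χ a)) = 0 := by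
  have : Finite U := Module.finite_of_finite (ZMod 2)
  have := Fintype.ofFinite U
  have : Nontrivial U := Module.nontrivial_of_finrank_pos (R := ZMod 2) (by omega)
  let β : U →ₗ[ZMod 2] U →ₗ[ZMod 2] ZMod 2 := q.toBilin (Module.finBasis (ZMod 2) U)
  have hβ : LinearMap.BilinMap.toQuadraticMap β = q := q.toQuadraticMap_toBilin _
  have h1 : ∀ u, β u u = q u := fun u => by rw [← hβ]; rfl
  have h2 : ∀ u, (∀ v, β u v + β v u = 0) → u = 0 := fun u h => hnd.1 u fun v => by
    rw [← hβ, QuadraticMap.polarBilin_apply_apply, LinearMap.BilinMap.polar_toQuadraticMap, h]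
  obtain ⟨A, _, _, b, hb0, hb⟩ := H4.exists_twisted_algebra β
  obtain ⟨R, _, π, j, hπ, hj, hr⟩ := H4.tw_group hb0 hb h2 ρ hρ fun k u => by rw [h1, h1, hq]
  obtain ⟨χ, hχ, hE, hk, hsq⟩ := H4.extraspecial_of_equiv β h2 j hj
  have : Finite K := Finite.of_injective _ (DFunLike.coe_injective.comp hρ)
  have : Finite π.ker := Finite.of_equiv _ j
  let e := QuotientGroup.quotientKerEquivOfSurjective π hπ
  have : Finite (R ⧸ π.ker) := Finite.of_equiv _ e.symm.toEquiv
  refine ⟨R, inferInstance, Finite.of_subgroup_quotient π.ker, π.ker, inferInstance, e, χ, hE, ?_,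
    fun u => ⟨j (u.toAdd, 0), hχ _⟩, hk, fun r a => ?_, fun a => by rw [hsq, h1]⟩
  · rw [← Nat.card_congr j, Nat.card_prod, Module.natCard_eq_pow_finrank (K := ZMod 2), hn,
      Nat.card_zmod, pow_succ]
  · obtain ⟨x, rfl⟩ := j.surjective a
    obtain ⟨t, ht⟩ := hr r x
    rw [hχ]
    exact (congrArg χ (Subtype.ext ht)).trans (hχ _)

end Cfsg.Agent.S3084
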