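import Cfsg.Statements.S3085
import Cfsg.Agent.L0.Class2
import Cfsg.Agent.L0.KS12e
-- import your own Cfsg.Agent.* helpers here

set_option autoImplicit false
open Cfsg

namespace Cfsg.Agent.S3085

section
open Subgroup
open scoped commutatorElement

variable {Q : Type*} [Group Q]

/-- the structure used -/
structure ES (z : Q) : Prop where
  ne : z ≠ 1
  sq : z * z = 1
  cen : ∀ x, x * z = z * x
  comm : ∀ x y : Q, x * y = y * x ∨ x * y = z * (y * x)
  ctr : ∀ x : Q, (∀ y, x * y = y * x) → x = 1 ∨ x = z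
  sqc : ∀ x y : Q, x * x * y = y * (x * x)

open Classical in
/-- the transvection map -/
noncomputable def tf (a x : Q) : Q := if x * a = a * x then x else a * x

theorem tf_pos {a x : Q} (h : x * a = a * x) : tf a x = x := if_pos h
theorem tf_neg {a x : Q} (h : ¬ x * a = a * x) : tf a x = a * x := if_neg h

theorem tf_mul {z a : Q} (h : ES z) (ha : a * a = z) (x y : Q) : tf a (x * y) = tf a x * tf a y := by
  by_cases hx : x * a = a * x <;> by_cases hy : y * a = a * y
  · rw [tf_pos hx, tf_pos hy, tf_pos (by rw [mul_assoc, hy, ← mul_assoc, hx, mul_assoc])]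
  · rw [tf_pos hx, tf_neg hy, tf_neg fun e => hy (by
      rw [← mul_assoc, ← hx, mul_assoc, mul_assoc] at e; exact mul_left_cancel e), ← mul_assoc, ← hx,
      mul_assoc]
  · rw [tf_neg hx, tf_pos hy, tf_neg fun e => hx (by
      rw [mul_assoc, hy, ← mul_assoc, ← mul_assoc] at e; exact mul_right_cancel e), mul_assoc]
  · have e1 := (h.comm x a).resolve_left hx
    have e2 := (h.comm y a).resolve_left hy
    rw [tf_neg hx, tf_neg hy, tf_pos]
    · calc x * y = z * z * (x * y) := by rw [h.sq, one_mul]
        _ = z * (a * a) * x * y := by rw [ha]; group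
        _ = (a * z) * a * x * y := by rw [h.cen a]; group
        _ = a * (z * (a * x)) * y := by group
        _ = _ := by rw [← e1]; group
    · calc x * y * a = x * (z * (a * y)) := by rw [mul_assoc, e2]
        _ = (x * z) * (a * y) := by group
        _ = z * (x * a) * y := by rw [h.cen x]; group
        _ = (z * z) * a * (x * y) := by rw [e1]; group
        _ = _ := by rw [h.sq, one_mul]

theorem tf_inv (a x : Q) : tf a⁻¹ (tf a x) = x := by
  have key : ∀ y : Q, y * a⁻¹ = a⁻¹ * y ↔ y * a = a * y := fun y =>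
    ⟨fun e => (Commute.inv_right_iff.mp e :), fun e => (Commute.inv_right_iff.mpr e :)⟩
  by_cases hx : x * a = a * x
  · rw [tf_pos hx, tf_pos ((key x).mpr hx)]
  · rw [tf_neg hx, tf_neg fun e => hx (by
      have := (key _).mp e
      rw [mul_assoc] at this; exact mul_left_cancel this), inv_mul_cancel_left]

/-- the transvection automorphism -/
noncomputable def tv {z a : Q} (h : ES z) (ha : a * a = z) : MulAut Q where
  toFun := tf a
  invFun := tf a⁻¹
  left_inv := tf_inv a
  right_inv x := by have := tf_inv a⁻¹ x; rwa [inv_inv] at this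
  map_mul' := tf_mul h ha

theorem tv_apply {z a : Q} (h : ES z) (ha : a * a = z) (x : Q) : tv h ha x = tf a x := rfl

theorem tv_sq {z a : Q} (h : ES z) (ha : a * a = z) : tv h ha * tv h ha = MulAut.conj a := by
  ext x
  rw [MulAut.mul_apply, tv_apply, tv_apply, MulAut.conj_apply]
  by_cases hx : x * a = a * x
  · rw [tf_pos hx, tf_pos hx, ← hx, mul_inv_cancel_right]
  · rw [tf_neg hx, tf_neg fun e => hx (by rw [mul_assoc] at e; exact mul_left_cancel e),
      ← mul_assoc, ha, eq_mul_inv_iff_mul_eq, mul_assoc, (h.comm x a).resolve_left hx, ← mul_assoc,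
      h.sq, one_mul]

theorem tv_comm {z a b : Q} (h : ES z) (ha : a * a = z) (hb : b * b = z) (hab : a * b = b * a) :
    tv h ha * tv h hb = tv h hb * tv h ha := by
  ext x
  simp only [MulAut.mul_apply, tv_apply]
  have k : ∀ {a b x : Q}, a * b = b * a → (b * x * a = a * (b * x) ↔ x * a = a * x) := by
    intro a b x hab
    rw [← mul_assoc, hab, mul_assoc, mul_assoc, mul_left_cancel_iff]
  by_cases hx : x * a = a * x <;> by_cases hy : x * b = b * x
  · rw [tf_pos hx, tf_pos hy, tf_pos hx]
  · rw [tf_pos hx, tf_neg hy, tf_pos ((k hab).mpr hx)]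
  · rw [tf_neg hx, tf_pos hy, tf_neg hx, tf_pos ((k hab.symm).mpr hy)]
  · rw [tf_neg hx, tf_neg hy, tf_neg (mt (k hab).mp hx), tf_neg (mt (k hab.symm).mp hy),
      ← mul_assoc, hab, mul_assoc]

theorem mul_conj' (φ : MulAut Q) (y : Q) : φ * MulAut.conj y = MulAut.conj (φ y) * φ := by
  ext x; simp

theorem central_of_conj_eq {x y : Q} (h : (MulAut.conj x : MulAut Q) = MulAut.conj y) (w : Q) :
    y⁻¹ * x * w = w * (y⁻¹ * x) := by
  have := DFunLike.congr_fun h w
  simp only [MulAut.conj_apply] at this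
  calc y⁻¹ * x * w = y⁻¹ * (x * w * x⁻¹) * x := by group
    _ = _ := by rw [this]; group

theorem main {z : Q} (h : ES z) {L : Subgroup (MulAut Q)} (hL : (Cfsg.Inn Q).IsComplement' L)
    {a u v : Q} (ha : a * a = z) (hu : u * u = 1) (hv : v * v = 1) (hau : a * u = u * a)
    (hav : a * v = v * a) (huv : u * v = v * u) (hu' : ¬ (u = 1 ∨ u = z)) (hv' : ¬ (v = 1 ∨ v = z))
    (huv' : ¬ (u * v = 1 ∨ u * v = z)) : False := by
  have hone : ∀ s ∈ L, s ∈ Cfsg.Inn Q → s = 1 := fun s h1 h2 =>
    mem_bot.mp (hL.disjoint.le_bot ⟨h2, h1⟩)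
  have hlift : ∀ φ : MulAut Q, ∃ y, MulAut.conj y * φ ∈ L := fun φ => by
    obtain ⟨⟨⟨_, y, rfl⟩, l⟩, e⟩ := hL.2 φ
    refine ⟨y⁻¹, ?_⟩
    rw [← e, map_inv]
    simp
  have nc : ∀ b : Q, b * b = z → ¬ ∀ w, b * w = w * b := fun b hb hc => by
    rcases h.ctr b hc with e | e
    · exact h.ne (by rw [← hb, e, one_mul])
    · exact h.ne (by rw [← hb, e, h.sq])
  obtain ⟨y, hy⟩ := hlift (tv h ha)
  have h1 : ¬ y * a = a * y := fun e => by
    have e1 : (MulAut.conj y * tv h ha) * (MulAut.conj y * tv h ha) = MulAut.conj (y * y * a) := by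
      rw [mul_assoc, ← mul_assoc (tv h ha), mul_conj', tv_apply, tf_pos e, mul_assoc, tv_sq, map_mul,
        map_mul, mul_assoc]
    have e2 := hone _ (mul_mem hy hy) ⟨_, e1.symm⟩
    rw [e1, ← map_one MulAut.conj] at e2
    refine nc a ha fun w => ?_
    have := central_of_conj_eq e2 w
    rw [inv_one, one_mul, ← mul_assoc w, ← h.sqc, mul_assoc, mul_assoc (y * y)] at this
    exact mul_left_cancel this
  have h2 : ∀ c : Q, c * c = 1 → a * c = c * a → ¬ (c = 1 ∨ c = z) → y * (a * c) = a * c * y := by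
    intro c hc hac hc'
    have hb : a * c * (a * c) = z := by
      calc _ = a * (c * a) * c := by group
        _ = a * a * (c * c) := by rw [← hac]; group
        _ = z := by rw [ha, hc, mul_one]
    have hab : a * (a * c) = a * c * a := by rw [mul_assoc, hac]
    obtain ⟨w, hw⟩ := hlift (tv h hb)
    have e1 : (MulAut.conj y * tv h ha) * (MulAut.conj w * tv h hb) =
        MulAut.conj (y * tf a w) * (tv h ha * tv h hb) := by
      rw [mul_assoc, ← mul_assoc (tv h ha), mul_conj', tv_apply, map_mul]; group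
    have e2 : (MulAut.conj w * tv h hb) * (MulAut.conj y * tv h ha) =
        MulAut.conj (w * tf (a * c) y) * (tv h ha * tv h hb) := by
      rw [mul_assoc, ← mul_assoc (tv h hb), mul_conj', tv_apply, map_mul, tv_comm h ha hb hab]; group
    have e3 := hone _ (mul_mem (inv_mem (mul_mem hw hy)) (mul_mem hy hw)) (by
      rw [e1, e2, mul_inv_rev, mul_assoc, ← mul_assoc (MulAut.conj _)⁻¹, ← mul_assoc]
      exact (Cfsg.innNormal Q).conj_mem' _ (mul_mem (inv_mem ⟨_, rfl⟩) ⟨_, rfl⟩) _)
    rw [inv_mul_eq_one, e1, e2, mul_right_cancel_iff] at e3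
    have e4 := central_of_conj_eq e3
    by_contra hn
    rw [tf_neg hn] at e4
    letI : CommGroup (Q ⧸ center Q) := { (inferInstance : Group (Q ⧸ center Q)) with
      mul_comm := fun p q => by
        obtain ⟨p, rfl⟩ := QuotientGroup.mk_surjective p
        obtain ⟨q, rfl⟩ := QuotientGroup.mk_surjective q
        rw [← QuotientGroup.mk_mul, ← QuotientGroup.mk_mul, QuotientGroup.eq, mem_center_iff]
        intro t
        rcases h.comm q p with e | e
        · rw [e, inv_mul_cancel, one_mul, mul_one]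
        · rw [e, ← h.cen, inv_mul_cancel_left, h.cen] }
    have hf : ∀ x : Q, QuotientGroup.mk' (center Q) x = 1 ↔ ∀ t, x * t = t * x := fun x => by
      rw [QuotientGroup.mk'_apply, QuotientGroup.eq_one_iff, mem_center_iff]
      exact forall_congr' fun t => eq_comm
    rw [← hf] at e4
    by_cases hwa : w * a = a * w
    · rw [tf_pos hwa] at e4
      refine nc _ hb ((hf _).mp ?_)
      rw [← e4]
      simp only [map_mul, map_inv]
      apply Additive.ofMul.injective
      simp only [ofMul_mul, ofMul_inv]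
      abel
    · rw [tf_neg hwa] at e4
      refine hc' (h.ctr c ((hf _).mp ?_))
      rw [← e4]
      simp only [map_mul, map_inv]
      apply Additive.ofMul.injective
      simp only [ofMul_mul, ofMul_inv]
      abel
  have c1 := h2 u hu hau hu'
  have c2 := h2 v hv hav hv'
  have c3 := h2 (u * v) (by
    calc _ = u * (v * u) * v := by group
      _ = u * u * (v * v) := by rw [← huv]; group
      _ = 1 := by rw [hu, hv, one_mul]) (by rw [← mul_assoc, hau, mul_assoc, hav, mul_assoc]) huv'
  refine h1 ?_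
  have e : a = (a * u) * (a * (u * v))⁻¹ * (a * v) := by
    calc a = a * (u * v) * (u * v)⁻¹ := by group
      _ = a * u * (a * (u * v))⁻¹ * (a * (u * v) * v * (u * v)⁻¹) := by group
      _ = a * u * (a * (u * v))⁻¹ * (a * u * (v * v) * (v * u)⁻¹) := by rw [← huv]; group
      _ = a * u * (a * (u * v))⁻¹ * (a * v⁻¹) := by rw [hv]; group
      _ = _ := by rw [inv_eq_of_mul_eq_one_right hv]
  have := ((Commute.mul_right (c1 : Commute y _) (Commute.inv_right (c3 : Commute y _))).mul_right
    (c2 : Commute y _))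
  rwa [← e] at this

end

/-- Let Q be an extraspecial 2-group of order 2^(2n+1) with n ≥ 3 that is of plus type (it contains an elementary abelian subgroup of order 2^(n+1)). Then the group of inner automorphisms of Q has no complement in the full automorphism group of Q: the extension of the inner automorphism group (elementary abelian of order 2^(2n)) by the outer automorphism group (the orthogonal group of plus type) does not split. -/
theorem result {Q : Type*} [Group Q] [Finite Q] (n : ℕ) (hn : 3 ≤ n) (hQ : Cfsg.IsExtraspecial 2 Q) (hcard : Nat.card Q = 2 ^ (2 * n + 1)) (hplus : ∃ E : Subgroup Q, Cfsg.IsElementaryAbelian 2 E ∧ Nat.card ↥E = 2 ^ (n + 1)) (L : Subgroup (MulAut Q)) : ¬ (Cfsg.Inn Q).IsComplement' L := by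
  intro hL
  classical
  obtain ⟨z, hz1, hz2, hz⟩ := L0.es_two_center hQ
  have hle := L0.es_le hQ
  have hzc : z ∈ Subgroup.center Q := (hz z).mpr (Or.inr rfl)
  have h : ES z := ⟨hz1, hz2, Subgroup.mem_center_iff.mp hzc, fun x y => by
    rcases (hz _).mp (L0.comm_mem_center hle x y) with e | e
    · exact Or.inl (commutatorElement_eq_one_iff_mul_comm.mp e)
    · exact Or.inr (by rw [← e, commutatorElement_def]; group),
    fun x hx => (hz x).mp (Subgroup.mem_center_iff.mpr fun y => (hx y).symm),
    fun x y => by rw [← pow_two]; exact (Subgroup.mem_center_iff.mp (L0.es_pow_mem hQ x) y).symm⟩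
  obtain ⟨E, hE, hEc⟩ := hplus
  have big : ∀ s : Finset Q, s.card ≤ 4 → ∃ v ∈ E, v ∉ s := fun s hs => by
    by_contra hc
    push Not at hc
    have h1 : (E : Set Q).ncard ≤ (s : Set Q).ncard := Set.ncard_le_ncard hc (Set.toFinite _)
    rw [Set.ncard_coe_finset, ← Nat.card_coe_set_eq] at h1
    have h2 : 2 ^ 4 ≤ 2 ^ (n + 1) := Nat.pow_le_pow_right (by norm_num) (by omega)
    have h3 : Nat.card (E : Set Q) = 2 ^ (n + 1) := hEc
    omega
  obtain ⟨u, hu, hu'⟩ := big {1, z} (Finset.card_le_two.trans (by norm_num))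
  obtain ⟨v, hv, hv'⟩ := big {1, z, u, u * z} Finset.card_le_four
  have sq : ∀ x ∈ E, x * x = 1 := fun x hx => by rw [← pow_two]; exact hE.2 x hx
  simp only [Finset.mem_insert, Finset.mem_singleton, not_or] at hu' hv'
  have idx : ∀ x : Q, x * x = 1 → (Subgroup.centralizer ({x} : Set Q)).index ≤ 2 := fun x hx => by
    rw [← H7.centralizer_zpowers, L0.index_centralizer_eq hle (L0.es_isCyclic hQ)]
    refine (Nat.le_of_dvd Nat.card_pos (H9.relIndex_dvd_card' _ _)).trans ?_
    rw [Nat.card_zpowers]
    exact Nat.le_of_dvd two_pos (orderOf_dvd_of_pow_eq_one (by rw [pow_two, hx]))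
  set C := Subgroup.centralizer ({u} : Set Q) ⊓ Subgroup.centralizer ({v} : Set Q) with hC
  have hCi : C.index ≤ 4 :=
    Subgroup.index_inf_le.trans (Nat.mul_le_mul (idx u (sq u hu)) (idx v (sq v hv)))
  obtain ⟨a, ha, ha2⟩ : ∃ a ∈ C, a * a ≠ 1 := by
    by_contra hc
    push Not at hc
    have h1 := H7.ea_le_centralizer (KS12.ea_of_sq hc)
    have h2 := (Subgroup.index_antitone h1).trans hCi
    rw [L0.index_centralizer_eq hle (L0.es_isCyclic hQ)] at h2
    have h3 := H7.relIndex_mul_card_of_le (show Subgroup.center Q ≤ C from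
      le_inf (Subgroup.center_le_centralizer _) (Subgroup.center_le_centralizer _))
    have h4 := C.card_mul_index
    rw [hQ.2] at h3
    have h5 : 2 ^ 7 ≤ 2 ^ (2 * n + 1) := Nat.pow_le_pow_right (by norm_num) (by omega)
    rw [hcard, ← h3] at h4
    nlinarith
  have ha3 : a * a = z := ((hz _).mp (by rw [← pow_two]; exact L0.es_pow_mem hQ a)).resolve_left ha2
  refine main h hL ha3 (sq u hu) (sq v hv) (Subgroup.mem_centralizer_singleton_iff.mp ha.1)
    (Subgroup.mem_centralizer_singleton_iff.mp ha.2) (H7.ea_le_centralizer hE hv u hu)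
    (not_or.mpr hu') (not_or.mpr ⟨hv'.1, hv'.2.1⟩) ?_
  rintro (e | e)
  · exact hv'.2.2.1 (by rw [← one_mul v, ← sq u hu, mul_assoc, e, mul_one])
  · exact hv'.2.2.2 (by rw [← e, ← mul_assoc, sq u hu, one_mul])

end Cfsg.Agent.S3085
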